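/-
The syndrome map on masks.
-/
import Cfsg.Agent.Golay.Code
import Cfsg.Agent.Golay.Orbit

set_option autoImplicit false

namespace CfsgLib.Golay

open Cfsg
open scoped Pointwise

/-- The syndrome of a mask. -/
def syn (m : ℕ) : ℕ := m ^^^ enc basis m

theorem syn_bits : ((List.range 24).all fun i => Nat.beq (syn (2 ^ i) % 4096) 0 &&
    Nat.blt (syn (2 ^ i)) 16777216) = true := by decide +kernel

end CfsgLib.Golay
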