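/-
Cosets of the code: covering radius 4, coset leaders, the punctured code.
-/
import Cfsg.Agent.Golay.Sextet
import Cfsg.Agent.Golay.CosetData

set_option autoImplicit false

namespace CfsgLib.Golay

open Cfsg
open scoped Pointwise

theorem syn_xor (m n : ℕ) : syn (m ^^^ n) = syn m ^^^ syn n := by
  simp only [syn, enc_xor]
  apply Nat.eq_of_testBit_eq
  intro j
  simp only [Nat.testBit_xor]
  cases m.testBit j <;> cases n.testBit j <;> simp

theorem inCode_of_syn_eq {m n : ℕ} (h : syn m = syn n) : inCode (m ^^^ n) = true := by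
  have h0 : syn (m ^^^ n) = 0 := by rw [syn_xor, h, Nat.xor_self]
  rw [inCode_iff]
  exact (Nat.xor_right_inj (x := m ^^^ n)).1 (by rw [← syn, h0, Nat.xor_self])

theorem syn_range {m : ℕ} (hm : m < 2 ^ 24) : syn m < 2 ^ 24 ∧ syn m % 4096 = 0 := by
  have hl : ∀ l : List ℕ, (∀ i ∈ l, i < 24) → ∀ x ∈ allSums (l.map fun i => (i, 2 ^ i)),
      syn x < 2 ^ 24 ∧ syn x % 4096 = 0 := by
    intro l
    induction l with
    | nil => intro _ x hx; simp [allSums] at hx; subst hx; decide
    | cons i r ih =>
      intro h x hx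
      have ih' := ih fun j hj => h j (List.mem_cons_of_mem _ hj)
      simp only [List.map_cons, allSums, List.mem_append, List.mem_map] at hx
      rcases hx with hx | ⟨y, hy, rfl⟩
      · exact ih' x (by simpa [List.mem_map] using hx)
      · have hy' := ih' y (by simpa [List.mem_map] using hy)
        have hi := List.all_eq_true.1 syn_bits i (List.mem_range.2 (h i List.mem_cons_self))
        rw [Bool.and_eq_true, Nat.beq_eq] at hi
        rw [syn_xor]
        refine ⟨Nat.xor_lt_two_pow (of_blt hi.2) hy'.1, ?_⟩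
        rw [show (4096 : ℕ) = 2 ^ 12 from rfl, Nat.xor_mod_two_pow] at *
        rw [hi.1, hy'.2]; rfl
  have e : enc ((List.range 24).map fun i => (i, 2 ^ i)) m = m := by
    refine Nat.eq_of_testBit_eq fun j => ?_
    rw [testBit_enc_bits _ List.nodup_range]
    by_cases hj : j < 24
    · simp [hj]
    · rw [testBit_of_lt hm (by omega)]; simp
  exact hl (List.range 24) (fun i hi => List.mem_range.1 hi) m
    (e ▸ enc_mem_allSums ((List.range 24).map fun i => (i, 2 ^ i)) m)

theorem syn_eq_iff {s t : Finset GolayPt} :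
    syn (mask s) = syn (mask t) ↔ symmDiff s t ∈ supports (golayCode : Set (GolayPt → ZMod 2)) := by
  rw [mem_supports_iff, mask_symmDiff]
  refine ⟨inCode_of_syn_eq, fun h => ?_⟩
  have h0 : syn (mask s) ^^^ syn (mask t) = 0 := by
    rw [← syn_xor, syn, inCode_iff.1 h, Nat.xor_self]
  refine (Nat.xor_right_inj (x := syn (mask s))).1 ?_
  rw [Nat.xor_self, h0]

/-- Covering radius 4, by counting syndromes. -/
theorem exists_leader (s : Finset GolayPt) : ∃ t : Finset GolayPt,
    t.card ≤ 4 ∧ symmDiff s t ∈ supports (golayCode : Set (GolayPt → ZMod 2)) := by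
  classical
  let f : Finset GolayPt → ℕ := fun u => syn (mask u)
  let low := (Finset.range 4).biUnion fun k => (Finset.univ : Finset GolayPt).powersetCard k
  let top := (Finset.univ : Finset GolayPt).powersetCard 4
  let R : Finset ℕ := (Finset.range 4096).image fun r => r * 4096
  have hlow : ∀ u ∈ low, u.card ≤ 3 := fun u hu => by
    simp only [low, Finset.mem_biUnion, Finset.mem_range, Finset.mem_powersetCard] at hu
    obtain ⟨k, hk, -, rfl⟩ := hu
    omega
  have htop : ∀ u, u ∈ top ↔ u.card = 4 := fun u => by simp [top]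
  have hR : ∀ u, f u ∈ R := fun u => by
    obtain ⟨h1, h2⟩ := syn_range (mask_lt u)
    exact Finset.mem_image.2 ⟨f u / 4096, Finset.mem_range.2 (by simp only [f]; omega),
      Nat.div_mul_cancel (Nat.dvd_of_mod_eq_zero h2)⟩
  have hinj : Set.InjOn f (low : Set (Finset GolayPt)) := fun u hu v hv e => by
    by_contra hne
    have := small_pair (s := u) (t := v) (by have := hlow u hu; omega) (by have := hlow v hv; omega)
      hne (syn_eq_iff.1 e)
    have := hlow u hu
    omega
  have clow : (low.image f).card = 2325 := by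
    rw [Finset.card_image_of_injOn hinj, Finset.card_biUnion]
    · simp only [Finset.card_powersetCard, Finset.card_univ, card_pt]
      decide +kernel
    · intro a _ b _ hab
      exact Finset.disjoint_left.2 fun u hu hu' =>
        hab ((Finset.mem_powersetCard.1 hu).2.symm.trans (Finset.mem_powersetCard.1 hu').2)
  have hfib : ∀ x ∈ top.image f, (top.filter fun u => f u = x).card = 6 := by
    intro x hx
    obtain ⟨u, hu, rfl⟩ := Finset.mem_image.1 hx
    rw [htop] at hu
    rw [← card_sextetOf hu]
    refine congrArg Finset.card (Finset.ext fun v => ?_)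
    rw [Finset.mem_filter, htop, mem_sextetOf hu]
    constructor
    · rintro ⟨h4, e⟩; exact ⟨h4.le, syn_eq_iff.1 e.symm⟩
    · rintro ⟨h4, e⟩
      exact ⟨card_of_mem_sextetOf hu ((mem_sextetOf hu).2 ⟨h4, e⟩), (syn_eq_iff.2 e).symm⟩
  have ctop : (top.image f).card = 1771 := by
    have h := Finset.card_eq_sum_card_image f top
    rw [Finset.sum_congr rfl hfib, Finset.sum_const, smul_eq_mul] at h
    have : top.card = 10626 := by
      simp only [top, Finset.card_powersetCard, Finset.card_univ, card_pt]; decide +kernel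
    omega
  have hdis : Disjoint (low.image f) (top.image f) := by
    refine Finset.disjoint_left.2 fun x hx hx' => ?_
    obtain ⟨u, hu, rfl⟩ := Finset.mem_image.1 hx
    obtain ⟨v, hv, e⟩ := Finset.mem_image.1 hx'
    have h3 := hlow u hu
    have h4 := (htop v).1 hv
    have hne : u ≠ v := fun h => by rw [h] at h3; omega
    have := small_pair (s := u) (t := v) (by omega) (by omega) hne (syn_eq_iff.1 e.symm)
    omega
  have hall : low.image f ∪ top.image f = R := by
    refine Finset.eq_of_subset_of_card_le (fun x hx => ?_) ?_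
    · rcases Finset.mem_union.1 hx with hx | hx <;> obtain ⟨u, -, rfl⟩ := Finset.mem_image.1 hx <;>
        exact hR u
    · rw [Finset.card_union_of_disjoint hdis, clow, ctop]
      exact le_trans Finset.card_image_le (by simp)
  rcases Finset.mem_union.1 (hall ▸ hR s : f s ∈ low.image f ∪ top.image f) with h | h <;>
    obtain ⟨u, hu, e⟩ := Finset.mem_image.1 h
  · exact ⟨u, by have := hlow u hu; omega, syn_eq_iff.1 e.symm⟩
  · exact ⟨u, ((htop u).1 hu).le, syn_eq_iff.1 e.symm⟩

theorem sub_mem_code_iff {v w : GolayPt → ZMod 2} :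
    w - v ∈ golayCode ↔
      symmDiff (support₂ w) (support₂ v) ∈ supports (golayCode : Set (GolayPt → ZMod 2)) := by
  have e : w - v = w + v := funext fun p =>
    (by decide : ∀ a b : ZMod 2, a - b = a + b) (w p) (v p)
  rw [e, mem_code_iff, mem_supports_iff, mask_symmDiff, wmask_add]
  rfl

theorem hammingNorm_eq_card (v : GolayPt → ZMod 2) : hammingNorm v = (support₂ v).card := rfl

theorem support_image_set (_s : Finset GolayPt) (P : Finset GolayPt → Prop) :
    {v : GolayPt → ZMod 2 | hammingNorm v ≤ 4 ∧ P (support₂ v)}.ncard =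
      {t : Finset GolayPt | t.card ≤ 4 ∧ P t}.ncard := by
  refine Set.ncard_congr (fun v _ => support₂ v) (fun v hv => hv)
    (fun v w _ _ h => support_injective h) (fun t ht => ⟨wordOf t, ?_, support_wordOf t⟩)
  simp only [Set.mem_ofPred_eq, hammingNorm_eq_card, support_wordOf]
  exact ht

/-- A coset has a unique leader of weight at most three or six of weight four. -/
theorem coset_leaders (w : GolayPt → ZMod 2) :
    ({v : GolayPt → ZMod 2 | hammingNorm v ≤ 4 ∧ w - v ∈ golayCode}.ncard = 1 ∧
      ∃ v : GolayPt → ZMod 2, hammingNorm v ≤ 3 ∧ w - v ∈ golayCode) ∨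
    ({v : GolayPt → ZMod 2 | hammingNorm v ≤ 4 ∧ w - v ∈ golayCode}.ncard = 6 ∧
      ∀ v : GolayPt → ZMod 2, w - v ∈ golayCode → hammingNorm v ≤ 4 → hammingNorm v = 4) := by
  obtain ⟨t, ht4, ht⟩ := exists_leader (support₂ w)
  simp only [sub_mem_code_iff, hammingNorm_eq_card] at *
  have key := support_image_set (support₂ w) (fun u => symmDiff (support₂ w) u ∈
      supports (golayCode : Set (GolayPt → ZMod 2)))
  simp only [hammingNorm_eq_card] at key
  rw [key]
  clear key
  generalize support₂ w = s at ht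
  have rel : ∀ u, symmDiff s u ∈ supports (golayCode : Set (GolayPt → ZMod 2)) ↔
      symmDiff t u ∈ supports (golayCode : Set (GolayPt → ZMod 2)) := by
    intro u
    constructor
    · intro h
      have h' := symmDiff_mem_supports ht h
      rwa [symmDiff_symmDiff_symmDiff_comm, symmDiff_self, bot_symmDiff] at h'
    · intro h
      have h' := symmDiff_mem_supports ht h
      rwa [symmDiff_assoc, symmDiff_symmDiff_cancel_left] at h'
  by_cases h4 : t.card = 4
  · right
    refine ⟨?_, fun v hv hv4 => ?_⟩
    · rw [show {u : Finset GolayPt | u.card ≤ 4 ∧ (fun u => symmDiff s u ∈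
          supports (golayCode : Set (GolayPt → ZMod 2))) u} = ↑(sextetOf t) by
          ext u; simp [mem_sextetOf h4, rel], Set.ncard_coe_finset, card_sextetOf h4]
    · exact card_of_mem_sextetOf h4 ((mem_sextetOf h4).2 ⟨hv4, (rel _).1 hv⟩)
  · left
    refine ⟨?_, wordOf t, by rw [support_wordOf]; omega, by rwa [support_wordOf]⟩
    rw [Set.ncard_eq_one]
    refine ⟨t, Set.eq_singleton_iff_unique_mem.2 ⟨⟨ht4, ht⟩, fun u hu => ?_⟩⟩
    by_contra hne
    exact h4 (small_pair ht4 hu.1 (Ne.symm hne) ((rel u).1 hu.2)).1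

/-- Restriction to the 23 finite coordinates. -/
def restr (w : GolayPt → ZMod 2) : ZMod 23 → ZMod 2 := fun x => w (some x)

theorem hammingNorm_restr (w : GolayPt → ZMod 2) :
    hammingNorm (restr w) + (if w none ≠ 0 then 1 else 0) = hammingNorm w := by
  simp only [hammingNorm, Finset.card_filter]
  rw [Fintype.sum_option, add_comm]
  rfl

theorem code_min_weight {w : GolayPt → ZMod 2} (hw : w ∈ golayCode) (h : hammingNorm w < 8) :
    w = 0 := by
  rw [hammingNorm_eq_card] at h
  have : (support₂ w).card = 0 := by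
    rcases support_card_cases (mem_supports_iff.1 ⟨w, hw, rfl⟩) with e | e | e | e | e <;> omega
  rw [← wordOf_support w, Finset.card_eq_zero.1 this]
  funext p; simp [wordOf]

theorem restr_injOn : Set.InjOn restr (golayCode : Set (GolayPt → ZMod 2)) := by
  intro v hv w hw h
  rw [← sub_eq_zero]
  refine code_min_weight (sub_mem hv hw) ?_
  have e : restr (v - w) = 0 := funext fun x => by
    show v (some x) - w (some x) = 0
    exact sub_eq_zero.2 (congrFun h x)
  have hn := hammingNorm_restr (v - w)
  rw [e, hammingNorm_zero] at hn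
  split_ifs at hn <;> omega

theorem punctured_set :
    {u : ZMod 23 → ZMod 2 | ∃ w ∈ golayCode, ∀ x : ZMod 23, u x = w (some x)} =
      restr '' (golayCode : Set (GolayPt → ZMod 2)) := by
  ext u
  constructor
  · rintro ⟨w, hw, h⟩; exact ⟨w, hw, funext fun x => (h x).symm⟩
  · rintro ⟨w, hw, rfl⟩; exact ⟨w, hw, fun _ => rfl⟩

theorem ncard_code_filter {P : (GolayPt → ZMod 2) → Prop} (f : ℕ → Bool)
    (hf : ∀ w, P w ↔ f (wmask w) = true) :
    {w : GolayPt → ZMod 2 | w ∈ golayCode ∧ P w}.ncard = (codeList.filter f).length := by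
  rw [← List.toFinset_card_of_nodup (codeList_nodup.filter _), ← Set.ncard_coe_finset,
    ← Set.ncard_image_of_injective _ wmask_injective]
  congr 1
  ext m
  simp only [Set.mem_image, Set.mem_ofPred_eq, List.coe_toFinset, List.mem_filter]
  constructor
  · rintro ⟨w, ⟨hw, hP⟩, rfl⟩; exact ⟨mem_code_iff_list.1 hw, (hf w).1 hP⟩
  · rintro ⟨hm, hfm⟩
    obtain ⟨-, hlt⟩ := mem_codeList.1 hm
    refine ⟨wordOf (toSet m), ?_, wmask_wordOf hlt⟩
    rw [mem_code_iff_list, hf, wmask_wordOf hlt]
    exact ⟨hm, hfm⟩

/-- Weight of the restriction, on masks. -/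
def restWt (m : ℕ) : ℕ := popc m - (if m.testBit (idx none).val then 1 else 0)

theorem restWt_wmask (w : GolayPt → ZMod 2) : restWt (wmask w) = hammingNorm (restr w) := by
  have h := hammingNorm_restr w
  have e : (wmask w).testBit (idx none).val = decide (w none ≠ 0) := testBit_wmask w none
  rw [restWt, e, ← hammingNorm_eq_popc]
  by_cases hc : w none = 0 <;> simp [hc] at h ⊢ <;> omega

theorem ncard_punctured (k : ℕ) :
    {u : ZMod 23 → ZMod 2 | u ∈ restr '' (golayCode : Set (GolayPt → ZMod 2)) ∧
      hammingNorm u = k}.ncard = (codeList.filter fun m => Nat.beq (restWt m) k).length := by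
  rw [← ncard_code_filter (P := fun w => hammingNorm (restr w) = k) _
    (fun w => by rw [Nat.beq_eq, restWt_wmask])]
  rw [← (restr_injOn.mono (fun w hw => hw.1 : {w : GolayPt → ZMod 2 | w ∈ golayCode ∧
    hammingNorm (restr w) = k} ⊆ (golayCode : Set (GolayPt → ZMod 2)))).ncard_image]
  congr 1
  ext u
  constructor
  · rintro ⟨⟨w, hw, rfl⟩, hk⟩; exact ⟨w, ⟨hw, hk⟩, rfl⟩
  · rintro ⟨w, ⟨hw, hk⟩, rfl⟩; exact ⟨⟨w, hw, rfl⟩, hk⟩

theorem punctured_min {w : GolayPt → ZMod 2} (hw : w ∈ golayCode) (h : hammingNorm (restr w) < 7) :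
    restr w = 0 := by
  rw [code_min_weight hw (by have := hammingNorm_restr w; split_ifs at this <;> omega)]
  rfl

theorem perfect23 (u : ZMod 23 → ZMod 2) : ∃! c : ZMod 23 → ZMod 2,
    c ∈ restr '' (golayCode : Set (GolayPt → ZMod 2)) ∧ hammingDist u c ≤ 3 := by
  let W : GolayPt → ZMod 2 := fun p => p.elim 0 u
  obtain ⟨t, ht4, ht⟩ := exists_leader (support₂ W)
  obtain ⟨t', ht', h3⟩ : ∃ t', symmDiff (support₂ W) t' ∈ supports (golayCode : Set (GolayPt → ZMod 2)) ∧
      hammingNorm (restr (wordOf t')) ≤ 3 := by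
    by_cases h4 : t.card = 4
    · obtain ⟨t', ht'S, hn⟩ := sextet_cover (sextetOf_mem h4) none
      refine ⟨t', ?_, ?_⟩
      · have h' := symmDiff_mem_supports ht ((mem_sextetOf h4).1 ht'S).2
        rwa [symmDiff_assoc, symmDiff_symmDiff_cancel_left] at h'
      · have h := hammingNorm_restr (wordOf t')
        rw [hammingNorm_eq_card (wordOf t'), support_wordOf, card_of_mem_sextetOf h4 ht'S] at h
        have : wordOf t' none ≠ 0 := by simp [wordOf, hn]
        rw [if_pos this] at h
        omega
    · refine ⟨t, ht, ?_⟩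
      have h := hammingNorm_restr (wordOf t)
      rw [hammingNorm_eq_card (wordOf t), support_wordOf] at h
      omega
  have hc : W - wordOf t' ∈ golayCode := sub_mem_code_iff.2 (by rwa [support_wordOf])
  have hd : hammingDist u (restr (W - wordOf t')) ≤ 3 := by
    rw [hammingDist_eq_hammingNorm]
    refine le_of_eq_of_le (congrArg hammingNorm (funext fun x => ?_)) h3
    show -u x + (u x - wordOf t' (some x)) = wordOf t' (some x)
    exact (by decide : ∀ a b : ZMod 2, -a + (a - b) = b) _ _
  refine ⟨_, ⟨⟨_, hc, rfl⟩, hd⟩, ?_⟩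
  rintro c ⟨⟨v, hv, rfl⟩, hcd⟩
  rw [← sub_eq_zero]
  have e : restr v - restr (W - wordOf t') = restr (v - (W - wordOf t')) := rfl
  rw [e]
  refine punctured_min (sub_mem hv hc) ?_
  have hn : restr (v - (W - wordOf t')) = -restr (W - wordOf t') + restr v := by
    rw [← e]; abel
  rw [hn, ← hammingDist_eq_hammingNorm]
  have := hammingDist_triangle_left (restr (W - wordOf t')) (restr v) u
  omega

end CfsgLib.Golay
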