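/-
Enumerations of trios and sextets extracted from suborbit certificates, and counts of fixed ones.
-/
import Cfsg.Agent.Golay.Kinds
import Cfsg.Agent.Golay.Sub.SexSex
import Cfsg.Agent.Golay.Sub.TrioTrio

set_option autoImplicit false

namespace CfsgLib.Golay.Suborb

open Cfsg
open scoped Pointwise

/-- A certificate enumerates the invariant set. -/
theorem enum_of_cert {gens : List (List ℕ)} {A : List ℕ} {cs : List Cls} {M : ℕ} {S : Set Fam}
    (hok : suborbOk gens A cs M = true) (hK : ∀ σ ∈ M24, ∀ X ∈ S, σ • X ∈ S)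
    (hroot : ∀ c ∈ cs, fam c.root ∈ S) (hcard : S.ncard ≤ (cs.map fun c => c.size).sum) :
    S = ↑(((allKeys gens cs).map fam).toFinset) ∧ ((allKeys gens cs).map fam).Nodup ∧
      ∀ k ∈ allKeys gens cs, goodRep k = true := by
  classical
  simp only [suborbOk, Bool.and_eq_true, List.all_eq_true, Nat.beq_eq] at hok
  obtain ⟨⟨hg, hcs⟩, hnd⟩ := hok
  have hkey : ∀ k ∈ allKeys gens cs, goodRep k = true ∧ fam k ∈ S := by
    intro k hk
    obtain ⟨c, hc, hk⟩ := List.mem_flatMap.1 hk
    rcases List.mem_cons.1 hk with rfl | hk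
    · exact ⟨(hcs c hc).1, hroot c hc⟩
    · obtain ⟨hgood, σ, hσ, -, e⟩ := famKeys_prop hg _ _ (hcs c hc).1 k hk
      exact ⟨hgood, e ▸ hK σ hσ _ (hroot c hc)⟩
  have hhash : ((allKeys gens cs).map fun k => hashOf M (fam k)) = (allKeys gens cs).map (famHash M) := by
    refine List.map_congr_left fun k hk => ?_
    have hgood := (hkey k hk).1
    rw [hashOf, famHash, sum_fam hgood]
    congr 2
    refine List.map_congr_left fun m hm => ?_
    simp only [mask_toSet ((goodRep_spec _ hgood).2 m hm)]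
  have hfamnd : ((allKeys gens cs).map fam).Nodup := by
    refine List.Nodup.of_map (hashOf M) ?_
    rw [List.map_map]
    exact hhash ▸ (nodupAux_spec _ _ hnd).1
  refine ⟨(Set.eq_of_subset_of_ncard_le ?_ ?_ (Set.toFinite _)).symm, hfamnd, fun k hk => (hkey k hk).1⟩
  · intro X hX
    rw [Finset.mem_coe, List.mem_toFinset, List.mem_map] at hX
    obtain ⟨k, hk, rfl⟩ := hX
    exact (hkey k hk).2
  · rw [Set.ncard_coe_finset, List.toFinset_card_of_nodup hfamnd, List.length_map, allKeys,
      List.length_flatMap]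
    exact hcard.trans (le_of_eq (congrArg List.sum (List.map_congr_left fun c hc => (hcs c hc).2.symm)))

/-- The trios as a list. -/
noncomputable def trioList : List (List ℕ) := allKeys TrioTrio.gens TrioTrio.classes
/-- The sextets as a list. -/
noncomputable def sexList : List (List ℕ) := allKeys SexSex.gens SexSex.classes

theorem trios_enum : trios = ↑((trioList.map fam).toFinset) ∧ (trioList.map fam).Nodup ∧
    ∀ k ∈ trioList, goodRep k = true := by
  refine enum_of_cert TrioTrio.cert_ok (fun σ hσ X hX => smul_mem_trios hσ hX) (fun c hc => ?_) ?_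
  · exact trioL_spec (List.all_eq_true.1
      (show TrioTrio.classes.all (fun c => trioL c.root) = true by decide +kernel) c hc)
  · exact le_of_eq ncard_trios

theorem sextets_enum : sextets = ↑((sexList.map fam).toFinset) ∧ (sexList.map fam).Nodup ∧
    ∀ k ∈ sexList, goodRep k = true := by
  refine enum_of_cert SexSex.cert_ok (fun σ hσ X hX => smul_mem_sextets hσ hX) (fun c hc => ?_) ?_
  · exact sexL_spec (List.all_eq_true.1
      (show SexSex.classes.all (fun c => sexL c.root) = true by decide +kernel) c hc)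
  · exact le_of_eq ncard_sextets

/-- Test whether a table fixes a family. -/
noncomputable def fixL (g k : List ℕ) : Bool :=
  k.all fun m => k.any fun x => Nat.beq (apMaskRec (bitsTab g) m) x

theorem fixL_iff {g k : List ℕ} (hv : validTab g = true) (hk : goodRep k = true) :
    permOf g • fam k = fam k ↔ fixL g k = true := by
  obtain ⟨-, hlt⟩ := goodRep_spec k hk
  have hact : ∀ m ∈ k, apMaskRec (bitsTab g) m = mask (permOf g • toSet m) := fun m hm => by
    rw [apMaskRec_eq, mask_smul hv, mask_toSet (hlt m hm)]; rfl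
  simp only [fixL, List.all_eq_true, List.any_eq_true, Nat.beq_eq]
  constructor
  · intro h m hm
    have hmem : permOf g • toSet m ∈ fam k := by
      rw [← h]
      exact Finset.smul_mem_smul_finset (List.mem_toFinset.2 (List.mem_map_of_mem hm))
    obtain ⟨x, hx, e⟩ := List.mem_map.1 (List.mem_toFinset.1 hmem)
    exact ⟨x, hx, by rw [hact m hm, ← e, mask_toSet (hlt x hx)]⟩
  · intro h
    refine Finset.eq_of_subset_of_card_le (fun a ha => ?_) (by rw [Finset.card_smul_finset])
    obtain ⟨b, hb, rfl⟩ := Finset.mem_smul_finset.1 ha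
    obtain ⟨m, hm, rfl⟩ := List.mem_map.1 (List.mem_toFinset.1 hb)
    obtain ⟨x, hx, e⟩ := h m hm
    refine List.mem_toFinset.2 (List.mem_map.2 ⟨x, hx, ?_⟩)
    rw [← e, hact m hm, toSet_mask]

theorem ncard_fixed_fams {S : Set Fam} {l : List (List ℕ)}
    (h : S = ↑((l.map fam).toFinset) ∧ (l.map fam).Nodup ∧ ∀ k ∈ l, goodRep k = true)
    {g : List ℕ} (hv : validTab g = true) :
    {X | X ∈ S ∧ permOf g • X = X}.ncard = (l.filter (fixL g)).length := by
  classical
  obtain ⟨hS, hnd, hgood⟩ := h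
  have e : {X | X ∈ S ∧ permOf g • X = X} = ↑(((l.filter (fixL g)).map fam).toFinset) := by
    ext X
    simp only [hS, Finset.mem_coe, List.mem_toFinset, List.mem_map, Set.mem_ofPred_eq, List.mem_filter]
    constructor
    · rintro ⟨⟨k, hk, rfl⟩, hfix⟩
      exact ⟨k, ⟨hk, (fixL_iff hv (hgood k hk)).1 hfix⟩, rfl⟩
    · rintro ⟨k, ⟨hk, hb⟩, rfl⟩
      exact ⟨⟨k, hk, rfl⟩, (fixL_iff hv (hgood k hk)).2 hb⟩
  rw [e, Set.ncard_coe_finset, List.toFinset_card_of_nodup, List.length_map]
  exact (List.filter_sublist.map _).nodup hnd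

theorem ncard_fixed_words (k : ℕ) {g : List ℕ} (hv : validTab g = true) :
    {o | o ∈ wordsOfWeight (golayCode : Set (GolayPt → ZMod 2)) k ∧ permOf g • o = o}.ncard =
      ((wtList k).filter fun m => Nat.beq (apMaskRec (bitsTab g) m) m).length := by
  refine ncard_eq_filter _ fun s => ?_
  rw [Nat.beq_eq, apMaskRec_eq, show apMask (bitsTab g) (mask s) = actTab g (mask s) from rfl,
    ← mask_smul hv, mask_injective.eq_iff]

/-- Fixed members are counted on a representative of the conjugacy class. -/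
theorem ncard_fixed_conj {X : Type*} [MulAction (Equiv.Perm GolayPt) X] {S : Set X}
    (hS : ∀ σ ∈ M24, ∀ x ∈ S, σ • x ∈ S) {k : Equiv.Perm GolayPt} (hk : k ∈ M24)
    (r : Equiv.Perm GolayPt) :
    {x | x ∈ S ∧ (k * r * k⁻¹) • x = x}.ncard = {x | x ∈ S ∧ r • x = x}.ncard := by
  rw [← Set.ncard_image_of_injective {x | x ∈ S ∧ r • x = x} (MulAction.injective k)]
  congr 1
  ext x
  constructor
  · rintro ⟨hx, h⟩
    refine ⟨k⁻¹ • x, ⟨hS _ (inv_mem hk) x hx, ?_⟩, smul_inv_smul k x⟩
    rwa [mul_smul, mul_smul, ← eq_inv_smul_iff] at h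
  · rintro ⟨u, ⟨hu, h⟩, rfl⟩
    exact ⟨hS k hk u hu, by rw [mul_smul, mul_smul, inv_smul_smul, h]⟩

end CfsgLib.Golay.Suborb
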