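/-
Fixed-configuration counts for the representatives of orders two and three: sextets.
-/
import Cfsg.Agent.Golay.Enum
import Cfsg.Agent.Golay.Ord3

set_option autoImplicit false

namespace CfsgLib.Golay.FixCounts

open Cfsg Suborb

theorem sex_all : (fun l => Nat.beq (l.filter (fixL Invol.rep8)).length 91 && Nat.beq (l.filter (fixL Invol.rep0)).length 51 && Nat.beq (l.filter (fixL Ord3.rep6)).length 16 && Nat.beq (l.filter (fixL Ord3.rep0)).length 7) sexList = true := by decide +kernel

theorem sex_0 : (sexList.filter (fixL Invol.rep8)).length = 91 := by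
  have h := sex_all
  simp only [Bool.and_eq_true, Nat.beq_eq] at h
  exact h.1.1.1

theorem sex_1 : (sexList.filter (fixL Invol.rep0)).length = 51 := by
  have h := sex_all
  simp only [Bool.and_eq_true, Nat.beq_eq] at h
  exact h.1.1.2

theorem sex_2 : (sexList.filter (fixL Ord3.rep6)).length = 16 := by
  have h := sex_all
  simp only [Bool.and_eq_true, Nat.beq_eq] at h
  exact h.1.2

theorem sex_3 : (sexList.filter (fixL Ord3.rep0)).length = 7 := by
  have h := sex_all
  simp only [Bool.and_eq_true, Nat.beq_eq] at h
  exact h.2


end CfsgLib.Golay.FixCounts
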