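/-
Fixed-configuration counts for the representatives of orders two and three: code words.
-/
import Cfsg.Agent.Golay.Enum
import Cfsg.Agent.Golay.Ord3
import Cfsg.Agent.Golay.FixTrio
import Cfsg.Agent.Golay.FixSex

set_option autoImplicit false

namespace CfsgLib.Golay.FixCounts

open Cfsg Suborb

theorem oct_0 : ((wtList 8).filter fun m => Nat.beq (apMaskRec (bitsTab Invol.rep8) m) m).length = 71 := by decide +kernel

theorem oct_1 : ((wtList 8).filter fun m => Nat.beq (apMaskRec (bitsTab Invol.rep0) m) m).length = 15 := by
  decide +kernel

theorem oct_2 : ((wtList 8).filter fun m => Nat.beq (apMaskRec (bitsTab Ord3.rep6) m) m).length = 21 := by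
  decide +kernel

theorem dod_2 : ((wtList 12).filter fun m => Nat.beq (apMaskRec (bitsTab Ord3.rep6) m) m).length = 20 := by
  decide +kernel


end CfsgLib.Golay.FixCounts
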