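/-
The stabiliser of a sextet.
-/
import Cfsg.Agent.Golay.SextetData
import Cfsg.Agent.Golay.ConjGL
import Cfsg.Agent.Golay.Position
import Cfsg.Agent.Golay.Enum
import Cfsg.Agent.Golay.Sextet
import Cfsg.Agent.Golay.Norm
import Mathlib

set_option autoImplicit false
set_option maxRecDepth 20000

namespace CfsgLib.Golay.SextetStruct

open Cfsg CfsgLib.Golay MulAction CfsgLib.Golay.Suborb
open scoped Pointwise

variable {S : Fam}

/-- The action on the members. -/
def toPerm (S : Fam) : stabilizer M24 S →* Equiv.Perm ↥S where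
  toFun g :=
    { toFun := fun t => ⟨(g.1.1 : Equiv.Perm GolayPt) • t.1, by
        have := Finset.smul_mem_smul_finset (a := g.1.1) t.2
        rwa [show g.1.1 • S = S from g.2] at this⟩
      invFun := fun t => ⟨(g.1.1 : Equiv.Perm GolayPt)⁻¹ • t.1, by
        rw [← Finset.smul_mem_smul_finset_iff (g.1.1), smul_inv_smul, show g.1.1 • S = S from g.2]; exact t.2⟩
      left_inv := fun t => Subtype.ext (inv_smul_smul _ _)
      right_inv := fun t => Subtype.ext (smul_inv_smul _ _) }
  map_one' := Equiv.ext fun t => Subtype.ext (one_smul _ _)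
  map_mul' g h := Equiv.ext fun t => Subtype.ext (mul_smul _ _ _)

theorem mem_ker {g : stabilizer M24 S} :
    g ∈ (toPerm S).ker ↔ ∀ t ∈ S, (g.1.1 : Equiv.Perm GolayPt) • t = t := by
  rw [MonoidHom.mem_ker]
  exact ⟨fun h t ht => congrArg (fun e : Equiv.Perm ↥S => (e ⟨t, ht⟩ : Finset GolayPt)) h,
    fun h => Equiv.ext fun t => Subtype.ext (h t.1 t.2)⟩

theorem card_stab (hS : S ∈ sextets) : Nat.card ↥(stabilizer M24 S) = 138240 := by
  have h := card_stab_mul_orbit S sextets (by
    ext X
    constructor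
    · rintro ⟨g, rfl⟩; exact smul_mem_sextets g.2 hS
    · intro hX
      obtain ⟨g, hg, e⟩ := exists_map_sextet hS hX
      exact ⟨⟨g, hg⟩, e⟩)
  rw [ncard_sextets] at h
  omega

theorem base_mem : fam SextetData.base ∈ sextets := sexL_spec (by decide +kernel)

theorem swaps_ok : SextetData.swaps.all (fun s => validTab s.2.2 && presTab s.2.2 && fixL s.2.2 SextetData.base &&
    ((List.range 6).all fun i => Nat.beq (actTab s.2.2 (SextetData.base.getD i 0))
      (SextetData.base.getD (if i = s.1 then s.2.1 else if i = s.2.1 then s.1 else i) 0))) = true ∧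
    (List.range 6).all (fun i => (List.range 6).all fun j => !(Nat.blt i j) ||
      SextetData.swaps.any fun s => Nat.beq s.1 i && Nat.beq s.2.1 j) = true := by
  decide +kernel

theorem fixers_ok : Listed.tabsOk SextetData.keys SextetData.fixers = true ∧
    SextetData.fixers.all (fun t => SextetData.base.all fun m => Nat.beq (actTab t m) m) = true ∧
    SextetData.fixers.length = 192 ∧
    (SextetData.fixers.filter fun t => mulTab t t == List.range 24).length = 64 := by
  decide +kernel

/-- All products of sublists. -/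
def allProds : List (List ℕ) → List (List ℕ)
  | [] => [List.range 24]
  | g :: r => allProds r ++ (allProds r).map (mulTab g)

theorem closed_ok : SextetData.involGens.all (fun g => validTab g &&
      SextetData.involGens.all fun h => mulTab g h == mulTab h g) = true ∧
    ((SextetData.fixers.filter fun t => mulTab t t == List.range 24).all fun t =>
      (allProds SextetData.involGens).contains t) = true := by
  decide +kernel

theorem allProds_comm : ∀ (l : List (List ℕ)), (∀ g ∈ l, validTab g = true) → ∀ t ∈ allProds l,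
    validTab t = true ∧ ∀ x : Equiv.Perm GolayPt, (∀ g ∈ l, Commute (permOf g) x) → Commute (permOf t) x
  | [], _, t, ht => by
    obtain rfl : t = List.range 24 := by simpa [allProds] using ht
    exact ⟨by decide +kernel, fun x _ => by rw [Norm.permOf_range]; exact Commute.one_left x⟩
  | g :: r, hv, t, ht => by
    have hv' : ∀ h ∈ r, validTab h = true := fun h hh => hv h (List.mem_cons_of_mem _ hh)
    rcases List.mem_append.1 ht with ht | ht
    · obtain ⟨h1, h2⟩ := allProds_comm r hv' t ht
      exact ⟨h1, fun x hx => h2 x fun h hh => hx h (List.mem_cons_of_mem _ hh)⟩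
    · obtain ⟨u, hu, rfl⟩ := List.mem_map.1 ht
      obtain ⟨h1, h2⟩ := allProds_comm r hv' u hu
      obtain ⟨m1, m2⟩ := mulTab_spec (hv g List.mem_cons_self) h1
      refine ⟨m1, fun x hx => ?_⟩
      rw [m2]
      exact (hx g List.mem_cons_self).mul_left (h2 x fun h hh => hx h (List.mem_cons_of_mem _ hh))

theorem base_surj : Function.Surjective (toPerm (fam SextetData.base)) := by
  classical
  rw [← MonoidHom.range_eq_top, eq_top_iff, ← Equiv.Perm.closure_isSwap, Subgroup.closure_le]
  obtain ⟨hs, hall⟩ := swaps_ok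
  have hgood : goodRep SextetData.base = true := by decide +kernel
  have hlen : SextetData.base.length = 6 := by decide +kernel
  have hlt := (goodRep_spec _ hgood).2
  have hmem : ∀ i < 6, toSet (SextetData.base.getD i 0) ∈ fam SextetData.base := fun i hi => by
    rw [List.getD_eq_getElem _ _ (by omega)]
    exact List.mem_toFinset.2 (List.mem_map_of_mem (List.getElem_mem _))
  have hidx : ∀ t : ↥(fam SextetData.base), ∃ i < 6, toSet (SextetData.base.getD i 0) = t.1 := by
    intro t
    obtain ⟨m, hm, e⟩ := List.mem_map.1 (List.mem_toFinset.1 t.2)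
    obtain ⟨i, hi, rfl⟩ := List.getElem_of_mem hm
    exact ⟨i, by omega, by rw [List.getD_eq_getElem _ _ hi]; exact e⟩
  have hinj : ∀ i < 6, ∀ j < 6, toSet (SextetData.base.getD i 0) = toSet (SextetData.base.getD j 0) → i = j := by
    intro i hi j hj e
    have hnd := (goodRep_spec _ hgood).1
    rw [List.getD_eq_getElem _ _ (by omega), List.getD_eq_getElem _ _ (by omega)] at e
    exact hnd.getElem_inj_iff.1 (toSet_injOn hlt (List.getElem_mem _) (List.getElem_mem _) e)
  suffices key : ∀ i j (hi : i < 6) (hj : j < 6), i < j →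
      Equiv.swap (⟨_, hmem i hi⟩ : ↥(fam SextetData.base)) ⟨_, hmem j hj⟩ ∈ (toPerm (fam SextetData.base)).range by
    rintro e ⟨x, y, hxy, rfl⟩
    obtain ⟨i, hi, ei⟩ := hidx x
    obtain ⟨j, hj, ej⟩ := hidx y
    rcases lt_trichotomy i j with h | rfl | h
    · have := key i j hi hj h
      rwa [show (⟨_, hmem i hi⟩ : ↥(fam SextetData.base)) = x from Subtype.ext ei,
        show (⟨_, hmem j hj⟩ : ↥(fam SextetData.base)) = y from Subtype.ext ej] at this
    · exact absurd (Subtype.ext (ei.symm.trans ej)) hxy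
    · have := key j i hj hi h
      rw [show (⟨_, hmem i hi⟩ : ↥(fam SextetData.base)) = x from Subtype.ext ei,
        show (⟨_, hmem j hj⟩ : ↥(fam SextetData.base)) = y from Subtype.ext ej, Equiv.swap_comm] at this
      exact this
  intro i j hi hj hij
  have h := List.all_eq_true.1 (List.all_eq_true.1 hall i (List.mem_range.2 hi)) j (List.mem_range.2 hj)
  simp only [Bool.or_eq_true, Bool.not_eq_true', List.any_eq_true, Bool.and_eq_true, Nat.beq_eq] at h
  rcases h with h | ⟨s, hsm, hs1, hs2⟩
  · rw [← Bool.not_eq_true, Nat.blt_eq] at h; omega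
  have h' := List.all_eq_true.1 hs s hsm
  simp only [Bool.and_eq_true, List.all_eq_true, List.mem_range, Nat.beq_eq] at h'
  obtain ⟨⟨⟨hv, hp⟩, hf⟩, himg⟩ := h'
  have hfix := (fixL_iff hv hgood).2 hf
  refine ⟨⟨⟨permOf s.2.2, permOf_mem_M24 hv hp⟩, hfix⟩, Equiv.ext fun t => Subtype.ext ?_⟩
  obtain ⟨k, hk, ek⟩ := hidx t
  have hklt : SextetData.base.getD k 0 < 2 ^ 24 := hlt _ (by
    rw [List.getD_eq_getElem _ _ (by omega)]; exact List.getElem_mem _)
  show permOf s.2.2 • t.1 = _
  rw [← ek, ← toSet_mask (permOf s.2.2 • toSet _), mask_smul hv, mask_toSet hklt, himg k hk, hs1, hs2]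
  have e1 : t = ⟨_, hmem k hk⟩ := Subtype.ext ek.symm
  subst e1
  by_cases hki : k = i
  · subst hki
    rw [Equiv.swap_apply_left, if_pos rfl]
  by_cases hkj : k = j
  · subst hkj
    rw [Equiv.swap_apply_right, if_neg hki, if_pos rfl]
  rw [Equiv.swap_apply_of_ne_of_ne, if_neg hki, if_neg hkj]
  · exact fun e => hki (hinj k hk i hi (congrArg Subtype.val e))
  · exact fun e => hkj (hinj k hk j hj (congrArg Subtype.val e))

theorem surj (hS : S ∈ sextets) : Function.Surjective (toPerm S) := by
  obtain ⟨σ, hσ, rfl⟩ := exists_map_sextet base_mem hS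
  intro e
  let r : ↥(fam SextetData.base) ≃ ↥(σ • fam SextetData.base) :=
    ⟨fun t => ⟨σ • t.1, Finset.smul_mem_smul_finset t.2⟩,
      fun t => ⟨σ⁻¹ • t.1, by rw [← Finset.smul_mem_smul_finset_iff σ, smul_inv_smul]; exact t.2⟩,
      fun t => Subtype.ext (inv_smul_smul _ _), fun t => Subtype.ext (smul_inv_smul _ _)⟩
  obtain ⟨⟨⟨g, hg⟩, hgS⟩, hge⟩ := base_surj ((r.trans e).trans r.symm)
  have hgS' : g • fam SextetData.base = fam SextetData.base := hgS
  refine ⟨⟨⟨σ * g * σ⁻¹, mul_mem (mul_mem hσ hg) (inv_mem hσ)⟩, ?_⟩, Equiv.ext fun t => Subtype.ext ?_⟩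
  · show (σ * g * σ⁻¹) • σ • fam SextetData.base = σ • fam SextetData.base
    rw [← mul_smul, inv_mul_cancel_right, mul_smul, hgS']
  · show (σ * g * σ⁻¹) • t.1 = (e t).1
    have h := congrArg (fun f : Equiv.Perm ↥(fam SextetData.base) => σ • (f (r.symm t)).1) hge
    simp only [Equiv.trans_apply, Equiv.apply_symm_apply] at h
    rw [mul_smul, mul_smul]
    refine h.trans ?_
    exact congrArg Subtype.val (r.apply_symm_apply (e t))

theorem card_ker (hS : S ∈ sextets) : Nat.card (toPerm S).ker = 192 := by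
  classical
  have h := (toPerm S).ker.card_mul_index
  rw [Subgroup.index_ker, MonoidHom.range_eq_top.2 (surj hS), Nat.card_congr Subgroup.topEquiv.toEquiv,
    Nat.card_perm, Nat.card_eq_finsetCard, hS.1, card_stab hS] at h
  have h6 : Nat.factorial 6 = 720 := by decide +kernel
  rw [h6] at h
  omega

theorem card_fixers (hS : S ∈ sextets) :
    Nat.card {g : ↥(stabilizer M24 S) // ∀ t ∈ S, ((g : M24) : Equiv.Perm GolayPt) • t = t} = 192 := by
  rw [← card_ker hS]
  exact Nat.card_congr (Equiv.subtypeEquivRight fun g => mem_ker.symm)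

/-- The involutions fixing every member form a subgroup of order 64. -/
theorem base_normal : ∃ N : Subgroup ↥(stabilizer M24 (fam SextetData.base)), N.Normal ∧ Nat.card N = 64 ∧
    ∀ x ∈ N, x * x = 1 := by
  classical
  set S₀ := fam SextetData.base with hS₀
  obtain ⟨hok, hfix, hlen, h64⟩ := fixers_ok
  have hgood : goodRep SextetData.base = true := by decide +kernel
  have hlt := (goodRep_spec _ hgood).2
  have hv : ∀ t ∈ SextetData.fixers, validTab t = true ∧ presTab t = true := by
    intro t ht
    have := hok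
    simp only [Listed.tabsOk, Bool.and_eq_true, List.all_eq_true] at this
    exact this.1 t ht
  have hfixS : ∀ t ∈ SextetData.fixers, ∀ u ∈ S₀, permOf t • u = u := by
    intro t ht u hu
    obtain ⟨m, hm, rfl⟩ := List.mem_map.1 (List.mem_toFinset.1 hu)
    have h := List.all_eq_true.1 (List.all_eq_true.1 hfix t ht) m hm
    rw [Nat.beq_eq] at h
    rw [← toSet_mask (permOf t • toSet m), mask_smul (hv t ht).1, mask_toSet (hlt m hm), h]
  have hst : ∀ t ∈ SextetData.fixers, permOf t • S₀ = S₀ := fun t ht => by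
    refine Finset.eq_of_subset_of_card_le (fun x hx => ?_) (Finset.card_smul_finset _ S₀).ge
    obtain ⟨y, hy, rfl⟩ := Finset.mem_smul_finset.1 hx
    rw [hfixS t ht y hy]; exact hy
  set K := (toPerm S₀).ker with hK
  have hKcard : Nat.card K = 192 := card_ker base_mem
  set H := K.map (Subgroup.subtype _) with hH
  have hHcard : Nat.card H = 192 := by
    rw [hH, ← hKcard]
    exact (Nat.card_congr (K.equivMapOfInjective _ Subtype.val_injective).toEquiv).symm
  obtain ⟨-, hall⟩ := Listed.eq_listed (H := H) hok (fun t ht h =>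
    ⟨⟨⟨permOf t, h⟩, hst t ht⟩, mem_ker.2 (hfixS t ht), rfl⟩) (by rw [hHcard, hlen])
  set F := SextetData.fixers.filter fun t => mulTab t t == List.range 24 with hF
  have hFp : ∀ g : stabilizer M24 S₀, (g ∈ K ∧ g * g = 1) ↔ ∃ t ∈ F, permOf t = g.1.1 := by
    intro g
    constructor
    · rintro ⟨hg, h2⟩
      obtain ⟨t, ht, e⟩ := hall g.1 ⟨g, hg, rfl⟩
      refine ⟨t, List.mem_filter.2 ⟨ht, ?_⟩, e⟩
      rw [beq_iff_eq]
      have hr : validTab (List.range 24) = true := by decide +kernel
      have := congrArg tabOf (congrArg (fun x : stabilizer M24 S₀ => (x.1.1 : Equiv.Perm GolayPt)) h2)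
      simp only [Subgroup.coe_mul, OneMemClass.coe_one] at this
      rwa [← e, ← (mulTab_spec (hv t ht).1 (hv t ht).1).2,
        Listed.tabOf_permOf (mulTab_spec (hv t ht).1 (hv t ht).1).1, ← Norm.permOf_range,
        Listed.tabOf_permOf hr] at this
    · rintro ⟨t, ht, e⟩
      obtain ⟨ht, h2⟩ := List.mem_filter.1 ht
      rw [beq_iff_eq] at h2
      refine ⟨mem_ker.2 fun u hu => e ▸ hfixS t ht u hu, Subtype.ext (Subtype.ext ?_)⟩
      simp only [Subgroup.coe_mul, OneMemClass.coe_one]
      rw [← e, ← (mulTab_spec (hv t ht).1 (hv t ht).1).2, h2, Norm.permOf_range]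
  let N : Subgroup (stabilizer M24 S₀) :=
    { carrier := {g | g ∈ K ∧ g * g = 1}
      one_mem' := ⟨one_mem _, one_mul _⟩
      mul_mem' := by
        intro a b ha hb
        refine ⟨mul_mem ha.1 hb.1, ?_⟩
        obtain ⟨s, hs, es⟩ := (hFp a).1 ha
        obtain ⟨t, ht, et⟩ := (hFp b).1 hb
        obtain ⟨hg, hsub⟩ := closed_ok
        simp only [List.all_eq_true, Bool.and_eq_true, beq_iff_eq] at hg
        have hsub' : ∀ u ∈ F, u ∈ allProds SextetData.involGens := fun u hu =>
          List.contains_iff_mem.1 (List.all_eq_true.1 hsub u hu)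
        have hgc : ∀ g ∈ SextetData.involGens, ∀ h ∈ SextetData.involGens, Commute (permOf g) (permOf h) := by
          intro g hg' h hh'
          show permOf g * permOf h = permOf h * permOf g
          rw [← (mulTab_spec (hg g hg').1 (hg h hh').1).2, ← (mulTab_spec (hg h hh').1 (hg g hg').1).2,
            (hg g hg').2 h hh']
        have hv6 : ∀ g ∈ SextetData.involGens, validTab g = true := fun g hg' => (hg g hg').1
        have hc : Commute a b := by
          refine Subtype.ext (Subtype.ext ?_)
          simp only [Subgroup.coe_mul]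
          rw [← es, ← et]
          refine (allProds_comm _ hv6 s (hsub' s hs)).2 _ fun g hg' => Commute.symm ?_
          exact (allProds_comm _ hv6 t (hsub' t ht)).2 _ fun h hh' => hgc h hh' g hg'
        rw [hc.symm.mul_mul_mul_comm, ha.2, hb.2, one_mul]
      inv_mem' := by
        intro a ha
        exact ⟨inv_mem ha.1, by rw [← mul_inv_rev, ha.2, inv_one]⟩ }
  refine ⟨N, ⟨fun x hx g => ?_⟩, ?_, fun x hx => hx.2⟩
  · refine ⟨(MonoidHom.normal_ker _).conj_mem x hx.1 g, ?_⟩
    rw [show g * x * g⁻¹ * (g * x * g⁻¹) = g * (x * x) * g⁻¹ by group, hx.2]; group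
  · rw [← h64]
    have hnd : F.Nodup := by
      have := hok
      simp only [Listed.tabsOk, Bool.and_eq_true] at this
      exact (List.Nodup.of_map _ (nodupAux_spec _ _ this.2).1).filter _
    rw [← List.toFinset_card_of_nodup hnd, ← Nat.card_eq_finsetCard]
    refine Nat.card_eq_of_bijective (fun g : N => ⟨tabOf g.1.1.1, ?_⟩) ⟨?_, ?_⟩
    · obtain ⟨t, ht, e⟩ := (hFp g.1).1 g.2
      rw [← e, Listed.tabOf_permOf (hv t (List.mem_filter.1 ht).1).1]
      exact List.mem_toFinset.2 ht
    · intro a b e
      have := congrArg (fun x : {x // x ∈ F.toFinset} => permOf x.1) e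
      simp only [permOf_tabOf] at this
      exact Subtype.ext (Subtype.ext (Subtype.ext this))
    · rintro ⟨t, ht⟩
      rw [List.mem_toFinset] at ht
      have htf := (List.mem_filter.1 ht).1
      refine ⟨⟨⟨⟨permOf t, permOf_mem_M24 (hv t htf).1 (hv t htf).2⟩, hst t htf⟩, (hFp _).2 ⟨t, ht, rfl⟩⟩, ?_⟩
      exact Subtype.ext (Listed.tabOf_permOf (hv t htf).1)

theorem normal (hS : S ∈ sextets) : ∃ N : Subgroup ↥(stabilizer M24 S), N.Normal ∧ Nat.card N = 64 ∧
    ∀ x ∈ N, x * x = 1 := by
  obtain ⟨σ, hσ, e⟩ := exists_map_sextet hS base_mem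
  obtain ⟨N, hN, h64, hsq⟩ := base_normal
  set s : M24 := ⟨σ, hσ⟩
  have hs : stabilizer M24 (fam SextetData.base) = (stabilizer M24 S).map (MulAut.conj s).toMonoidHom := by
    rw [← MulAction.stabilizer_smul_eq_stabilizer_map_conj, show s • S = fam SextetData.base from e]
  let f : ↥(stabilizer M24 S) ≃* ↥(stabilizer M24 (fam SextetData.base)) :=
    ((MulAut.conj s).subgroupMap _).trans (MulEquiv.subgroupCongr hs.symm)
  refine ⟨N.comap f.toMonoidHom, hN.comap _, ?_, fun x hx => f.injective (by rw [map_mul, map_one]; exact hsq _ hx)⟩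
  rw [← h64]
  exact Nat.card_congr
    { toFun := fun x => ⟨f x.1, x.2⟩
      invFun := fun y => ⟨f.symm y.1, by simp⟩
      left_inv := fun x => Subtype.ext (f.symm_apply_apply x.1)
      right_inv := fun y => Subtype.ext (f.apply_symm_apply y.1) }

end CfsgLib.Golay.SextetStruct
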