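/-
The centraliser of a fixed-point-free involution.
-/
import Cfsg.Agent.Golay.FpfData
import Cfsg.Agent.Golay.SextetStruct
import Cfsg.Agent.Golay.Invol
import Cfsg.Agent.Golay.CodeLit
import Mathlib

set_option autoImplicit false
set_option maxRecDepth 20000

namespace CfsgLib.Golay.FpfCentral

open Cfsg CfsgLib.Golay MulAction CfsgLib.Golay.Suborb
open scoped Pointwise

/-- The unions of two members. -/
def unions : List ℕ := (List.range 6).flatMap fun i =>
  ((List.range 6).filter fun j => Nat.blt i j).map fun j => SextetData.base.getD i 0 ||| SextetData.base.getD j 0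

theorem t1_ok : validTab FpfData.t1 = true ∧ presTab FpfData.t1 = true ∧
    mulTab FpfData.t1 FpfData.t1 = List.range 24 ∧
    (List.range 24).all (fun i => !(Nat.beq (FpfData.t1.getD i 0) i)) = true ∧
    SextetData.fixers.contains FpfData.t1 = true ∧
    unions.all (fun u => Nat.beq (actTab FpfData.t1 u) u && octLit.contains u) = true ∧
    octLit.all (fun v => !(Nat.beq (actTab FpfData.t1 v) v) || unions.contains v) = true ∧
    unions.all (fun u => unions.all fun v => !(Nat.beq (popRec 24 (u &&& v)) 4) ||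
      SextetData.base.contains (u &&& v)) = true ∧
    SextetData.base.all (fun m => Nat.beq (popRec 24 m) 4 &&
      unions.any fun u => unions.any fun v => Nat.beq (u &&& v) m) = true := by
  decide +kernel

theorem movers_ok :
    FpfData.movers.all (fun k => validTab k && presTab k && fixL k SextetData.base) = true ∧
    ((SextetData.fixers.filter fun z => mulTab z z == List.range 24 &&
        (List.range 24).all fun i => !(Nat.beq (z.getD i 0) i)).all fun z =>
      FpfData.movers.any fun k => mulTab k FpfData.t1 == mulTab z k) = true ∧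
    (SextetData.fixers.filter fun z => mulTab z z == List.range 24 &&
        (List.range 24).all fun i => !(Nat.beq (z.getD i 0) i)).length = 18 ∧
    FpfData.trans.length = 24 ∧
    (List.range 24).all (fun i => validTab (FpfData.trans.getD i []) && presTab (FpfData.trans.getD i []) &&
      (mulTab (FpfData.trans.getD i []) FpfData.t1 == mulTab FpfData.t1 (FpfData.trans.getD i [])) &&
      Nat.beq ((FpfData.trans.getD i []).getD 0 0) i) = true := by
  decide +kernel

theorem t1_fpf (p : GolayPt) : permOf FpfData.t1 p ≠ p := fun h => by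
  obtain ⟨hv, -, -, hf, -⟩ := t1_ok
  have e := idx_permOf hv p
  rw [h] at e
  have := List.all_eq_true.1 hf _ (List.mem_range.2 (idx p).isLt)
  rw [Bool.not_eq_true', ← Bool.not_eq_true, Nat.beq_eq] at this
  exact this e.symm

/-- Commuting elements preserve the sextet. -/
theorem fix_sextet {c : Equiv.Perm GolayPt} (hc : c ∈ M24) (hcomm : c * permOf FpfData.t1 = permOf FpfData.t1 * c) :
    c • fam SextetData.base = fam SextetData.base := by
  classical
  obtain ⟨hv, -, -, -, -, hu, hall, hpair, hbase⟩ := t1_ok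
  simp only [List.all_eq_true, Bool.and_eq_true, Nat.beq_eq, Bool.or_eq_true, Bool.not_eq_true',
    List.contains_iff_mem, List.any_eq_true, ← popc_eq_popRec] at hu hall hpair hbase
  have hgood : goodRep SextetData.base = true := by decide +kernel
  have hlt := (goodRep_spec _ hgood).2
  have himg : ∀ u ∈ unions, mask (c • toSet u) ∈ unions := by
    intro u huu
    obtain ⟨hfix, hoct⟩ := hu u huu
    have hult : u < 2 ^ 24 := (mem_wtList.1 (octList_eq ▸ hoct : u ∈ octList)).2.1
    have ho : toSet u ∈ octads := mem_octads_iff.2 (by rw [mask_toSet hult, octList_eq]; exact hoct)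
    have hco := mem_octads_iff.1 (smul_mem_octads hc ho)
    rw [octList_eq] at hco
    refine (hall _ hco).resolve_left ?_
    rw [Bool.not_eq_false, Nat.beq_eq, ← mask_smul hv, ← mul_smul, ← hcomm, mul_smul]
    congr 2
    rw [← toSet_mask (permOf FpfData.t1 • toSet u), mask_smul hv, mask_toSet hult, hfix]
  refine Finset.eq_of_subset_of_card_le (fun x hx => ?_) (Finset.card_smul_finset c _).ge
  obtain ⟨y, hy, rfl⟩ := Finset.mem_smul_finset.1 hx
  obtain ⟨m, hm, rfl⟩ := List.mem_map.1 (List.mem_toFinset.1 hy)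
  obtain ⟨h4, u, huu, v, hvv, e⟩ := hbase m hm
  have hult : ∀ u ∈ unions, u < 2 ^ 24 := fun u huu =>
    (mem_wtList.1 (octList_eq ▸ (hu u huu).2 : u ∈ octList)).2.1
  have e1 : toSet m = toSet u ∩ toSet v :=
    mask_injective (by rw [mask_inter, mask_toSet (hult u huu), mask_toSet (hult v hvv), mask_toSet (hlt m hm), e])
  have hmem := (hpair _ (himg u huu) _ (himg v hvv)).resolve_left (by
    rw [Bool.not_eq_false, Nat.beq_eq, ← mask_inter, popc_mask, ← Finset.smul_finset_inter, ← e1,
      Finset.card_smul_finset, card_toSet (hlt m hm)]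
    exact h4)
  rw [← mask_inter, ← Finset.smul_finset_inter, ← e1] at hmem
  rw [← toSet_mask (c • toSet m)]
  exact List.mem_toFinset.2 (List.mem_map_of_mem hmem)

theorem card_ref : Nat.card {c : Equiv.Perm GolayPt // c ∈ M24 ∧ c * permOf FpfData.t1 = permOf FpfData.t1 * c} = 7680 := by
  classical
  obtain ⟨hv, hp, h2, hf, hmem, -⟩ := t1_ok
  obtain ⟨hk, hcov, h18, -, -⟩ := movers_ok
  simp only [List.all_eq_true, Bool.and_eq_true, List.any_eq_true, beq_iff_eq] at hk hcov
  rw [List.contains_iff_mem] at hmem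
  obtain ⟨hok, hfix, hlen, -⟩ := SextetStruct.fixers_ok
  have hgood : goodRep SextetData.base = true := by decide +kernel
  have hlt := (goodRep_spec _ hgood).2
  have hfv : ∀ t ∈ SextetData.fixers, validTab t = true ∧ presTab t = true := by
    intro t ht
    have := hok
    simp only [Listed.tabsOk, Bool.and_eq_true, List.all_eq_true] at this
    exact this.1 t ht
  set S₀ := fam SextetData.base with hS₀
  have hfixS : ∀ t ∈ SextetData.fixers, ∀ u ∈ S₀, permOf t • u = u := by
    intro t ht u hu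
    obtain ⟨m, hm, rfl⟩ := List.mem_map.1 (List.mem_toFinset.1 hu)
    have h := List.all_eq_true.1 (List.all_eq_true.1 hfix t ht) m hm
    rw [Nat.beq_eq] at h
    rw [← toSet_mask (permOf t • toSet m), mask_smul (hfv t ht).1, mask_toSet (hlt m hm), h]
  set Z := SextetData.fixers.filter fun z => mulTab z z == List.range 24 &&
    (List.range 24).all fun i => !(Nat.beq (z.getD i 0) i) with hZ
  have hzv : ∀ z ∈ Z, validTab z = true := fun z hz => (hfv z (List.mem_filter.1 hz).1).1
  -- every conjugate inside the sextet stabiliser is listed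
  have hlisted : ∀ g : stabilizer M24 S₀, ∃ z ∈ Z, permOf z = g.1.1 * permOf FpfData.t1 * g.1.1⁻¹ := by
    intro g
    have hgS : g.1.1 • S₀ = S₀ := g.2
    set x := g.1.1 * permOf FpfData.t1 * g.1.1⁻¹ with hx
    have hxM : x ∈ M24 := mul_mem (mul_mem g.1.2 (permOf_mem_M24 hv hp)) (inv_mem g.1.2)
    have hxfix : ∀ u ∈ S₀, x • u = u := by
      intro u hu
      have : g.1.1⁻¹ • u ∈ S₀ := by
        rw [← Finset.smul_mem_smul_finset_iff g.1.1, smul_inv_smul, hgS]; exact hu
      rw [hx, mul_smul, mul_smul, hfixS _ hmem _ this, smul_inv_smul]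
    have hxS : x • S₀ = S₀ := by
      refine Finset.eq_of_subset_of_card_le (fun w hw => ?_) (Finset.card_smul_finset x S₀).ge
      obtain ⟨y, hy, rfl⟩ := Finset.mem_smul_finset.1 hw
      rw [hxfix y hy]; exact hy
    set H := (SextetStruct.toPerm S₀).ker.map (Subgroup.subtype _)
    have hHc : Nat.card H = 192 := by
      rw [← SextetStruct.card_ker SextetStruct.base_mem]
      exact (Nat.card_congr ((SextetStruct.toPerm S₀).ker.equivMapOfInjective _ Subtype.val_injective).toEquiv).symm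
    obtain ⟨-, hall⟩ := Listed.eq_listed (H := H) hok (fun t ht h =>
      ⟨⟨⟨permOf t, h⟩, Finset.eq_of_subset_of_card_le (fun w hw => by
        obtain ⟨y, hy, rfl⟩ := Finset.mem_smul_finset.1 hw
        show permOf t • y ∈ S₀
        rw [hfixS t ht y hy]; exact hy) (Finset.card_smul_finset _ S₀).ge⟩,
        SextetStruct.mem_ker.2 (hfixS t ht), rfl⟩) (by rw [hHc, hlen])
    obtain ⟨z, hz, e⟩ := hall ⟨x, hxM⟩ ⟨⟨⟨x, hxM⟩, hxS⟩, SextetStruct.mem_ker.2 hxfix, rfl⟩
    have e' : permOf z = x := e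
    refine ⟨z, List.mem_filter.2 ⟨hz, ?_⟩, e'⟩
    have hzz := (hfv z hz).1
    simp only [Bool.and_eq_true, beq_iff_eq, List.all_eq_true, Bool.not_eq_true']
    refine ⟨?_, fun i hi => ?_⟩
    · have e1 : permOf (mulTab z z) = permOf (List.range 24) := by
        rw [(mulTab_spec hzz hzz).2, e', hx, Norm.permOf_range,
          show g.1.1 * permOf FpfData.t1 * g.1.1⁻¹ * (g.1.1 * permOf FpfData.t1 * g.1.1⁻¹) =
            g.1.1 * (permOf FpfData.t1 * permOf FpfData.t1) * g.1.1⁻¹ by group,
          ← (mulTab_spec hv hv).2, h2, Norm.permOf_range]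
        group
      have := congrArg tabOf e1
      rwa [Listed.tabOf_permOf (mulTab_spec hzz hzz).1,
        Listed.tabOf_permOf (show validTab (List.range 24) = true by decide +kernel)] at this
    · rw [← Bool.not_eq_true, Nat.beq_eq]
      intro hzi
      rw [List.mem_range] at hi
      have h1 : permOf z (ptN i) = ptN i := by
        rw [← ptN_idx (permOf z (ptN i)), idx_permOf hzz, idx_ptN hi, hzi]
      rw [e', hx, Equiv.Perm.mul_apply, Equiv.Perm.mul_apply] at h1
      exact t1_fpf _ (g.1.1.injective (h1.trans (g.1.1.apply_symm_apply (ptN i)).symm))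
  choose zf hzf hze using hlisted
  have hmov : ∀ z ∈ Z, ∃ k : stabilizer M24 S₀, k.1.1 * permOf FpfData.t1 * k.1.1⁻¹ = permOf z := by
    intro z hz
    obtain ⟨k, hkm, e⟩ := hcov z hz
    obtain ⟨⟨kv, kp⟩, kf⟩ := hk k hkm
    refine ⟨⟨⟨permOf k, permOf_mem_M24 kv kp⟩, (fixL_iff kv hgood).2 kf⟩, ?_⟩
    have e1 := congrArg permOf e
    rw [(mulTab_spec kv hv).2, (mulTab_spec (hzv z hz) kv).2] at e1
    show permOf k * permOf FpfData.t1 * (permOf k)⁻¹ = _
    rw [e1, mul_inv_cancel_right]
  choose km hkm using hmov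
  have hkey : ∀ (g : stabilizer M24 S₀) z (hz : z ∈ Z), permOf z = g.1.1 * permOf FpfData.t1 * g.1.1⁻¹ →
      ((km z hz).1.1⁻¹ * g.1.1) * permOf FpfData.t1 = permOf FpfData.t1 * ((km z hz).1.1⁻¹ * g.1.1) := by
    intro g z hz e
    have h := hkm z hz
    rw [e] at h
    calc ((km z hz).1.1⁻¹ * g.1.1) * permOf FpfData.t1
        = (km z hz).1.1⁻¹ * (g.1.1 * permOf FpfData.t1 * g.1.1⁻¹) * g.1.1 := by group
      _ = (km z hz).1.1⁻¹ * ((km z hz).1.1 * permOf FpfData.t1 * (km z hz).1.1⁻¹) * g.1.1 := by rw [h]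
      _ = _ := by group
  let e : stabilizer M24 S₀ ≃ {z // z ∈ Z} ×
      {c : Equiv.Perm GolayPt // c ∈ M24 ∧ c * permOf FpfData.t1 = permOf FpfData.t1 * c} :=
    { toFun := fun g => (⟨zf g, hzf g⟩, ⟨(km (zf g) (hzf g)).1.1⁻¹ * g.1.1,
        mul_mem (inv_mem (km (zf g) (hzf g)).1.2) g.1.2, hkey g _ _ (hze g)⟩)
      invFun := fun p => km p.1.1 p.1.2 * ⟨⟨p.2.1, p.2.2.1⟩, fix_sextet p.2.2.1 p.2.2.2⟩
      left_inv := fun g => Subtype.ext (Subtype.ext (mul_inv_cancel_left _ _))
      right_inv := fun p => by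
        obtain ⟨⟨z, hz⟩, ⟨c, hc, hcc⟩⟩ := p
        set g := km z hz * (⟨⟨c, hc⟩, fix_sextet hc hcc⟩ : stabilizer M24 S₀) with hg
        have hzz : zf g = z := by
          have h1 := hze g
          have h2 := hkm z hz
          have : permOf (zf g) = permOf z := by
            rw [h1, ← h2]
            show (km z hz).1.1 * c * permOf FpfData.t1 * ((km z hz).1.1 * c)⁻¹ = _
            rw [mul_inv_rev, mul_assoc (km z hz).1.1 c, hcc]
            group
          have h3 := congrArg tabOf this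
          rwa [Listed.tabOf_permOf (hzv _ (hzf g)), Listed.tabOf_permOf (hzv _ hz)] at h3
        refine Prod.ext (Subtype.ext hzz) (Subtype.ext ?_)
        have gen : ∀ w (hw : w ∈ Z), w = z → (km w hw).1.1⁻¹ * g.1.1 = c := by
          rintro w hw rfl
          rw [hg]
          exact inv_mul_cancel_left _ _
        exact gen _ (hzf g) hzz }
  have h := Nat.card_congr e
  rw [SextetStruct.card_stab SextetStruct.base_mem, Nat.card_prod] at h
  have hZc : Nat.card {z // z ∈ Z} = 18 := by
    have hnd : Z.Nodup := by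
      have := hok
      simp only [Listed.tabsOk, Bool.and_eq_true] at this
      exact (List.Nodup.of_map _ (nodupAux_spec _ _ this.2).1).filter _
    rw [← h18, ← List.toFinset_card_of_nodup hnd, ← Nat.card_eq_finsetCard]
    exact Nat.card_congr (Equiv.subtypeEquivRight fun z => List.mem_toFinset.symm)
  rw [hZc] at h
  omega

theorem trans_ref (p q : GolayPt) : ∃ c ∈ M24, c * permOf FpfData.t1 = permOf FpfData.t1 * c ∧ c p = q := by
  obtain ⟨hv, -⟩ := t1_ok
  obtain ⟨-, -, -, -, ht⟩ := movers_ok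
  have h : ∀ r : GolayPt, ∃ c ∈ M24, c * permOf FpfData.t1 = permOf FpfData.t1 * c ∧ c (ptN 0) = r := by
    intro r
    have h := List.all_eq_true.1 ht _ (List.mem_range.2 (idx r).isLt)
    simp only [Bool.and_eq_true, beq_iff_eq, Nat.beq_eq] at h
    obtain ⟨⟨⟨cv, cp⟩, hc⟩, h0⟩ := h
    refine ⟨_, permOf_mem_M24 cv cp, ?_, ?_⟩
    · rw [← (mulTab_spec cv hv).2, hc, (mulTab_spec hv cv).2]
    · rw [← ptN_idx (permOf _ (ptN 0)), idx_permOf cv, idx_ptN (by omega), h0, ptN_idx]
  obtain ⟨a, ha, hac, hap⟩ := h p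
  obtain ⟨b, hb, hbc, hbq⟩ := h q
  refine ⟨b * a⁻¹, mul_mem hb (inv_mem ha), (Commute.mul_left hbc (Commute.inv_left hac)).eq, ?_⟩
  rw [Equiv.Perm.mul_apply, ← hap, Equiv.Perm.coe_inv, Equiv.symm_apply_apply, hbq]

theorem exists_conj {t : Equiv.Perm GolayPt} (ht : t ∈ M24) (h₂ : orderOf t = 2) (h₀ : ∀ p, t p ≠ p) :
    ∃ k ∈ M24, t = k * permOf FpfData.t1 * k⁻¹ := by
  have key : ∀ s, s ∈ M24 → s * s = 1 → s ≠ 1 → (∀ p, s p ≠ p) → ∃ k ∈ M24, s = k * permOf (Invol.repOf false) * k⁻¹ := by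
    intro s hs hss hs1 hsf
    obtain ⟨k, hk, b, e⟩ := Invol.invol_conj hs hss hs1
    cases b with
    | false => exact ⟨k, hk, e⟩
    | true =>
      exfalso
      have h8 := card_of_mem_octads (mem_octads_iff.2 Invol.rep8_fixed)
      obtain ⟨q, hq⟩ := Finset.card_pos.1 (by omega : 0 < (Finset.univ.filter fun p => permOf (Invol.repOf true) p = p).card)
      apply hsf (k q)
      rw [e, Equiv.Perm.mul_apply, Equiv.Perm.mul_apply, Equiv.Perm.coe_inv, Equiv.symm_apply_apply,
        (Finset.mem_filter.1 hq).2]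
  obtain ⟨hv, hp, h2, -⟩ := t1_ok
  obtain ⟨a, ha, ea⟩ := key t ht (by rw [← pow_two, ← h₂, pow_orderOf_eq_one])
    (fun h => by rw [h, orderOf_one] at h₂; omega) h₀
  obtain ⟨b, hb, eb⟩ := key _ (permOf_mem_M24 hv hp) (by rw [← (mulTab_spec hv hv).2, h2, Norm.permOf_range])
    (fun h => t1_fpf none (by rw [h]; rfl)) t1_fpf
  refine ⟨a * b⁻¹, mul_mem ha (inv_mem hb), ?_⟩
  rw [ea, eb]; group

theorem main {t : Equiv.Perm GolayPt} (ht : t ∈ M24) (h₂ : orderOf t = 2) (h₀ : ∀ p, t p ≠ p) :
    Nat.card {c : Equiv.Perm GolayPt // c ∈ M24 ∧ c * t = t * c} = 7680 ∧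
      (∀ p q : GolayPt, ∃ c ∈ M24, c * t = t * c ∧ c p = q) ∧
      ∃ S ∈ sextets, t • S = S ∧ ∀ c ∈ M24, c * t = t * c → c • S = S := by
  obtain ⟨k, hk, rfl⟩ := exists_conj ht h₂ h₀
  have hcomm : ∀ c, c * (k * permOf FpfData.t1 * k⁻¹) = k * permOf FpfData.t1 * k⁻¹ * c ↔
      (k⁻¹ * c * k) * permOf FpfData.t1 = permOf FpfData.t1 * (k⁻¹ * c * k) := by
    intro c
    constructor <;> intro h
    · calc k⁻¹ * c * k * permOf FpfData.t1 = k⁻¹ * (c * (k * permOf FpfData.t1 * k⁻¹)) * k := by group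
        _ = _ := by rw [h]; group
    · calc c * (k * permOf FpfData.t1 * k⁻¹) = k * ((k⁻¹ * c * k) * permOf FpfData.t1) * k⁻¹ := by group
        _ = _ := by rw [h]; group
  refine ⟨?_, fun p q => ?_, k • fam SextetData.base, smul_mem_sextets hk SextetStruct.base_mem, ?_, fun c hc hcc => ?_⟩
  · rw [← card_ref]
    exact Nat.card_congr
      { toFun := fun c => ⟨k⁻¹ * c.1 * k, mul_mem (mul_mem (inv_mem hk) c.2.1) hk, (hcomm _).1 c.2.2⟩
        invFun := fun c => ⟨k * c.1 * k⁻¹, mul_mem (mul_mem hk c.2.1) (inv_mem hk), (hcomm _).2 (by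
          rw [show k⁻¹ * (k * c.1 * k⁻¹) * k = c.1 by group]; exact c.2.2)⟩
        left_inv := fun c => Subtype.ext (by group)
        right_inv := fun c => Subtype.ext (by group) }
  · obtain ⟨c, hc, hcc, e⟩ := trans_ref (k⁻¹ p) (k⁻¹ q)
    refine ⟨k * c * k⁻¹, mul_mem (mul_mem hk hc) (inv_mem hk), (hcomm _).2 (by
      rw [show k⁻¹ * (k * c * k⁻¹) * k = c by group]; exact hcc), ?_⟩
    rw [Equiv.Perm.mul_apply, Equiv.Perm.mul_apply, e]
    exact k.apply_symm_apply q
  · obtain ⟨hv, hp, -⟩ := t1_ok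
    rw [mul_smul, mul_smul, inv_smul_smul, fix_sextet (permOf_mem_M24 hv hp) rfl]
  · have := fix_sextet (mul_mem (mul_mem (inv_mem hk) hc) hk) ((hcomm c).1 hcc)
    rw [mul_smul, mul_smul, inv_smul_eq_iff] at this
    exact this

end CfsgLib.Golay.FpfCentral
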