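/-
Subgroups of index 253 of a one-point stabiliser.
-/
import Cfsg.Agent.Golay.SubIndex
import Cfsg.Agent.Golay.SuborbApp
import Mathlib

set_option autoImplicit false
set_option maxRecDepth 20000

namespace CfsgLib.Golay.Index253

open Cfsg CfsgLib.Golay MulAction CfsgLib.Golay.SubIndex
open scoped Pointwise

theorem card_K23 : Nat.card (fixGroup [2 ^ 23]) = 10200960 := by
  rw [← card_chain.2.1]
  have h : (basePts.take 1) = [none] := by decide +kernel
  suffices e : fixGroup [2 ^ 23] = chain 1 by rw [e]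
  refine Subgroup.ext fun σ => ?_
  rw [Simple.mem_K23, mem_chain, h]
  simp

/-- The cycle of the element of order seven through a point. -/
def cyc (a : ℕ) : List ℕ := (List.range 7).map fun i => (fun x => SubIndexData.f23.getD x 0)^[i] a

theorem tabs23 : validTab SubIndexData.f23 = true ∧ presTab SubIndexData.f23 = true ∧
    validTab SubIndexData.w23 = true ∧ presTab SubIndexData.w23 = true ∧
    SubIndexData.f23.getD 23 0 = 23 ∧ SubIndexData.w23.getD 23 0 = 23 ∧
    mulTab SubIndexData.w23 SubIndexData.f23 =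
      mulTab ((List.range 4).foldl (fun u _ => mulTab SubIndexData.f23 u) (List.range 24)) SubIndexData.w23 ∧
    (List.range 7).foldl (fun u _ => mulTab SubIndexData.f23 u) (List.range 24) = List.range 24 ∧
    SubIndexData.f23 ≠ List.range 24 ∧
    ((23 :: cyc 1).all fun b => Nat.blt b 24 && ([23].contains b ||
      (List.range 7).any fun i => Nat.beq ((fun x => SubIndexData.f23.getD x 0)^[i] 1) b)) = true ∧
    (23 :: cyc 1).Nodup ∧ Nat.beq (sepPts (sepPts (23 :: cyc 1))).length 24 = true ∧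
    ((List.range 24).all fun j => Nat.beq j 23 ||
      ([3, 6].contains j || ((cyc 0).contains j || ((cyc 1).contains j || (cyc (SubIndexData.w23.getD 1 0)).contains j)))) = true ∧
    SubIndexData.w23.getD 3 0 = 6 := by
  decide +kernel

theorem mem_K23_tab {t : List ℕ} (hv : validTab t = true) (hp : presTab t = true)
    (h23 : t.getD 23 0 = 23) : permOf t ∈ fixGroup [2 ^ 23] := by
  refine Simple.mem_K23.2 ⟨permOf_mem_M24 hv hp, ?_⟩
  have : permOf t (ptN 23) = ptN (t.getD 23 0) := by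
    rw [← ptN_idx (permOf t (ptN 23)), idx_permOf hv, idx_ptN (by omega)]
  rw [h23] at this; exact this

theorem card_dvd_of_orbit (H : Subgroup (Equiv.Perm GolayPt)) (u : GolayPt) (Ω : Finset GolayPt)
    (hΩ : ∀ p, p ∈ Ω ↔ ∃ h ∈ H, h u = p) : Ω.card ∣ Nat.card H := by
  have e : orbit H u = (Ω : Set GolayPt) := by
    ext p
    rw [Finset.mem_coe, hΩ]
    exact ⟨fun ⟨h, e⟩ => ⟨h.1, h.2, e⟩, fun ⟨h, hh, e⟩ => ⟨⟨h, hh⟩, e⟩⟩
  rw [card_eq_mul_of_orbit H u _ e, Set.ncard_coe_finset]
  exact Dvd.intro _ rfl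

theorem classify_ref (H : Subgroup (Equiv.Perm GolayPt)) (hle : H ≤ fixGroup [2 ^ 23])
    (hcard : Nat.card H = 40320) (hf : permOf SubIndexData.f23 ∈ H) :
    (∃ s : Finset GolayPt, s.card = 2 ∧ none ∉ s ∧ ∀ h ∈ H, h • s = s) ∨
      ∃ o ∈ octads, none ∈ o ∧ ∀ h ∈ H, h • o = o := by
  classical
  obtain ⟨fv, fp, wv, wp, f23, w23, hrel, h7, hfne, hfx, hnd, hsep, hcover, hw3⟩ := tabs23
  haveI : Fact (Nat.Prime 7) := ⟨by norm_num⟩
  have hp7 : Nat.Prime 7 := Fact.out
  set fi : fixGroup [2 ^ 23] := ⟨permOf SubIndexData.f23, mem_K23_tab fv fp f23⟩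
  set wi : fixGroup [2 ^ 23] := ⟨permOf SubIndexData.w23, mem_K23_tab wv wp w23⟩
  set H' := H.subgroupOf (fixGroup [2 ^ 23])
  have hH' : Nat.card H' = 40320 := by rw [Nat.card_congr (Subgroup.subgroupOfEquivOfLe hle).toEquiv, hcard]
  have hfo : orderOf fi = 7 := orderOf_tab fv _ hfne h7
  have hidx : ¬ 7 ∣ (Subgroup.zpowers fi).index := by
    have := (Subgroup.zpowers fi).card_mul_index
    rw [Nat.card_zpowers, hfo, card_K23] at this
    omega
  obtain ⟨h, hh, h7d, hd, n, hn, hn1⟩ := SylowIndex.card_inf_normalizer H' fi hfo hf hidx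
  obtain ⟨N, hNc, hN1⟩ := SylowIndex.card_normalizer fi hfo hidx
  obtain ⟨k, hk, hk6, hc7⟩ := SylowIndex.card_normalizer_factor fi hfo
  have hcb : Nat.card (Subgroup.centralizer (Subgroup.zpowers fi : Set (fixGroup [2 ^ 23]))) ≤ 21 := by
    refine (card_centralizer_le fi (ptN 1) ?_ fun x hx hc hx1 => ?_).trans (le_of_eq ?_)
    · show permOf SubIndexData.f23 (ptN 1) ≠ ptN 1
      decide +kernel
    · refine free_of_sep (fx := 23 :: cyc 1) fv 1 [23] hfx hnd hsep (by omega) (Simple.mem_K23.1 hx).1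
        (fun b hb => ?_) hc hx1
      obtain rfl := List.mem_singleton.1 hb
      exact (Simple.mem_K23.1 hx).2
    · show (Finset.univ.filter fun p => permOf SubIndexData.f23 p ≠ p).card = 21
      decide +kernel
  have hM : Nat.card (Subgroup.normalizer (Subgroup.zpowers fi : Set (fixGroup [2 ^ 23]))) = h := by
    rw [hH'] at hn
    rw [card_K23, hk] at hNc
    rw [hk] at hd ⊢
    generalize Nat.card (Subgroup.centralizer (Subgroup.zpowers fi : Set (fixGroup [2 ^ 23]))) = c at hcb hc7 hNc hd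
    have hk' : k = 1 ∨ k = 2 ∨ k = 3 ∨ k = 6 := by
      have hb := Nat.le_of_dvd (by norm_num) hk6
      interval_cases k <;> simp_all
    obtain ⟨c, rfl⟩ := hc7
    have hc' : c = 1 ∨ c = 2 ∨ c = 3 := by
      have : c ≠ 0 := by rintro rfl; simp at hNc
      omega
    obtain ⟨q, rfl⟩ := h7d
    have hb := Nat.le_of_dvd (Nat.pos_of_ne_zero (by rintro e; rw [e] at hNc; simp at hNc)) hd
    rcases hk' with rfl | rfl | rfl | rfl <;> rcases hc' with rfl | rfl | rfl <;>
      (first | omega | (have hq : q ≤ 18 := by omega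
                        interval_cases q <;> omega))
  have hwH : permOf SubIndexData.w23 ∈ H := by
    have hw : wi ∈ Subgroup.normalizer (Subgroup.zpowers fi : Set (fixGroup [2 ^ 23])) :=
      relation 4 wv fv _ _ hfo (by decide) hrel
    rw [← Subgroup.eq_of_le_of_card_ge (inf_le_right (a := H') (b := Subgroup.normalizer (Subgroup.zpowers fi : Set (fixGroup [2 ^ 23]))))
      (by rw [hh, hM])] at hw
    exact hw.1
  -- the orbit of a fixed point of the element of order seven
  set Ω := Finset.univ.filter fun p => ∃ h ∈ H, h (ptN 3) = p with hΩ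
  have hmem : ∀ p, p ∈ Ω ↔ ∃ h ∈ H, h (ptN 3) = p := fun p => by simp [hΩ]
  have hinv : ∀ g ∈ H, ∀ p, g p ∈ Ω ↔ p ∈ Ω := by
    intro g hg p
    rw [hmem, hmem]
    constructor
    · rintro ⟨h, hh, e⟩
      exact ⟨g⁻¹ * h, mul_mem (inv_mem hg) hh, by rw [Equiv.Perm.mul_apply, e]; exact g.symm_apply_apply p⟩
    · rintro ⟨h, hh, rfl⟩
      exact ⟨g * h, mul_mem hg hh, rfl⟩
  have hsmul : ∀ g ∈ H, g • Ω = Ω := by
    intro g hg
    refine Finset.eq_of_subset_of_card_le (fun x hx => ?_) (Finset.card_smul_finset g Ω).ge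
    obtain ⟨y, hy, rfl⟩ := Finset.mem_smul_finset.1 hx
    exact (hinv g hg y).2 hy
  have app : ∀ t : List ℕ, validTab t = true → ∀ i, i < 24 → permOf t (ptN i) = ptN (t.getD i 0) := fun t hv i hi => by
    rw [← ptN_idx (permOf t (ptN i)), idx_permOf hv, idx_ptN hi]
  have h3 : ptN 3 ∈ Ω := (hmem _).2 ⟨1, one_mem _, rfl⟩
  have h6 : ptN 6 ∈ Ω := by
    have := (hinv _ hwH (ptN 3)).2 h3
    rwa [app _ wv 3 (by omega), hw3] at this
  have h23 : ptN 23 ∉ Ω := fun hc => by
    obtain ⟨g, hg, e⟩ := (hmem _).1 hc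
    have hgn : g none = none := (Simple.mem_K23.1 (hle hg)).2
    exact absurd (g.injective (e.trans (show ptN 23 = g none from hgn.symm))) (by decide +kernel)
  have hcyc : ∀ a, a < 24 → ∀ j ∈ cyc a, (ptN j ∈ Ω ↔ ptN a ∈ Ω) := by
    intro a ha j hj
    obtain ⟨i, -, rfl⟩ := List.mem_map.1 hj
    suffices hs : ∀ i, (fun x => SubIndexData.f23.getD x 0)^[i] a < 24 ∧
        (ptN ((fun x => SubIndexData.f23.getD x 0)^[i] a) ∈ Ω ↔ ptN a ∈ Ω) from (hs i).2
    intro i
    induction i with
    | zero => exact ⟨ha, Iff.rfl⟩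
    | succ i ih =>
      rw [Function.iterate_succ_apply']
      refine ⟨?_, ?_⟩
      · have := (idx (permOf SubIndexData.f23 (ptN ((fun x => SubIndexData.f23.getD x 0)^[i] a)))).isLt
        rwa [idx_permOf fv, idx_ptN ih.1] at this
      · rw [← ih.2, ← hinv _ hf (ptN ((fun x => SubIndexData.f23.getD x 0)^[i] a)), app _ fv _ ih.1]
  have hw1 : ptN (SubIndexData.w23.getD 1 0) ∈ Ω ↔ ptN 1 ∈ Ω := by
    rw [← app _ wv 1 (by omega)]; exact hinv _ hwH _
  have hw1lt : SubIndexData.w23.getD 1 0 < 24 := by decide +kernel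
  have heq : Ω = toSet (2 ^ 3 ||| 2 ^ 6 ||| (if ptN 0 ∈ Ω then 2278017 else 0) ||| (if ptN 1 ∈ Ω then 6110518 else 0)) := by
    ext p
    have hj := List.all_eq_true.1 hcover (idx p).val (List.mem_range.2 (idx p).isLt)
    simp only [Bool.or_eq_true, Nat.beq_eq, List.contains_iff_mem, List.mem_cons, List.not_mem_nil, or_false] at hj
    have hp : p = ptN (idx p).val := (ptN_idx p).symm
    rw [mem_toSet]
    rcases hj with e | (e | e) | e | e | e
    · rw [hp, e]
      split_ifs <;> exact iff_of_false h23 (by decide +kernel)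
    · rw [hp, e]
      split_ifs <;> exact iff_of_true h3 (by decide +kernel)
    · rw [hp, e]
      split_ifs <;> exact iff_of_true h6 (by decide +kernel)
    · rw [hp, hcyc 0 (by omega) _ e, idx_ptN (idx p).isLt]
      generalize (idx p).val = j at e
      revert j
      split_ifs with a b b <;> simp only [a, iff_true, iff_false] <;> decide +kernel
    · rw [hp, hcyc 1 (by omega) _ e, idx_ptN (idx p).isLt]
      generalize (idx p).val = j at e
      revert j
      split_ifs with a b b <;> simp only [b, iff_true, iff_false] <;> decide +kernel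
    · rw [hp, hcyc _ hw1lt _ e, hw1, idx_ptN (idx p).isLt]
      generalize (idx p).val = j at e
      revert j
      split_ifs with a b b <;> simp only [b, iff_true, iff_false] <;> decide +kernel
  have hO : toSet 10666625 ∈ octads := Suborb.octL_spec (by decide +kernel)
  have hOn : none ∈ toSet 10666625 := by decide +kernel
  by_cases a : ptN 0 ∈ Ω <;> by_cases b : ptN 1 ∈ Ω <;> simp only [a, b, if_true, if_false] at heq
  · exfalso
    have hd := card_dvd_of_orbit H _ Ω hmem
    rw [heq, hcard, show (toSet (2 ^ 3 ||| 2 ^ 6 ||| 2278017 ||| 6110518)).card = 23 from by decide +kernel] at hd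
    omega
  · refine Or.inr ⟨_, hO, hOn, fun g hg => ?_⟩
    have hgn : g none = none := (Simple.mem_K23.1 (hle hg)).2
    have hsub : (toSet 10666625).erase none ⊆ Ω := by rw [heq]; decide +kernel
    have hcap : 5 ≤ (g • toSet 10666625 ∩ toSet 10666625).card := by
      have h1 : g • ((toSet 10666625).erase none) ⊆ Ω := by
        rw [← hsmul g hg]; exact Finset.smul_finset_subset_smul_finset hsub
      have h2 := Finset.card_sdiff_add_card_inter (g • ((toSet 10666625).erase none)) ((toSet 10666625).erase none)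
      have h3 : (g • ((toSet 10666625).erase none) \ (toSet 10666625).erase none).card ≤ 2 := by
        refine le_trans (Finset.card_le_card (Finset.sdiff_subset_sdiff h1 le_rfl)) ?_
        rw [heq]; decide +kernel
      rw [Finset.card_smul_finset, show ((toSet 10666625).erase none).card = 7 from by decide +kernel] at h2
      have h4 : (g • ((toSet 10666625).erase none) ∩ (toSet 10666625).erase none).card ≤
          (g • toSet 10666625 ∩ toSet 10666625).card :=
        Finset.card_le_card (Finset.inter_subset_inter (Finset.smul_finset_subset_smul_finset (Finset.erase_subset _ _)) (Finset.erase_subset _ _))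
      omega
    exact octad_unique (smul_mem_octads (Simple.mem_K23.1 (hle hg)).1 hO) hO hcap Finset.inter_subset_left
      Finset.inter_subset_right
  · refine Or.inr ⟨_, hO, hOn, fun g hg => ?_⟩
    have e : toSet 10666625 = Ωᶜ := by rw [heq]; decide +kernel
    rw [e, Suborb.smul_compl, hsmul g hg]
  · exact Or.inl ⟨Ω, by rw [heq]; decide +kernel, h23, hsmul⟩

theorem classify {x : GolayPt} (H : Subgroup (Equiv.Perm GolayPt))
    (hle : ∀ h ∈ H, h ∈ M24 ∧ h x = x) (hcard : Nat.card H = 40320) :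
    (∃ s : Finset GolayPt, s.card = 2 ∧ x ∉ s ∧ ∀ h ∈ H, h • s = s) ∨
      ∃ o ∈ octads, x ∈ o ∧ ∀ h ∈ H, h • o = o := by
  classical
  haveI : Fact (Nat.Prime 7) := ⟨by norm_num⟩
  obtain ⟨a, ha, hai⟩ := exists_map_tuple (n := 1) (by omega) (fun _ => x) (fun _ => none)
    (fun _ _ _ => Subsingleton.elim _ _) (fun _ _ _ => Subsingleton.elim _ _)
  have hax : a x = none := hai 0
  set H₁ := H.map (MulAut.conj a).toMonoidHom
  have hH₁ : H₁ ≤ fixGroup [2 ^ 23] := by
    rintro _ ⟨h, hh, rfl⟩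
    refine Simple.mem_K23.2 ⟨mul_mem (mul_mem ha (hle h hh).1) (inv_mem ha), ?_⟩
    show (a * h * a⁻¹) none = none
    rw [Equiv.Perm.mul_apply, Equiv.Perm.mul_apply, ← hax]
    simp [(hle h hh).2]
  have hc1 : Nat.card H₁ = 40320 := by
    rw [← hcard]
    exact (Nat.card_congr (H.equivMapOfInjective _ (MulAut.conj a).injective).toEquiv).symm
  obtain ⟨fv, fp, -, -, f23, -, -, h7, hfne, -⟩ := tabs23
  set fi : fixGroup [2 ^ 23] := ⟨permOf SubIndexData.f23, mem_K23_tab fv fp f23⟩
  have hfo : orderOf fi = 7 := orderOf_tab fv _ hfne h7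
  have hidx : ¬ 7 ∣ (Subgroup.zpowers fi).index := by
    have := (Subgroup.zpowers fi).card_mul_index
    rw [Nat.card_zpowers, hfo, card_K23] at this
    omega
  obtain ⟨g, hg⟩ := conj_into fi hfo hidx (H₁.subgroupOf _) (by
    rw [Nat.card_congr (Subgroup.subgroupOfEquivOfLe hH₁).toEquiv, hc1]; norm_num)
  set σ : Equiv.Perm GolayPt := g.1 * a with hσ
  have hσM : σ ∈ M24 := mul_mem (Simple.mem_K23.1 g.2).1 ha
  have hσx : σ x = none := by rw [hσ, Equiv.Perm.mul_apply, hax, (Simple.mem_K23.1 g.2).2]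
  set H₂ := H.map (MulAut.conj σ).toMonoidHom
  have hH₂ : H₂ ≤ fixGroup [2 ^ 23] := by
    rintro _ ⟨h, hh, rfl⟩
    refine Simple.mem_K23.2 ⟨mul_mem (mul_mem hσM (hle h hh).1) (inv_mem hσM), ?_⟩
    show (σ * h * σ⁻¹) none = none
    rw [Equiv.Perm.mul_apply, Equiv.Perm.mul_apply, ← hσx]
    simp [(hle h hh).2]
  have hc2 : Nat.card H₂ = 40320 := by
    rw [← hcard]
    exact (Nat.card_congr (H.equivMapOfInjective _ (MulAut.conj σ).injective).toEquiv).symm
  have hf2 : permOf SubIndexData.f23 ∈ H₂ := by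
    obtain ⟨y, hy, e⟩ := hg
    obtain ⟨h, hh, e'⟩ := hy
    refine ⟨h, hh, ?_⟩
    have e1 : (g.1 * y.1 * g.1⁻¹ : Equiv.Perm GolayPt) = permOf SubIndexData.f23 := congrArg Subtype.val e
    have e2 : a * h * a⁻¹ = y.1 := e'
    show σ * h * σ⁻¹ = _
    rw [← e1, ← e2, hσ]; group
  have back : ∀ (s : Finset GolayPt), (∀ h ∈ H₂, h • s = s) → ∀ h ∈ H, h • σ⁻¹ • s = σ⁻¹ • s := by
    intro s hs h hh
    have := hs _ ⟨h, hh, rfl⟩
    change (σ * h * σ⁻¹) • s = s at this
    rwa [mul_smul, mul_smul, ← eq_inv_smul_iff] at this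
  rcases classify_ref H₂ hH₂ hc2 hf2 with ⟨s, hs2, hns, hs⟩ | ⟨o, ho, hno, hs⟩
  · refine Or.inl ⟨σ⁻¹ • s, by rw [Finset.card_smul_finset, hs2], fun hx => hns ?_, back s hs⟩
    rw [← hσx]; exact Finset.mem_inv_smul_finset_iff.1 hx
  · refine Or.inr ⟨σ⁻¹ • o, smul_mem_octads (inv_mem hσM) ho, ?_, back o hs⟩
    rw [Finset.mem_inv_smul_finset_iff, Equiv.Perm.smul_def, hσx]; exact hno

theorem card_duad {x : GolayPt} {s : Finset GolayPt} (hs : s.card = 2) (hx : x ∉ s) :
    Nat.card ↥(stabilizer M24 x ⊓ stabilizer M24 s) = 40320 := by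
  classical
  have horb : orbit (stabilizer M24 x) s = {t : Finset GolayPt | t.card = 2 ∧ x ∉ t} := by
    ext t
    constructor
    · rintro ⟨⟨g, hg⟩, rfl⟩
      refine ⟨(Finset.card_smul_finset g.1 s).trans hs, fun h => hx ?_⟩
      have : (g : Equiv.Perm GolayPt) x = x := hg
      change x ∈ g.1 • s at h
      rw [← this] at h
      exact (Finset.smul_mem_smul_finset_iff g.1).1 h
    · rintro ⟨ht, hxt⟩
      obtain ⟨p, q, hpq, rfl⟩ := Finset.card_eq_two.1 hs
      obtain ⟨p', q', hpq', rfl⟩ := Finset.card_eq_two.1 ht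
      simp only [Finset.mem_insert, Finset.mem_singleton, not_or] at hx hxt
      obtain ⟨g, hg, hgi⟩ := exists_map_tuple (n := 3) (by omega) ![x, p, q] ![x, p', q']
        (fun i j e => by fin_cases i <;> fin_cases j <;> first | rfl |
          (exfalso; simp [hx.1, hx.2, Ne.symm hx.1, Ne.symm hx.2, hpq, hpq.symm] at e))
        (fun i j e => by fin_cases i <;> fin_cases j <;> first | rfl |
          (exfalso; simp [hxt.1, hxt.2, Ne.symm hxt.1, Ne.symm hxt.2, hpq', hpq'.symm] at e))
      refine ⟨⟨⟨g, hg⟩, hgi 0⟩, ?_⟩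
      show g • ({p, q} : Finset GolayPt) = {p', q'}
      rw [Finset.smul_finset_insert, Finset.smul_finset_singleton, Equiv.Perm.smul_def, Equiv.Perm.smul_def,
        show g p = p' from hgi 1, show g q = q' from hgi 2]
  have h := card_eq_mul_of_orbit (stabilizer M24 x) s _ horb
  obtain ⟨e⟩ := Simple.equiv_K23 x
  rw [Nat.card_congr e.toEquiv, card_K23] at h
  have hn : {t : Finset GolayPt | t.card = 2 ∧ x ∉ t}.ncard = 253 := by
    have e : {t : Finset GolayPt | t.card = 2 ∧ x ∉ t} = ↑((Finset.univ.erase x).powersetCard 2) := by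
      ext t
      simp only [Finset.mem_coe, Finset.mem_powersetCard, Set.mem_ofPred_eq, Finset.subset_erase]
      exact ⟨fun h => ⟨⟨Finset.subset_univ _, h.2⟩, h.1⟩, fun h => ⟨h.2, h.1.2⟩⟩
    rw [e, Set.ncard_coe_finset, Finset.card_powersetCard, Finset.card_erase_of_mem (Finset.mem_univ _),
      Finset.card_univ, card_pt]
    rfl
  rw [hn] at h
  omega

theorem ncard_through (x : GolayPt) : {o | o ∈ octads ∧ x ∈ o}.ncard = 253 := by
  have := steiner
  obtain ⟨a, ha, hai⟩ := exists_map_tuple (n := 1) (by omega) (fun _ => none) (fun _ => x)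
    (fun _ _ _ => Subsingleton.elim _ _) (fun _ _ _ => Subsingleton.elim _ _)
  have h0 : {o | o ∈ octads ∧ (none : GolayPt) ∈ o}.ncard = 253 := by
    rw [show octads = wordsOfWeight (golayCode : Set (GolayPt → ZMod 2)) 8 from rfl,
      ncard_eq_filter (fun m => m.testBit 23) fun s => ?_]
    · decide +kernel
    · have := testBit_mask s none
      rw [show (idx none).val = 23 from rfl] at this
      simp [this]
  rw [← h0, ← Set.ncard_image_of_injective {o | o ∈ octads ∧ (none : GolayPt) ∈ o} (MulAction.injective a)]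
  congr 1
  ext o
  constructor
  · rintro ⟨ho, hx⟩
    refine ⟨a⁻¹ • o, ⟨smul_mem_octads (inv_mem ha) ho, ?_⟩, smul_inv_smul a o⟩
    rw [Finset.mem_inv_smul_finset_iff, Equiv.Perm.smul_def, hai 0]; exact hx
  · rintro ⟨u, ⟨hu, hn⟩, rfl⟩
    refine ⟨smul_mem_octads ha hu, ?_⟩
    rw [← show a none = x from hai 0]
    exact Finset.smul_mem_smul_finset hn

theorem card_octad {x : GolayPt} {o : Finset GolayPt} (ho : o ∈ octads) (hx : x ∈ o) :
    Nat.card ↥(stabilizer M24 x ⊓ stabilizer M24 o) = 40320 := by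
  classical
  have horb : orbit (stabilizer M24 x) o = {u | u ∈ octads ∧ x ∈ u} := by
    ext u
    constructor
    · rintro ⟨⟨g, hg⟩, rfl⟩
      refine ⟨smul_mem_octads g.2 ho, ?_⟩
      show x ∈ g.1 • o
      rw [← show (g : Equiv.Perm GolayPt) x = x from hg]
      exact Finset.smul_mem_smul_finset hx
    · rintro ⟨hu, hxu⟩
      have pick : ∀ v : Finset GolayPt, v ∈ octads → x ∈ v → ∃ y : Fin 5 → GolayPt,
          Function.Injective y ∧ (∀ i, y i ∈ v) ∧ y 0 = x := by
        intro v hv hxv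
        obtain ⟨s, hs, hsc⟩ := Finset.exists_subset_card_eq (s := v.erase x) (n := 4)
          (by rw [Finset.card_erase_of_mem hxv, card_of_mem_octads hv]; omega)
        let e : Fin 4 ↪ GolayPt := (s.equivFinOfCardEq hsc).symm.toEmbedding.trans (Function.Embedding.subtype _)
        have he : ∀ i, e i ∈ v.erase x := fun i => hs ((s.equivFinOfCardEq hsc).symm i).2
        refine ⟨Fin.cons x e, Fin.cons_injective_iff.2 ⟨?_, e.injective⟩, fun i => ?_, rfl⟩
        · rintro ⟨i, hi⟩; exact (Finset.mem_erase.1 (he i)).1 hi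
        · refine Fin.cases hxv (fun j => ?_) i
          exact Finset.mem_of_mem_erase (he j)
      obtain ⟨y, hy, hyo, hy0⟩ := pick o ho hx
      obtain ⟨z, hz, hzu, hz0⟩ := pick u hu hxu
      obtain ⟨g, hg, hgi⟩ := exists_map_tuple le_rfl y z hy hz
      refine ⟨⟨⟨g, hg⟩, show g x = x from (congrArg g hy0.symm).trans ((hgi 0).trans hz0)⟩, ?_⟩
      show g • o = u
      refine octad_unique (smul_mem_octads hg ho) hu (s := Finset.univ.image z)
        (by rw [Finset.card_image_of_injective _ hz]; rfl) ?_ ?_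
      · intro p hp
        obtain ⟨i, -, rfl⟩ := Finset.mem_image.1 hp
        rw [← hgi i]; exact Finset.smul_mem_smul_finset (hyo i)
      · intro p hp
        obtain ⟨i, -, rfl⟩ := Finset.mem_image.1 hp
        exact hzu i
  have h := card_eq_mul_of_orbit (stabilizer M24 x) o _ horb
  obtain ⟨e⟩ := Simple.equiv_K23 x
  rw [Nat.card_congr e.toEquiv, card_K23, ncard_through] at h
  omega

theorem main {x : GolayPt} (H : Subgroup ↥(stabilizer M24 x)) (hH : H.index = 253) :
    (∃ s : Finset GolayPt, s.card = 2 ∧ x ∉ s ∧ H = (stabilizer M24 s).subgroupOf (stabilizer M24 x)) ∨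
      ∃ o ∈ octads, x ∈ o ∧ H = (stabilizer M24 o).subgroupOf (stabilizer M24 x) := by
  have hc : Nat.card H = 40320 := by
    have h := H.card_mul_index
    obtain ⟨e⟩ := Simple.equiv_K23 x
    rw [hH, Nat.card_congr e.toEquiv, card_K23] at h
    omega
  set ι : ↥(stabilizer M24 x) →* Equiv.Perm GolayPt := M24.subtype.comp (stabilizer M24 x).subtype
  have hι : Function.Injective ι := M24.subtype_injective.comp (stabilizer M24 x).subtype_injective
  have hc' : Nat.card (H.map ι) = 40320 :=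
    (Nat.card_congr (H.equivMapOfInjective ι hι).toEquiv).symm.trans hc
  have key : ∀ {X : Type} [MulAction (Equiv.Perm GolayPt) X] (s : X), (∀ h ∈ H.map ι, h • s = s) →
      Nat.card ↥(stabilizer M24 x ⊓ stabilizer M24 s) = 40320 →
      H = (stabilizer M24 s).subgroupOf (stabilizer M24 x) := by
    intro X _ s hs hcs
    refine Subgroup.eq_of_le_of_card_ge (fun g hg => hs _ ⟨g, hg, rfl⟩) ?_
    rw [hc, ← hcs, ← Subgroup.inf_subgroupOf_left,
      Nat.card_congr (Subgroup.subgroupOfEquivOfLe inf_le_left).toEquiv]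
  rcases classify (x := x) (H.map ι) (by rintro _ ⟨g, -, rfl⟩; exact ⟨g.1.2, g.2⟩) hc' with
    ⟨s, hs2, hxs, hs⟩ | ⟨o, ho, hxo, hs⟩
  · exact Or.inl ⟨s, hs2, hxs, key s hs (card_duad hs2 hxs)⟩
  · exact Or.inr ⟨o, ho, hxo, key o hs (card_octad ho hxo)⟩

end CfsgLib.Golay.Index253
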