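/-
Subgroups of M24 of index 759, 276 and 253.
-/
import Cfsg.Agent.Golay.IndexTools
import Cfsg.Agent.Golay.Index253
import Mathlib

set_option autoImplicit false
set_option maxRecDepth 4000

namespace CfsgLib.Golay.IndexSmall

open Cfsg CfsgLib.Golay MulAction CfsgLib.Golay.Ord3 CfsgLib.Golay.IndexTools
open scoped Pointwise

variable {H : Subgroup (Equiv.Perm GolayPt)}

theorem no_trans_large (hle : H ≤ M24) (ht : Trans H) (x : GolayPt)
    (h1 : 13440 ∣ Nat.card (Hx H x)) (h2 : Nat.card (Hx H x) ∣ 40320) : False := by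
  classical
  haveI : Fact (Nat.Prime 5) := ⟨by norm_num⟩
  haveI : Fact (Nat.Prime 7) := ⟨by norm_num⟩
  obtain ⟨f, hf, hfo⟩ := exists_elt (H := H) (p := 7) (x := x) (Dvd.dvd.trans (by norm_num) h1)
  obtain ⟨e, he, heo⟩ := exists_elt (H := H) (p := 5) (x := x) (Dvd.dvd.trans (by norm_num) h1)
  have hf7 : f ^ 7 = 1 := hfo ▸ pow_orderOf_eq_one f
  have he5 : e ^ 5 = 1 := heo ▸ pow_orderOf_eq_one e
  have hF7 : (fixSet f).card = 3 := fix7 (hle (mem_Hx.1 hf).1) hfo
  have hF5 : (fixSet e).card = 4 := fix5 (hle (mem_Hx.1 he).1) heo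
  have e7 := fun d => nb_fix' (p := 7) hf hf7 (by omega) d
  have e5 := fun d => nb_fix' (p := 5) he he5 (by omega) d
  have s7 := sum_nb_inter (H := H) x (fixSet f) (self_mem_fix hf)
  have s5 := sum_nb_inter (H := H) x (fixSet e) (self_mem_fix he)
  rw [hF7] at s7; rw [hF5] at s5
  have b7 : ∀ d < 24, (nb H d x ∩ fixSet f).card ≤ 2 := fun d hd => by
    have h := Finset.single_le_sum (f := fun d => (nb H d x ∩ fixSet f).card)
      (fun i _ => Nat.zero_le _) (Finset.mem_range.2 hd)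
    rw [s7] at h; exact h
  have b5 : ∀ d < 24, (nb H d x ∩ fixSet e).card ≤ 3 := fun d hd => by
    have h := Finset.single_le_sum (f := fun d => (nb H d x ∩ fixSet e).card)
      (fun i _ => Nat.zero_le _) (Finset.mem_range.2 hd)
    rw [s5] at h; exact h
  set S : Finset ℕ := {1, 2, 7, 8, 15, 16, 21} with hS
  have hzero : ∀ d ∈ Finset.range 24, d ∉ S → (nb H d x).card = 0 := by
    intro d hd hdS
    rw [Finset.mem_range] at hd
    by_contra hne
    obtain ⟨y, hy⟩ := Finset.card_pos.1 (Nat.pos_of_ne_zero hne)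
    have hdvd : d ∣ 40320 := ((mem_nb.1 hy).2 ▸ orb_card_dvd x y).trans h2
    have hk : 1 ≤ (nb H d x).card / d := by
      by_contra hk
      have := (e7 d).1
      rw [Nat.lt_one_iff.1 (not_le.1 hk), zero_mul] at this
      exact hne this
    have a7 : d % 7 ≤ 2 := le_trans (Nat.le_mul_of_pos_left _ hk) ((e7 d).2 ▸ b7 d hd)
    have a5 : d % 5 ≤ 3 := le_trans (Nat.le_mul_of_pos_left _ hk) ((e5 d).2 ▸ b5 d hd)
    have key : ∀ d < 24, d ∣ 40320 → d % 7 ≤ 2 → d % 5 ≤ 3 → d ∈ ({1, 2, 7, 8, 15, 16, 21} : Finset ℕ) := by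
      decide +kernel
    exact hdS (key d hd hdvd a7 a5)
  have hsub : S ⊆ Finset.range 24 := by decide
  have t := sum_nb (H := H) x
  rw [← Finset.sum_subset hsub hzero] at t
  rw [← Finset.sum_subset hsub (fun d hd hdS => by rw [(e7 d).2, hzero d hd hdS, Nat.zero_div, zero_mul])] at s7
  rw [← Finset.sum_subset hsub (fun d hd hdS => by rw [(e5 d).2, hzero d hd hdS, Nat.zero_div, zero_mul])] at s5
  have n7 := fun d => deg_ne_one ht (p := 7) hf hf7 (by omega) hF7 d
  simp only [fun d => (e7 d).2, fun d => (e5 d).2, hS, Finset.sum_insert, Finset.sum_singleton, Finset.mem_insert, Finset.mem_singleton,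
    Nat.reduceEqDiff, or_self, not_false_eq_true, Nat.reduceMod, mul_zero, mul_one, zero_add, add_zero] at s7 s5
  simp only [hS, Finset.sum_insert, Finset.sum_singleton, Finset.mem_insert, Finset.mem_singleton,
    Nat.reduceEqDiff, or_self, not_false_eq_true] at t
  have m1 := (e7 1).2 ▸ n7 1
  have m2 := (e7 2).2 ▸ n7 2
  have m8 := (e7 8).2 ▸ n7 8
  have m15 := (e7 15).2 ▸ n7 15
  have m16 := (e7 16).2 ▸ n7 16
  have c2 := (e7 2).1
  have c7 := (e7 7).1
  have c8 := (e7 8).1
  have c15 := (e7 15).1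
  have c16 := (e7 16).1
  have c21 := (e7 21).1
  simp only [Nat.reduceMod, Nat.div_one, mul_one] at m1 m2 m8 m15 m16
  rcases (show (nb H 1 x).card = 2 ∨ (nb H 2 x).card = 2 ∨
      ((nb H 7 x).card = 7 ∧ (nb H 16 x).card = 16) by omega) with hT | hT | ⟨h7, -⟩
  -- a class of size two: a triangle for one element and no triangle for the other
  case' inl => have key : ∃ d, d % 7 = d % 5 ∧ (nb H d x).card / d * (d % 7) = 2 ∧ (nb H d x).card = 2 :=
    ⟨1, rfl, by simp [hT], hT⟩
  case' inr.inl => have key : ∃ d, d % 7 = d % 5 ∧ (nb H d x).card / d * (d % 7) = 2 ∧ (nb H d x).card = 2 :=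
    ⟨2, rfl, by simp [hT], hT⟩
  case inl | inr.inl =>
    obtain ⟨d, hmod, hk, hc⟩ := key
    have d7 : (nb H d x ∩ fixSet f).card = 2 := (e7 d).2.trans hk
    have d5 : (nb H d x ∩ fixSet e).card = 2 := (e5 d).2.trans (hmod ▸ hk)
    obtain ⟨a, b, c, hab, -, -, -, -, -, hab5, -, -, hnb⟩ :=
      deg_two_four ht (p := 5) he he5 (by omega) hF5 d5
    have all7 := Finset.eq_of_subset_of_card_le (Finset.inter_subset_left (s₁ := nb H d x) (s₂ := fixSet f)) (by omega)
    have all5 := Finset.eq_of_subset_of_card_le (Finset.inter_subset_left (s₁ := nb H d x) (s₂ := fixSet e)) (by omega)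
    rw [all5] at hab5
    have hmem : ∀ y ∈ nb H d x, y ∈ fixSet f := fun y hy => (Finset.mem_inter.1 (all7.symm ▸ hy)).2
    exact hnb (complete_of_deg ht (p := 7) hf hf7 (by omega) (d := d) (by omega)
      (hmem a (by rw [hab5]; simp)) (hmem b (by rw [hab5]; simp)) hab.symm)
  -- the octads attached to adjacent points
  have d5 : (nb H 7 x ∩ fixSet e).card = 2 := by rw [(e5 7).2, h7]
  obtain ⟨a, b, c, hab, -, -, -, -, -, hab5, -, -, hnb⟩ :=
    deg_two_four ht (p := 5) he he5 (by omega) hF5 d5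
  have ha : a ∈ nb H 7 x := (Finset.mem_inter.1 (hab5 ▸ Finset.mem_insert_self a {b})).1
  have hb : b ∈ nb H 7 x :=
    (Finset.mem_inter.1 (hab5 ▸ Finset.mem_insert_of_mem (Finset.mem_singleton_self b))).1
  have hoct : ∀ z, insert z (nb H 7 z) ∈ octads := by
    intro z
    have hz7 : (nb H 7 z).card = 7 := (nb_card_const ht 7 z x).trans h7
    have hc : (insert z (nb H 7 z)).card = 8 := by
      rw [Finset.card_insert_of_notMem (not_self_nb 7 z), hz7]
    obtain ⟨o, ho, hs⟩ := octad_of_large (K := Hx H z) (inf_le_left.trans hle)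
      (fun g hg => (mem_Hx.1 hg).2) (E := nb H 7 z) (by omega) (fun g hg y => nb_inv hg y)
      (by
        intro hd
        rw [hz7, card_Hx_const ht z x] at hd
        have := h1.trans hd
        norm_num [Nat.factorial] at this)
    rwa [Finset.eq_of_subset_of_card_le hs (by rw [card_of_mem_octads ho, hc])]
  set ox := insert x (nb H 7 x) with hox
  set oa := insert a (nb H 7 a) with hoa
  have hne : oa ≠ ox := by
    intro h
    have : b ∈ oa := h ▸ Finset.mem_insert_of_mem hb
    rw [hoa, Finset.mem_insert] at this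
    exact this.elim hab.symm hnb
  set W := oa \ ox with hW
  have hxoa : x ∈ oa := Finset.mem_insert_of_mem (nb_symm ht ha)
  have haox : a ∈ ox := Finset.mem_insert_of_mem ha
  have hW6 : W.card ≤ 6 := by
    have h := Finset.card_sdiff_add_card_inter oa ox
    have h' : ({x, a} : Finset GolayPt) ⊆ oa ∩ ox := by
      intro y hy
      rw [Finset.mem_insert, Finset.mem_singleton] at hy
      rcases hy with rfl | rfl
      · exact Finset.mem_inter.2 ⟨hxoa, Finset.mem_insert_self _ _⟩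
      · exact Finset.mem_inter.2 ⟨Finset.mem_insert_self _ _, haox⟩
    have h'' := Finset.card_le_card h'
    rw [Finset.card_pair (Ne.symm (mem_nb.1 ha).1)] at h''
    rw [card_of_mem_octads (hoct a)] at h
    rw [hW]
    omega
  obtain ⟨u, hu⟩ : W.Nonempty := by
    rw [Finset.nonempty_iff_ne_empty, hW, Ne, Finset.sdiff_eq_empty_iff_subset]
    exact fun hs => hne (Finset.eq_of_subset_of_card_le hs
      (by rw [card_of_mem_octads (hoct a), card_of_mem_octads (hoct x)]))
  -- the stabiliser of the edge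
  set K := Hx H x ⊓ stabilizer (Equiv.Perm GolayPt) a with hK
  have hKc : Nat.card (Hx H x) = 7 * Nat.card K := by
    rw [card_eq_orb x a, (mem_nb.1 ha).2]
  have hKx : ∀ g ∈ K, ∀ z, z = x ∨ z = a → g ∈ Hx H z := by
    rintro g hg z (rfl | rfl)
    · exact hg.1
    · exact mem_Hx.2 ⟨(mem_Hx.1 hg.1).1, hg.2⟩
  have hinv : ∀ g ∈ K, ∀ z, z = x ∨ z = a → ∀ y, g y ∈ insert z (nb H 7 z) ↔ y ∈ insert z (nb H 7 z) := by
    intro g hg z hz y
    have hgz := hKx g hg z hz
    rw [Finset.mem_insert, Finset.mem_insert, nb_inv hgz]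
    refine or_congr_left ⟨fun h => g.injective (h.trans (mem_Hx.1 hgz).2.symm), fun h => ?_⟩
    rw [h]; exact (mem_Hx.1 hgz).2
  obtain ⟨L, hLK, hL, hd⟩ := kernel_bound K ((ox.erase x).erase a) (fun g hg y => by
    have hgx := (mem_Hx.1 hg.1).2
    have hga : g a = a := hg.2
    have h1 : ∀ z, g z = z → (g y ≠ z ↔ y ≠ z) := fun z hz =>
      ⟨fun h e => h (by rw [e, hz]), fun h e => h (g.injective (e.trans hz.symm))⟩
    rw [Finset.mem_erase, Finset.mem_erase, Finset.mem_erase, Finset.mem_erase, hox,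
      hinv g hg x (Or.inl rfl), h1 a hga, h1 x hgx])
  rw [Finset.card_erase_of_mem (Finset.mem_erase.2 ⟨(mem_nb.1 ha).1, haox⟩),
    Finset.card_erase_of_mem (Finset.mem_insert_self _ _), card_of_mem_octads (hoct x)] at hd
  have hfix : ∀ g ∈ L, ∀ y ∈ ox, g y = y := by
    intro g hg y hy
    obtain ⟨hgK, hf⟩ := (hL g).1 hg
    by_cases h1 : y = x
    · rw [h1]; exact (mem_Hx.1 hgK.1).2
    by_cases h2 : y = a
    · rw [h2]; exact hgK.2
    exact hf y (Finset.mem_erase.2 ⟨h2, Finset.mem_erase.2 ⟨h1, hy⟩⟩)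
  rw [hW, Finset.mem_sdiff] at hu
  have hLW : Nat.card L ≤ W.card := card_le_of_free (hoct x) (fun g hg => hle (mem_Hx.1 (hLK hg).1).1)
    hfix W hu.2 fun g hg => by
      rw [hW, Finset.mem_sdiff, hox, hoa, hinv g (hLK hg) x (Or.inl rfl), hinv g (hLK hg) a (Or.inr rfl)]
      exact hu
  have hK8 : 1920 ∣ Nat.card K := by
    rw [hKc] at h1
    exact Nat.dvd_of_mul_dvd_mul_left (k := 7) (by norm_num) h1
  have hdd := hK8.trans hd
  have key : ∀ l ≤ 6, 0 < l → ¬ 1920 ∣ l * (8 - 1 - 1).factorial := by decide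
  exact key _ (hLW.trans hW6) Nat.card_pos hdd

theorem no_trans_276 (hle : H ≤ M24) (ht : Trans H) (x : GolayPt)
    (hc : Nat.card (Hx H x) = 36960) : False := by
  classical
  haveI : Fact (Nat.Prime 11) := ⟨by norm_num⟩
  haveI : Fact (Nat.Prime 7) := ⟨by norm_num⟩
  obtain ⟨f, hf, hfo⟩ := exists_elt (H := H) (p := 7) (x := x) (by rw [hc]; norm_num)
  obtain ⟨e, he, heo⟩ := exists_elt (H := H) (p := 11) (x := x) (by rw [hc]; norm_num)
  have hf7 : f ^ 7 = 1 := hfo ▸ pow_orderOf_eq_one f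
  have he11 : e ^ 11 = 1 := heo ▸ pow_orderOf_eq_one e
  have hF7 : (fixSet f).card = 3 := fix7 (hle (mem_Hx.1 hf).1) hfo
  have hF11 : (fixSet e).card = 2 := fix11 (hle (mem_Hx.1 he).1) heo
  have e7 := fun d => nb_fix' (p := 7) hf hf7 (by omega) d
  have e11 := fun d => nb_fix' (p := 11) he he11 (by omega) d
  have s7 := sum_nb_inter (H := H) x (fixSet f) (self_mem_fix hf)
  have s11 := sum_nb_inter (H := H) x (fixSet e) (self_mem_fix he)
  rw [hF7] at s7; rw [hF11] at s11
  have hzero : ∀ d ∈ Finset.range 24, d ∉ ({1, 22} : Finset ℕ) → (nb H d x).card = 0 := by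
    intro d hd hdS
    rw [Finset.mem_range] at hd
    by_contra hne
    obtain ⟨y, hy⟩ := Finset.card_pos.1 (Nat.pos_of_ne_zero hne)
    have hdvd : d ∣ 36960 := hc ▸ ((mem_nb.1 hy).2 ▸ orb_card_dvd x y)
    have hk : 1 ≤ (nb H d x).card / d := by
      by_contra hk
      have := (e7 d).1
      rw [Nat.lt_one_iff.1 (not_le.1 hk), zero_mul] at this
      exact hne this
    have h7 := Finset.single_le_sum (f := fun d => (nb H d x ∩ fixSet f).card)
      (fun i _ => Nat.zero_le _) (Finset.mem_range.2 hd)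
    have h11 := Finset.single_le_sum (f := fun d => (nb H d x ∩ fixSet e).card)
      (fun i _ => Nat.zero_le _) (Finset.mem_range.2 hd)
    rw [s7, (e7 d).2] at h7
    rw [s11, (e11 d).2] at h11
    have key : ∀ d < 24, d ∣ 36960 → d % 7 ≤ 2 → d % 11 ≤ 1 → d ∈ ({1, 22} : Finset ℕ) := by decide +kernel
    exact hdS (key d hd hdvd (le_trans (Nat.le_mul_of_pos_left _ hk) h7)
      (le_trans (Nat.le_mul_of_pos_left _ hk) h11))
  have hsub : ({1, 22} : Finset ℕ) ⊆ Finset.range 24 := by decide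
  have t := sum_nb (H := H) x
  rw [← Finset.sum_subset hsub hzero, Finset.sum_pair (by norm_num)] at t
  rw [← Finset.sum_subset hsub (fun d hd hdS => by rw [(e7 d).2, hzero d hd hdS, Nat.zero_div, zero_mul]),
    Finset.sum_pair (by norm_num), (e7 1).2, (e7 22).2] at s7
  rw [← Finset.sum_subset hsub (fun d hd hdS => by rw [(e11 d).2, hzero d hd hdS, Nat.zero_div, zero_mul]),
    Finset.sum_pair (by norm_num), (e11 1).2, (e11 22).2] at s11
  have m22 := (e7 22).2 ▸ deg_ne_one ht (p := 7) hf hf7 (by omega) hF7 22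
  simp only [Nat.reduceMod, Nat.div_one, mul_one, mul_zero] at s7 s11 m22
  have c22 := (e7 22).1
  omega

open scoped Classical in
/-- An orbit of `H` on the points. -/
noncomputable def oH (H : Subgroup (Equiv.Perm GolayPt)) (x : GolayPt) : Finset GolayPt :=
  Finset.univ.filter fun y => ∃ h ∈ H, h x = y

theorem mem_oH {x y : GolayPt} : y ∈ oH H x ↔ ∃ h ∈ H, h x = y := by
  classical
  simp [oH]

theorem self_mem_oH (x : GolayPt) : x ∈ oH H x := mem_oH.2 ⟨1, one_mem _, rfl⟩

theorem oH_inv {x : GolayPt} {g : Equiv.Perm GolayPt} (hg : g ∈ H) (y : GolayPt) :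
    g y ∈ oH H x ↔ y ∈ oH H x := by
  rw [mem_oH, mem_oH]
  constructor
  · rintro ⟨k, hk, e⟩; exact ⟨g⁻¹ * k, mul_mem (inv_mem hg) hk, by simp [e]⟩
  · rintro ⟨k, hk, rfl⟩; exact ⟨g * k, mul_mem hg hk, rfl⟩

theorem oH_smul {x : GolayPt} {g : Equiv.Perm GolayPt} (hg : g ∈ H) : g • oH H x = oH H x := by
  refine Finset.eq_of_subset_of_card_le (fun y hy => ?_) (Finset.card_smul_finset g _).ge
  obtain ⟨z, hz, rfl⟩ := Finset.mem_smul_finset.1 hy
  exact (oH_inv hg z).2 hz

theorem card_eq_oH (x : GolayPt) : Nat.card H = (oH H x).card * Nat.card (Hx H x) := by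
  have e : orbit H x = (oH H x : Set GolayPt) := by
    ext y
    rw [Finset.mem_coe, mem_oH]
    exact ⟨fun ⟨k, e⟩ => ⟨k.1, k.2, e⟩, fun ⟨k, hk, e⟩ => ⟨⟨k, hk⟩, e⟩⟩
  rw [card_eq_mul_of_orbit H x _ e, Set.ncard_coe_finset]
  rfl

theorem card_point_stab (x : GolayPt) :
    Nat.card ↥(M24 ⊓ stabilizer (Equiv.Perm GolayPt) x) = 10200960 := by
  have h : Nat.card ↥(stabilizer M24 x) = 10200960 := by
    obtain ⟨e⟩ := Simple.equiv_K23 x
    rw [Nat.card_congr e.toEquiv, Index253.card_K23]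
  rw [← h]
  exact Nat.card_congr
    { toFun := fun g => ⟨⟨g.1, g.2.1⟩, g.2.2⟩
      invFun := fun g => ⟨g.1.1, g.1.2, g.2⟩
      left_inv := fun _ => rfl
      right_inv := fun _ => rfl }

/-- The possible orbit lengths. -/
theorem oH_cases (hle : H ≤ M24) (x : GolayPt) :
    (oH H x).card ≤ 24 ∧ (oH H x).card ∣ Nat.card H ∧
      Nat.card H / (oH H x).card ∣ 10200960 := by
  refine ⟨(Finset.card_le_univ _).trans_eq card_pt, ⟨_, card_eq_oH x⟩, ?_⟩
  rw [card_eq_oH (H := H) x, Nat.mul_div_cancel_left _ (Finset.card_pos.2 ⟨x, self_mem_oH x⟩),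
    ← card_point_stab x]
  exact Subgroup.card_dvd_of_le (inf_le_inf_right _ hle)

theorem trans_of_card {x : GolayPt} (h : (oH H x).card = 24) : Trans H := by
  have hu : oH H x = Finset.univ := Finset.eq_univ_of_card _ (h.trans card_pt.symm)
  intro y z
  obtain ⟨a, ha, rfl⟩ := mem_oH.1 (hu ▸ Finset.mem_univ y)
  obtain ⟨b, hb, rfl⟩ := mem_oH.1 (hu ▸ Finset.mem_univ z)
  exact ⟨b * a⁻¹, mul_mem hb (inv_mem ha), by simp⟩

/-- Outside a proper orbit the orbits fill the rest. -/
theorem oH_compl {x y : GolayPt} (hy : y ∉ oH H x) : (oH H y).card + (oH H x).card ≤ 24 := by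
  have hd : Disjoint (oH H y) (oH H x) := Finset.disjoint_left.2 fun z hz hz' => hy <| by
    obtain ⟨k, hk, rfl⟩ := mem_oH.1 hz
    exact (oH_inv hk y).1 hz'
  rw [← Finset.card_union_of_disjoint hd]
  exact (Finset.card_le_univ _).trans_eq card_pt

theorem exists_outside {x : GolayPt} (h : (oH H x).card < 24) : ∃ y, y ∉ oH H x := by
  by_contra hh
  push Not at hh
  rw [Finset.eq_univ_of_forall hh, Finset.card_univ, card_pt] at h
  omega

theorem no_253 (hle : H ≤ M24) (hc : Nat.card H = 967680) : False := by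
  obtain ⟨h1, h2, h3⟩ := oH_cases hle (none : GolayPt)
  rw [hc] at h2 h3
  have key : ∀ w ≤ 24, w ∣ 967680 → 967680 / w ∣ 10200960 → w = 24 := by decide +kernel
  have ht := trans_of_card (key _ h1 h2 h3)
  have h := card_Hx_eq ht (none : GolayPt)
  rw [hc] at h
  exact no_trans_large hle ht none (by rw [show Nat.card (Hx H none) = 40320 by omega]; norm_num)
    (by rw [show Nat.card (Hx H none) = 40320 by omega])

theorem octad_759 (hle : H ≤ M24) (hc : Nat.card H = 322560) :
    ∃ o ∈ octads, ∀ h ∈ H, h • o = o := by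
  classical
  have key : ∀ w ≤ 24, w ∣ 322560 → 322560 / w ∣ 10200960 → w = 8 ∨ w = 16 ∨ w = 24 := by decide +kernel
  have hcase : ∀ z, (oH H z).card = 8 ∨ (oH H z).card = 16 ∨ (oH H z).card = 24 := fun z => by
    obtain ⟨h1, h2, h3⟩ := oH_cases hle z
    rw [hc] at h2 h3
    exact key _ h1 h2 h3
  obtain ⟨z, hz⟩ : ∃ z, (oH H z).card = 8 := by
    rcases hcase none with h | h | h
    · exact ⟨_, h⟩
    · obtain ⟨y, hy⟩ := exists_outside (H := H) (x := none) (by omega)
      exact ⟨y, by have := oH_compl hy; have := hcase y; omega⟩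
    · exfalso
      have ht := trans_of_card h
      have hh := card_Hx_eq ht (none : GolayPt)
      rw [hc] at hh
      exact no_trans_large hle ht none (by rw [show Nat.card (Hx H none) = 13440 by omega])
        (by rw [show Nat.card (Hx H none) = 13440 by omega]; norm_num)
  obtain ⟨L, hLH, hL, hd⟩ := kernel_bound H (oH H z) (fun g hg y => oH_inv hg y)
  refine ⟨oH H z, ?_, fun h hh => oH_smul hh⟩
  by_contra hno
  have hout : ¬ ∃ o ∈ octads, oH H z ⊆ o := fun ⟨o, ho, hs⟩ => hno <| by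
    rwa [Finset.eq_of_subset_of_card_le hs (by rw [card_of_mem_octads ho, hz])]
  have h3 := card_dvd_three (hLH.trans hle) (by omega) hout fun g hg => ((hL g).1 hg).2
  rw [hc, hz] at hd
  have := hd.trans (Nat.mul_dvd_mul_right h3 _)
  norm_num [Nat.factorial] at this

theorem duad_276 (hle : H ≤ M24) (hc : Nat.card H = 887040) :
    ∃ s : Finset GolayPt, s.card = 2 ∧ ∀ h ∈ H, h • s = s := by
  haveI : Fact (Nat.Prime 11) := ⟨by norm_num⟩
  haveI : Fact (Nat.Prime 7) := ⟨by norm_num⟩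
  obtain ⟨f, hf⟩ := exists_prime_orderOf_dvd_card' (G := H) 7 (by rw [hc]; norm_num)
  obtain ⟨e, he⟩ := exists_prime_orderOf_dvd_card' (G := H) 11 (by rw [hc]; norm_num)
  rw [← Subgroup.orderOf_coe] at hf he
  have hF7 := fix7 (hle f.2) hf
  have hF11 := fix11 (hle e.2) he
  have key' : ∀ w ∈ List.range 25, (w ∣ 887040 ∧ 887040 / w ∣ 10200960 ∧ w % 7 ≤ 3 ∧ w % 11 ≤ 2) →
      w = 2 ∨ w = 22 ∨ w = 24 := by decide +kernel
  have key : ∀ w ≤ 24, w ∣ 887040 → 887040 / w ∣ 10200960 → w % 7 ≤ 3 → w % 11 ≤ 2 →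
      w = 2 ∨ w = 22 ∨ w = 24 := fun w h a b c d => key' w (List.mem_range.2 (by omega)) ⟨a, b, c, d⟩
  have hcase : ∀ z, (oH H z).card = 2 ∨ (oH H z).card = 22 ∨ (oH H z).card = 24 := fun z => by
    obtain ⟨h1, h2, h3⟩ := oH_cases hle z
    rw [hc] at h2 h3
    have a7 := card_inter_fix (p := 7) (g := f.1) (by rw [← hf]; exact pow_orderOf_eq_one _) (oH H z)
      (oH_inv f.2)
    have a11 := card_inter_fix (p := 11) (g := e.1) (by rw [← he]; exact pow_orderOf_eq_one _) (oH H z)
      (oH_inv e.2)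
    refine key _ h1 h2 h3 ?_ ?_
    · rw [← a7]
      exact (Nat.mod_le _ _).trans ((Finset.card_le_card Finset.inter_subset_right).trans hF7.le)
    · rw [← a11]
      exact (Nat.mod_le _ _).trans ((Finset.card_le_card Finset.inter_subset_right).trans hF11.le)
  rcases hcase none with h | h | h
  · exact ⟨_, h, fun g hg => oH_smul hg⟩
  · obtain ⟨y, hy⟩ := exists_outside (H := H) (x := none) (by omega)
    exact ⟨oH H y, by have := oH_compl hy; have := hcase y; omega, fun g hg => oH_smul hg⟩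
  · exfalso
    have ht := trans_of_card h
    have hh := card_Hx_eq ht (none : GolayPt)
    rw [hc] at hh
    exact no_trans_276 hle ht none (by omega)

theorem card_of_index (H : Subgroup M24) {n : ℕ} (h : H.index = n) :
    n * Nat.card (H.map M24.subtype) = 244823040 := by
  rw [← Nat.card_congr (H.equivMapOfInjective _ M24.subtype_injective).toEquiv, ← h,
    Subgroup.index_mul_card, card_M24]

theorem eq_stab {X : Type*} [MulAction (Equiv.Perm GolayPt) X] (H : Subgroup M24) (s : X) (S : Set X)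
    (hfix : ∀ h ∈ H.map M24.subtype, h • s = s) (hS : orbit M24 s = S) (hi : H.index = S.ncard) :
    H = stabilizer M24 s := by
  refine Subgroup.eq_of_le_of_card_ge (fun g hg => hfix _ ⟨g, hg, rfl⟩) ?_
  have h1 := card_stab_mul_orbit s S hS
  have h2 := H.index_mul_card
  rw [hi, card_M24] at h2
  have hpos : 0 < S.ncard := by rw [← hi]; exact Nat.pos_of_ne_zero H.index_ne_zero_of_finite
  exact le_of_eq (Nat.eq_of_mul_eq_mul_left hpos (h1.trans h2.symm))

theorem index_759 (H : Subgroup M24) (h : H.index = 759) :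
    ∃ o ∈ octads, H = stabilizer M24 o := by
  have hc := card_of_index H h
  obtain ⟨o, ho, hfix⟩ := octad_759 (H := H.map M24.subtype) (by rintro _ ⟨g, -, rfl⟩; exact g.2) (by omega)
  refine ⟨o, ho, eq_stab H o octads hfix ?_ (h.trans ncard_octads.symm)⟩
  ext o'
  constructor
  · rintro ⟨g, rfl⟩; exact smul_mem_octads g.2 ho
  · intro ho'
    obtain ⟨g, hg, e⟩ := exists_map_octad ho ho'
    exact ⟨⟨g, hg⟩, e⟩

theorem index_276 (H : Subgroup M24) (h : H.index = 276) :
    ∃ s : Finset GolayPt, s.card = 2 ∧ H = stabilizer M24 s := by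
  have hc := card_of_index H h
  obtain ⟨s, hs, hfix⟩ := duad_276 (H := H.map M24.subtype) (by rintro _ ⟨g, -, rfl⟩; exact g.2) (by omega)
  refine ⟨s, hs, eq_stab H s ↑((Finset.univ : Finset GolayPt).powersetCard 2) hfix ?_ ?_⟩
  · ext t
    simp only [Finset.mem_coe, Finset.mem_powersetCard, Finset.subset_univ, true_and]
    constructor
    · rintro ⟨g, rfl⟩; exact (Finset.card_smul_finset g.1 s).trans hs
    · intro ht
      obtain ⟨g, hg, e⟩ := exists_map_set (s := s) (t := t) (by omega) (by omega)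
      exact ⟨⟨g, hg⟩, e⟩
  · rw [h, Set.ncard_coe_finset, Finset.card_powersetCard, Finset.card_univ, card_pt]
    rfl

theorem index_253 (H : Subgroup M24) : H.index ≠ 253 := fun h => by
  have hc := card_of_index H h
  exact no_253 (H := H.map M24.subtype) (by rintro _ ⟨g, -, rfl⟩; exact g.2) (by omega)

end CfsgLib.Golay.IndexSmall
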