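/-
Subgroups of M24 of index 1771.
-/
import Cfsg.Agent.Golay.IndexSmall
import Cfsg.Agent.Golay.Sextet
import Cfsg.Agent.Golay.Position
import Mathlib

set_option autoImplicit false
set_option maxRecDepth 4000

namespace CfsgLib.Golay.IndexSextet

open Cfsg CfsgLib.Golay MulAction CfsgLib.Golay.Ord3 CfsgLib.Golay.IndexTools
open scoped Pointwise

/-- The symmetric group on eight letters has no subgroup of order 5760. -/
theorem no_order_5760 {α : Type*} [Fintype α] [DecidableEq α] (hα : Fintype.card α = 8)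
    (U : Subgroup (Equiv.Perm α)) : Nat.card U ≠ 5760 := by
  intro hU
  haveI : Nontrivial α := Fintype.one_lt_card_iff_nontrivial.1 (by omega)
  have hP : Nat.card (Equiv.Perm α) = 40320 := by
    rw [Nat.card_perm, Nat.card_eq_fintype_card, hα]; rfl
  have hA : Nat.card (alternatingGroup α) = 20160 := by
    rw [nat_card_alternatingGroup, Nat.card_eq_fintype_card, hα]; rfl
  have hUi : U.index = 7 := by
    have := U.card_mul_index
    rw [hU, hP] at this
    omega
  haveI : IsSimpleGroup (alternatingGroup α) :=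
    alternatingGroup.isSimpleGroup (by rw [Nat.card_eq_fintype_card, hα]; norm_num)
  set W := U.subgroupOf (alternatingGroup α) with hW
  have hi : W.index ≤ 7 := by
    rw [← hUi]
    exact (Subgroup.relIndex_le_of_le_right le_top (by rw [Subgroup.relIndex_top_right]; exact U.index_ne_zero_of_finite)).trans_eq
      U.relIndex_top_right
  have hWc := W.card_mul_index
  rw [hA] at hWc
  have hWU : Nat.card W ≤ 5760 := by
    rw [← hU]
    exact Nat.card_le_card_of_injective (fun g => (⟨g.1.1, g.2⟩ : U))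
      fun a b e => Subtype.ext (Subtype.ext (congrArg (fun z : U => z.1) e))
  rcases IsSimpleGroup.eq_bot_or_eq_top_of_normal W.normalCore inferInstance with hc | hc
  · rw [Subgroup.normalCore_eq_ker] at hc
    have hinj : Function.Injective (MulAction.toPermHom (alternatingGroup α) (alternatingGroup α ⧸ W)) :=
      (MonoidHom.ker_eq_bot_iff _).1 hc
    have hle := Nat.card_le_card_of_injective _ hinj
    rw [hA, Nat.card_perm, ← Subgroup.index_eq_card] at hle
    have := hle.trans (Nat.factorial_le hi)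
    norm_num [Nat.factorial] at this
  · have : W = ⊤ := top_le_iff.1 (hc ▸ W.normalCore_le)
    rw [this, Subgroup.card_top, hA] at hWU
    omega

variable {H : Subgroup (Equiv.Perm GolayPt)}

/-- The possible suborbit sizes. -/
theorem class_eqs (hle : H ≤ M24) (x : GolayPt) (h : Nat.card (Hx H x) = 5760) :
    ∃ e, e ∈ Hx H x ∧ e ^ 5 = 1 ∧ orderOf e = 5 ∧ (fixSet e).card = 4 ∧
      (∀ d, (nb H d x ∩ fixSet e).card = (nb H d x).card / d * (d % 5) ∧
        (nb H d x).card = (nb H d x).card / d * d) ∧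
      ∀ d ∈ Finset.range 24, d ∉ ({1, 2, 3, 5, 6, 8, 10, 12, 15, 16, 18, 20} : Finset ℕ) →
        (nb H d x).card = 0 := by
  haveI : Fact (Nat.Prime 5) := ⟨by norm_num⟩
  obtain ⟨e, he, heo⟩ := exists_elt (H := H) (p := 5) (x := x) (by rw [h]; norm_num)
  have he5 : e ^ 5 = 1 := heo ▸ pow_orderOf_eq_one e
  have hF : (fixSet e).card = 4 := fix5 (hle (mem_Hx.1 he).1) heo
  have e5 := fun d => nb_fix' (p := 5) he he5 (by omega) d
  refine ⟨e, he, he5, heo, hF, fun d => ⟨(e5 d).2, (e5 d).1⟩, fun d hd hdS => ?_⟩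
  rw [Finset.mem_range] at hd
  by_contra hne
  obtain ⟨y, hy⟩ := Finset.card_pos.1 (Nat.pos_of_ne_zero hne)
  have hdvd : d ∣ 5760 := h ▸ ((mem_nb.1 hy).2 ▸ orb_card_dvd x y)
  have hk : 1 ≤ (nb H d x).card / d := by
    by_contra hk
    have := (e5 d).1
    rw [Nat.lt_one_iff.1 (not_le.1 hk), zero_mul] at this
    exact hne this
  have s5 := sum_nb_inter (H := H) x (fixSet e) (self_mem_fix he)
  rw [hF] at s5
  have h5 := Finset.single_le_sum (f := fun d => (nb H d x ∩ fixSet e).card)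
    (fun i _ => Nat.zero_le _) (Finset.mem_range.2 hd)
  rw [s5, (e5 d).2] at h5
  have key : ∀ d ∈ List.range 24, d ∣ 5760 → d % 5 ≤ 3 →
      d ∈ ({1, 2, 3, 5, 6, 8, 10, 12, 15, 16, 18, 20} : Finset ℕ) := by decide +kernel
  exact hdS (key d (List.mem_range.2 hd) hdvd (le_trans (Nat.le_mul_of_pos_left _ hk) h5))

theorem orb_singleton {x y : GolayPt} (h : y ∈ nb H 1 x) {g : Equiv.Perm GolayPt} (hg : g ∈ Hx H x) :
    g y = y :=
  Finset.card_le_one.1 (mem_nb.1 h).2.le _ (mem_orb.2 ⟨g, hg, rfl⟩) _ (self_mem_orb x y)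

/-- Points fixed by each other's stabilisers have the same stabiliser. -/
theorem Hx_partner (ht : Trans H) {x y : GolayPt} (h : y ∈ nb H 1 x) : Hx H x = Hx H y :=
  Subgroup.eq_of_le_of_card_ge (fun _ hg => mem_Hx.2 ⟨(mem_Hx.1 hg).1, orb_singleton h hg⟩)
    (card_Hx_const ht x y).ge

theorem nb_partner (ht : Trans H) {x y z : GolayPt} (h : y ∈ nb H 1 x) {d : ℕ} (hz : z ∈ nb H d x)
    (hzy : z ≠ y) : z ∈ nb H d y := by
  refine mem_nb.2 ⟨hzy, ?_⟩
  rw [← (mem_nb.1 hz).2]
  congr 1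
  ext w
  rw [mem_orb, mem_orb, Hx_partner ht h]

/-- A pairing forbids a class of degree one on the fixed points. -/
theorem partner_deg (ht : Trans H) {x : GolayPt} (h1 : (nb H 1 x).card = 1) {e : Equiv.Perm GolayPt}
    (he : e ∈ Hx H x) (he5 : e ^ 5 = 1) (hF : (fixSet e).card = 4) {d : ℕ} (hd : d ≠ 1)
    (hdeg : (nb H d x ∩ fixSet e).card = 1) : False := by
  haveI : Fact (Nat.Prime 5) := ⟨by norm_num⟩
  obtain ⟨y, hy⟩ := Finset.card_eq_one.1 h1
  have hym : y ∈ nb H 1 x := hy ▸ Finset.mem_singleton_self y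
  obtain ⟨z, hz⟩ := Finset.card_eq_one.1 hdeg
  have hzm : z ∈ nb H d x ∩ fixSet e := hz ▸ Finset.mem_singleton_self z
  rw [Finset.mem_inter] at hzm
  have hzy : z ≠ y := fun h => nb_disjoint hd (h ▸ hzm.1) hym
  have hyF : y ∈ fixSet e := by simp [fixSet, orb_singleton hym he]
  have h' := nb_symm ht (nb_partner ht hym hzm.1 hzy)
  have hle := Finset.card_le_one.1 ((deg_const ht he he5 (by omega) hzm.2 d).trans hdeg).le
  exact (mem_nb.1 hym).1 (hle y (Finset.mem_inter.2 ⟨h', hyF⟩) x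
    (Finset.mem_inter.2 ⟨nb_symm ht hzm.1, self_mem_fix he⟩))

theorem no_small_suborbit (hle : H ≤ M24) (ht : Trans H) (x : GolayPt)
    (h : Nat.card (Hx H x) = 5760) {d : ℕ} (hd : d = 5 ∨ d = 6) : nb H d x = ∅ := by
  classical
  haveI : Fact (Nat.Prime 5) := ⟨by norm_num⟩
  refine Finset.eq_empty_of_forall_notMem fun y hy => ?_
  obtain ⟨hyx, hyd⟩ := mem_nb.1 hy
  have hinvE : ∀ g ∈ Hx H x, ∀ z, g z ∈ orb H x y ↔ z ∈ orb H x y := by
    intro g hg z
    rw [mem_orb, mem_orb]
    constructor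
    · rintro ⟨k, hk, e⟩; exact ⟨g⁻¹ * k, mul_mem (inv_mem hg) hk, by simp [e]⟩
    · rintro ⟨k, hk, rfl⟩; exact ⟨g * k, mul_mem hg hk, rfl⟩
  have hxE : x ∉ orb H x y := fun hx => orb_ne hyx hx rfl
  obtain ⟨o, ho, hEo⟩ := octad_of_large (K := Hx H x) (inf_le_left.trans hle)
    (fun g hg => (mem_Hx.1 hg).2) (E := orb H x y)
    (by rw [Finset.card_insert_of_notMem hxE, hyd]; omega) hinvE
    (by rw [h, hyd]; rcases hd with rfl | rfl <;> decide)
  have hxo : x ∈ o := hEo (Finset.mem_insert_self _ _)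
  have hgo : ∀ g ∈ Hx H x, g • o = o := fun g hg => by
    refine octad_unique (smul_mem_octads (hle (mem_Hx.1 hg).1) ho) ho (s := orb H x y) (by omega) ?_
      ((Finset.subset_insert _ _).trans hEo)
    intro z hz
    rw [← Finset.inv_smul_mem_iff]
    exact (Finset.subset_insert _ _).trans hEo ((hinvE g⁻¹ (inv_mem hg) z).2 hz)
  have hmem : ∀ g ∈ Hx H x, ∀ z, g z ∈ o ↔ z ∈ o := fun g hg z => by
    conv_lhs => rw [← hgo g hg]
    exact Finset.smul_mem_smul_finset_iff g
  obtain ⟨L, hLK, hL, hdL⟩ := kernel_bound (Hx H x) (o.erase x) (fun g hg z => by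
    rw [Finset.mem_erase, Finset.mem_erase, hmem g hg]
    refine and_congr_left fun _ => ?_
    conv_lhs => rw [← (mem_Hx.1 hg).2]
    exact g.injective.ne_iff)
  rw [h, Finset.card_erase_of_mem hxo, card_of_mem_octads ho] at hdL
  have hL8 : 8 ≤ Nat.card L := by
    have key : ∀ l < 8, 0 < l → ¬ 5760 ∣ l * (8 - 1).factorial := by decide
    by_contra hlt
    exact key _ (not_le.1 hlt) Nat.card_pos hdL
  have hfix : ∀ g ∈ L, ∀ z ∈ o, g z = z := by
    intro g hg z hz
    by_cases hzx : z = x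
    · rw [hzx]; exact (mem_Hx.1 (hLK hg)).2
    · exact ((hL g).1 hg).2 z (Finset.mem_erase.2 ⟨hzx, hz⟩)
  -- sizes inside and outside the octad
  have hin : ∀ z ∈ o, z ≠ x → (orb H x z).card < 8 := fun z hz hzx => by
    have hs : orb H x z ⊆ o.erase x := fun w hw => by
      obtain ⟨k, hk, rfl⟩ := mem_orb.1 hw
      exact Finset.mem_erase.2 ⟨orb_ne hzx hw, (hmem k hk z).2 hz⟩
    have := Finset.card_le_card hs
    rw [Finset.card_erase_of_mem hxo, card_of_mem_octads ho] at this
    omega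
  have hout : ∀ z, z ∉ o → 8 ≤ (orb H x z).card ∧ (orb H x z).card ≤ 16 := fun z hz => by
    refine ⟨hL8.trans (card_le_of_free ho (fun g hg => hle (mem_Hx.1 (hLK hg)).1) hfix _ hz
      fun g hg => mem_orb.2 ⟨g, hLK hg, rfl⟩), ?_⟩
    have hs : orb H x z ⊆ oᶜ := fun w hw => by
      obtain ⟨k, hk, rfl⟩ := mem_orb.1 hw
      rw [Finset.mem_compl, hmem k hk z]; exact hz
    have := Finset.card_le_card hs
    rwa [Finset.card_compl, card_of_mem_octads ho, card_pt] at this
  obtain ⟨e, he, he5, heo, hF, e5, hzero⟩ := class_eqs hle x h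
  have hcap : ∀ d' ∈ Finset.range 24, (nb H d' x ∩ o).card = if d' < 8 then (nb H d' x).card else 0 := by
    intro d' _
    split_ifs with hlt
    · congr 1
      refine Finset.inter_eq_left.2 fun z hz => ?_
      by_contra hzo
      have := (hout z hzo).1
      rw [(mem_nb.1 hz).2] at this
      omega
    · refine Finset.card_eq_zero.2 (Finset.eq_empty_of_forall_notMem fun z hz => ?_)
      rw [Finset.mem_inter] at hz
      have := hin z hz.2 (mem_nb.1 hz.1).1
      rw [(mem_nb.1 hz.1).2] at this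
      exact hlt this
  have hbig : ∀ d', 16 < d' → (nb H d' x).card = 0 := fun d' hd' =>
    Finset.card_eq_zero.2 (Finset.eq_empty_of_forall_notMem fun z hz => by
      obtain ⟨hzx, hzd⟩ := mem_nb.1 hz
      by_cases hzo : z ∈ o
      · have := hin z hzo hzx; omega
      · have := (hout z hzo).2; omega)
  have so := sum_nb_inter (H := H) x o hxo
  rw [Finset.sum_congr rfl hcap, card_of_mem_octads ho] at so
  have t := sum_nb (H := H) x
  have s5 := sum_nb_inter (H := H) x (fixSet e) (self_mem_fix he)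
  rw [hF] at s5
  set S : Finset ℕ := {1, 2, 3, 5, 6, 8, 10, 12, 15, 16, 18, 20} with hS
  have hsub : S ⊆ Finset.range 24 := by decide
  rw [← Finset.sum_subset hsub hzero] at t
  rw [← Finset.sum_subset hsub (fun d hd hdS => by rw [hzero d hd hdS, ite_self])] at so
  rw [← Finset.sum_subset hsub (fun d hd hdS => by rw [(e5 d).1, hzero d hd hdS, Nat.zero_div, zero_mul])] at s5
  simp only [fun d => (e5 d).1, hS, Finset.sum_insert, Finset.sum_singleton, Finset.mem_insert,
    Finset.mem_singleton, Nat.reduceEqDiff, or_self, not_false_eq_true, Nat.reduceMod, mul_zero, mul_one,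
    zero_add, add_zero, Nat.reduceLT, if_true, if_false] at s5 t so
  have hpos : 0 < (nb H 5 x).card ∨ 0 < (nb H 6 x).card := by
    rcases hd with rfl | rfl
    · exact Or.inl (Finset.card_pos.2 ⟨y, hy⟩)
    · exact Or.inr (Finset.card_pos.2 ⟨y, hy⟩)
  rcases (show (nb H 1 x).card = 2 ∨ ((nb H 2 x).card = 2 ∧ (nb H 1 x).card = 0) ∨
      ((nb H 6 x).card = 6 ∧ (nb H 1 x).card = 1) by
    rw [hbig 18 (by omega), hbig 20 (by omega)] at t
    rw [hbig 18 (by omega)] at s5
    obtain ⟨k2, h2⟩ : ∃ k, (nb H 2 x).card = k * 2 := ⟨_, (e5 2).2⟩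
    obtain ⟨k3, h3⟩ : ∃ k, (nb H 3 x).card = k * 3 := ⟨_, (e5 3).2⟩
    obtain ⟨k5, h5⟩ : ∃ k, (nb H 5 x).card = k * 5 := ⟨_, (e5 5).2⟩
    obtain ⟨k6, h6⟩ : ∃ k, (nb H 6 x).card = k * 6 := ⟨_, (e5 6).2⟩
    obtain ⟨k8, h8⟩ : ∃ k, (nb H 8 x).card = k * 8 := ⟨_, (e5 8).2⟩
    obtain ⟨k10, h10⟩ : ∃ k, (nb H 10 x).card = k * 10 := ⟨_, (e5 10).2⟩
    obtain ⟨k12, h12⟩ : ∃ k, (nb H 12 x).card = k * 12 := ⟨_, (e5 12).2⟩
    obtain ⟨k15, h15⟩ : ∃ k, (nb H 15 x).card = k * 15 := ⟨_, (e5 15).2⟩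
    obtain ⟨k16, h16⟩ : ∃ k, (nb H 16 x).card = k * 16 := ⟨_, (e5 16).2⟩
    simp only [h2, h3, h5, h6, h8, h10, h12, h15, h16, Nat.div_one,
      Nat.mul_div_cancel, Nat.zero_lt_succ, Nat.zero_div, zero_mul, add_zero] at t so s5 hpos ⊢
    have b2 : k2 ≤ 3 := by omega
    have b3 : k3 ≤ 2 := by omega
    have b5 : k5 ≤ 1 := by omega
    have b6 : k6 ≤ 1 := by omega
    interval_cases k5 <;> interval_cases k6 <;> omega) with hT | ⟨hT, hT1⟩ | ⟨h6, h1⟩
  case' inl => have key : ∃ d, (nb H d x).card = 2 ∧ (nb H d x ∩ fixSet e).card = 2 ∧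
      ((nb H 1 x).card = 0 ∨ d = 1) := ⟨1, hT, by rw [(e5 1).1, hT], Or.inr rfl⟩
  case' inr.inl => have key : ∃ d, (nb H d x).card = 2 ∧ (nb H d x ∩ fixSet e).card = 2 ∧
      ((nb H 1 x).card = 0 ∨ d = 1) := ⟨2, hT, by rw [(e5 2).1, hT], Or.inl hT1⟩
  case inl | inr.inl =>
    obtain ⟨d', hc, hdeg, hd'⟩ := key
    obtain ⟨a, b, c, hab, hcx, hca, hcb, -, hcn, hex, hea, heb, -⟩ :=
      deg_two_four ht he he5 (by omega) hF hdeg
    have full : ∀ z w, (nb H d' z ∩ fixSet e) = {x, w} → w ≠ x → nb H d' z = {x, w} := fun z w hz hwx => by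
      rw [← hz]
      exact (Finset.eq_of_subset_of_card_le Finset.inter_subset_left
        (by rw [hz, Finset.card_pair (Ne.symm hwx), nb_card_const ht d' z x, hc])).symm
    have hxab : nb H d' x = {a, b} := by
      rw [← hex]
      exact (Finset.eq_of_subset_of_card_le Finset.inter_subset_left (by rw [hdeg, hc])).symm
    have ha := full a c hea hcx
    have hb := full b c heb hcx
    have hfixc : ∀ g ∈ Hx H x, g c = c := by
      intro g hg
      have hga : g a ∈ nb H d' x := (nb_inv hg a).2 (hxab ▸ Finset.mem_insert_self a {b})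
      have hsm : g • ({x, c} : Finset GolayPt) = {x, c} := by
        rw [← ha, nb_smul d' a (mem_Hx.1 hg).1]
        rw [hxab, Finset.mem_insert, Finset.mem_singleton] at hga
        rcases hga with e' | e' <;> rw [e']
        rw [ha, hb]
      have hgc : g c ∈ ({x, c} : Finset GolayPt) := by
        rw [← hsm]; exact Finset.smul_mem_smul_finset (Finset.mem_insert_of_mem (Finset.mem_singleton_self c))
      rw [Finset.mem_insert, Finset.mem_singleton] at hgc
      exact hgc.resolve_left fun e' => hcx (g.injective (e'.trans (mem_Hx.1 hg).2.symm))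
    have hc1 : c ∈ nb H 1 x := mem_nb.2 ⟨hcx, Finset.card_eq_one.2 ⟨c, Finset.eq_singleton_iff_unique_mem.2
      ⟨self_mem_orb x c, fun z hz => by obtain ⟨k, hk, rfl⟩ := mem_orb.1 hz; exact hfixc k hk⟩⟩⟩
    rcases hd' with h0 | rfl
    · rw [Finset.card_eq_zero] at h0; simp [h0] at hc1
    · exact hcn hc1
  exact partner_deg ht h1 he he5 hF (d := 6) (by norm_num) (by rw [(e5 6).1, h6])

/-- The small suborbits. -/
noncomputable def small (H : Subgroup (Equiv.Perm GolayPt)) (x : GolayPt) : Finset GolayPt :=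
  nb H 1 x ∪ nb H 2 x ∪ nb H 3 x

theorem no_pairing (hle : H ≤ M24) (ht : Trans H) (x : GolayPt) (h : Nat.card (Hx H x) = 5760)
    (h1 : (nb H 1 x).card = 1) (h10 : (nb H 10 x).card = 10) : False := by
  classical
  haveI : Fact (Nat.Prime 3) := ⟨by norm_num⟩
  obtain ⟨y, hy⟩ := Finset.card_eq_one.1 h1
  have hym : y ∈ nb H 1 x := hy ▸ Finset.mem_singleton_self y
  set P := nb H 10 x with hP
  set π : GolayPt → Finset GolayPt := fun z => insert z (nb H 1 z) with hπ
  have hp1 : ∀ z, ∃ w, nb H 1 z = {w} := fun z =>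
    Finset.card_eq_one.1 ((nb_card_const ht 1 z x).trans h1)
  have hpair : ∀ z w, nb H 1 z = {w} → nb H 1 w = {z} := fun z w hw => by
    obtain ⟨u, hu⟩ := hp1 w
    have : z ∈ nb H 1 w := nb_symm ht (hw ▸ Finset.mem_singleton_self w)
    rw [hu, Finset.mem_singleton] at this
    rw [hu, this]
  have hmemP : ∀ z ∈ P, ∀ w, nb H 1 z = {w} → w ∈ P := by
    intro z hz w hw
    have hxw : x ≠ w := fun e => by
      have := hpair z w hw
      rw [← e, hy, Finset.singleton_inj] at this
      exact nb_disjoint (show (10 : ℕ) ≠ 1 by norm_num) hz (this ▸ hym)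
    exact nb_symm ht (nb_partner ht (hw ▸ Finset.mem_singleton_self w) (nb_symm ht hz) hxw)
  have hπc : ∀ z, (π z).card = 2 := fun z => by
    rw [hπ, Finset.card_insert_of_notMem (not_self_nb 1 z), nb_card_const ht 1 z x, h1]
  have hfib : ∀ z ∈ P, P.filter (fun w => π w = π z) = π z := by
    intro z hz
    obtain ⟨w, hw⟩ := hp1 z
    ext u
    rw [Finset.mem_filter]
    constructor
    · rintro ⟨-, e⟩; rw [← e]; exact Finset.mem_insert_self _ _
    · intro hu
      simp only [hπ, hw, Finset.mem_insert, Finset.mem_singleton] at hu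
      rcases hu with rfl | rfl
      · exact ⟨hz, rfl⟩
      · exact ⟨hmemP z hz u hw, by simp only [hπ, hw, hpair z u hw, Finset.pair_comm]⟩
  set Q := P.image π with hQ
  have hQc : Q.card = 5 := by
    have hh := Finset.card_eq_sum_card_fiberwise (f := π) (s := P) (t := Q)
      (fun z hz => Finset.mem_coe.2 (Finset.mem_image_of_mem π (Finset.mem_coe.1 hz)))
    rw [Finset.sum_congr rfl (g := fun _ => 2) (fun q hq => by
      obtain ⟨z, hz, rfl⟩ := Finset.mem_image.1 hq
      rw [hfib z hz, hπc]), Finset.sum_const, h10, smul_eq_mul] at hh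
    omega
  have hπg : ∀ g ∈ Hx H x, ∀ z, g • π z = π (g z) := fun g hg z => by
    simp only [hπ]
    rw [Finset.smul_finset_insert, nb_smul 1 z (mem_Hx.1 hg).1, Equiv.Perm.smul_def]
  have hQg : ∀ g ∈ Hx H x, ∀ q ∈ Q, g • q ∈ Q := by
    intro g hg q hq
    obtain ⟨z, hz, rfl⟩ := Finset.mem_image.1 hq
    rw [hπg g hg]
    exact Finset.mem_image_of_mem π ((nb_inv hg z).2 hz)
  let φ : Hx H x →* Equiv.Perm Q :=
    { toFun := fun g => ⟨fun q => ⟨g.1 • q.1, hQg g g.2 _ q.2⟩,
        fun q => ⟨g.1⁻¹ • q.1, hQg _ (inv_mem g.2) _ q.2⟩,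
        fun q => Subtype.ext (inv_smul_smul g.1 q.1), fun q => Subtype.ext (smul_inv_smul g.1 q.1)⟩
      map_one' := Equiv.ext fun q => Subtype.ext (one_smul _ q.1)
      map_mul' := fun a b => Equiv.ext fun q => Subtype.ext (mul_smul a.1 b.1 q.1) }
  have h3 : 3 ∣ Nat.card φ.ker := by
    have hk := φ.ker.card_mul_index
    rw [Subgroup.index_ker, h] at hk
    have hr := Subgroup.card_subgroup_dvd_card φ.range
    rw [Nat.card_perm, Nat.card_eq_finsetCard, hQc] at hr
    have h48 : 5760 ∣ Nat.card φ.ker * 120 := hk ▸ Nat.mul_dvd_mul_left _ hr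
    omega
  obtain ⟨r, hr⟩ := exists_prime_orderOf_dvd_card' 3 h3
  rw [← Subgroup.orderOf_coe, ← Subgroup.orderOf_coe] at hr
  have hrx : (r.1.1 : Equiv.Perm GolayPt) ∈ Hx H x := r.1.2
  have hsub : insert x (insert y P) ⊆ fixSet r.1.1 := by
    intro z hz
    rw [fixSet, Finset.mem_filter]
    refine ⟨Finset.mem_univ _, ?_⟩
    rcases Finset.mem_insert.1 hz with rfl | hz
    · exact (mem_Hx.1 hrx).2
    rcases Finset.mem_insert.1 hz with rfl | hz
    · exact orb_singleton hym hrx
    have hq : r.1.1 • π z = π z := congrArg Subtype.val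
      (Equiv.ext_iff.1 (MonoidHom.mem_ker.1 r.2) ⟨π z, Finset.mem_image_of_mem π hz⟩)
    obtain ⟨w, hw⟩ := hp1 z
    simp only [hπ, hw] at hq
    have hz1 : r.1.1 z ∈ ({z, w} : Finset GolayPt) := by
      rw [← hq]; exact Finset.smul_mem_smul_finset (Finset.mem_insert_self _ _)
    have hw1 : r.1.1 w ∈ ({z, w} : Finset GolayPt) := by
      rw [← hq]; exact Finset.smul_mem_smul_finset (Finset.mem_insert_of_mem (Finset.mem_singleton_self w))
    rw [Finset.mem_insert, Finset.mem_singleton] at hz1 hw1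
    rcases hz1 with e1 | e1
    · exact e1
    have hwz : r.1.1 w = z := hw1.resolve_right fun e => by
      have := r.1.1.injective (e.trans e1.symm)
      exact (mem_nb.1 (hw ▸ Finset.mem_singleton_self w)).1 this
    have h3' : (r.1.1 ^ 3) z = z := by rw [← hr, pow_orderOf_eq_one]; rfl
    rw [show (r.1.1 ^ 3) z = r.1.1 (r.1.1 (r.1.1 z)) from rfl, e1, hwz] at h3'
    exact h3'
  have hc := Finset.card_le_card hsub
  have hyP : y ∉ P := fun hp => nb_disjoint (show (10 : ℕ) ≠ 1 by norm_num) hp hym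
  have hxP : x ∉ insert y P := by
    rw [Finset.mem_insert, not_or]
    exact ⟨Ne.symm (mem_nb.1 hym).1, not_self_nb 10 x⟩
  rw [Finset.card_insert_of_notMem hxP, Finset.card_insert_of_notMem hyP, h10] at hc
  have := fix_card_cases (hle (mem_Hx.1 hrx).1) hr
  omega

theorem no_eight (hle : H ≤ M24) (x : GolayPt) (h : Nat.card (Hx H x) = 5760)
    (h8 : (nb H 8 x).card = 8) : False := by
  classical
  haveI : Fact (Nat.Prime 3) := ⟨by norm_num⟩
  let π : Hx H x →* Equiv.Perm (nb H 8 x) :=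
    { toFun := fun g => g.1.subtypePerm (fun z => nb_inv g.2 z)
      map_one' := by ext z; rfl
      map_mul' := fun a b => by ext z; rfl }
  have hker : π.ker = ⊥ := by
    by_contra hne
    have hout : ¬ ∃ o ∈ octads, insert x (nb H 8 x) ⊆ o := fun ⟨o, ho, hs⟩ => by
      have := Finset.card_le_card hs
      rw [Finset.card_insert_of_notMem (not_self_nb 8 x), h8, card_of_mem_octads ho] at this
      omega
    have hfix : ∀ g ∈ π.ker.map (Hx H x).subtype, ∀ z ∈ insert x (nb H 8 x), g z = z := by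
      rintro _ ⟨g, hg, rfl⟩ z hz
      rcases Finset.mem_insert.1 hz with rfl | hz
      · exact (mem_Hx.1 g.2).2
      · exact congrArg (fun e : Equiv.Perm (nb H 8 x) => (e ⟨z, hz⟩ : GolayPt)) hg
    have hd := card_dvd_three (L := π.ker.map (Hx H x).subtype)
      (by rintro _ ⟨g, -, rfl⟩; exact hle (mem_Hx.1 g.2).1)
      (by rw [Finset.card_insert_of_notMem (not_self_nb 8 x), h8]; norm_num) hout hfix
    rw [← Nat.card_congr (π.ker.equivMapOfInjective _ (Hx H x).subtype_injective).toEquiv] at hd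
    rcases (Nat.dvd_prime Nat.prime_three).1 hd with h1 | h3
    · exact hne (Subgroup.eq_bot_of_card_eq _ h1)
    obtain ⟨r, hr⟩ := exists_prime_orderOf_dvd_card' (G := π.ker) 3 (by rw [h3])
    rw [← Subgroup.orderOf_coe, ← Subgroup.orderOf_coe] at hr
    have hs : insert x (nb H 8 x) ⊆ fixSet r.1.1 := fun z hz => by
      rw [fixSet, Finset.mem_filter]
      exact ⟨Finset.mem_univ _, hfix _ ⟨r.1, r.2, rfl⟩ z hz⟩
    have := Finset.card_le_card hs
    rw [Finset.card_insert_of_notMem (not_self_nb 8 x), h8] at this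
    have := fix_card_cases (hle (mem_Hx.1 r.1.2).1) hr
    omega
  refine no_order_5760 (by rw [Fintype.card_coe, h8]) π.range ?_
  rw [← h]
  exact (Nat.card_congr (MonoidHom.ofInjective ((MonoidHom.ker_eq_bot_iff π).1 hker)).toEquiv).symm

theorem small_card (hle : H ≤ M24) (ht : Trans H) (x : GolayPt) (h : Nat.card (Hx H x) = 5760) :
    (small H x).card = 3 := by
  classical
  obtain ⟨e, he, he5, heo, hF, e5, hzero⟩ := class_eqs hle x h
  have z5 := Finset.card_eq_zero.2 (no_small_suborbit hle ht x h (d := 5) (Or.inl rfl))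
  have z6 := Finset.card_eq_zero.2 (no_small_suborbit hle ht x h (d := 6) (Or.inr rfl))
  have hc : (small H x).card = (nb H 1 x).card + (nb H 2 x).card + (nb H 3 x).card := by
    rw [small, Finset.card_union_of_disjoint, Finset.card_union_of_disjoint]
    · exact Finset.disjoint_left.2 fun z h1 h2 => nb_disjoint (show (1 : ℕ) ≠ 2 by norm_num) h1 h2
    · refine Finset.disjoint_left.2 fun z h1 h3 => ?_
      rcases Finset.mem_union.1 h1 with h1 | h1
      · exact nb_disjoint (show (1 : ℕ) ≠ 3 by norm_num) h1 h3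
      · exact nb_disjoint (show (2 : ℕ) ≠ 3 by norm_num) h1 h3
  have t := sum_nb (H := H) x
  have s5 := sum_nb_inter (H := H) x (fixSet e) (self_mem_fix he)
  rw [hF] at s5
  set S : Finset ℕ := {1, 2, 3, 5, 6, 8, 10, 12, 15, 16, 18, 20} with hS
  have hsub : S ⊆ Finset.range 24 := by decide
  rw [← Finset.sum_subset hsub hzero] at t
  rw [← Finset.sum_subset hsub (fun d hd hdS => by rw [(e5 d).1, hzero d hd hdS, Nat.zero_div, zero_mul])] at s5
  simp only [fun d => (e5 d).1, hS, Finset.sum_insert, Finset.sum_singleton, Finset.mem_insert,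
    Finset.mem_singleton, Nat.reduceEqDiff, or_self, not_false_eq_true, Nat.reduceMod, mul_zero, mul_one,
    zero_add, add_zero] at s5 t
  rcases (show (small H x).card = 3 ∨ (nb H 8 x).card = 8 ∨
      ((nb H 1 x).card = 1 ∧ (nb H 10 x).card = 10) by
    rw [hc]
    rw [z5, z6] at t
    rw [z6] at s5
    obtain ⟨k2, h2⟩ : ∃ k, (nb H 2 x).card = k * 2 := ⟨_, (e5 2).2⟩
    obtain ⟨k3, h3⟩ : ∃ k, (nb H 3 x).card = k * 3 := ⟨_, (e5 3).2⟩
    obtain ⟨k8, h8⟩ : ∃ k, (nb H 8 x).card = k * 8 := ⟨_, (e5 8).2⟩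
    obtain ⟨k10, h10⟩ : ∃ k, (nb H 10 x).card = k * 10 := ⟨_, (e5 10).2⟩
    obtain ⟨k12, h12⟩ : ∃ k, (nb H 12 x).card = k * 12 := ⟨_, (e5 12).2⟩
    obtain ⟨k15, h15⟩ : ∃ k, (nb H 15 x).card = k * 15 := ⟨_, (e5 15).2⟩
    obtain ⟨k16, h16⟩ : ∃ k, (nb H 16 x).card = k * 16 := ⟨_, (e5 16).2⟩
    obtain ⟨k18, h18⟩ : ∃ k, (nb H 18 x).card = k * 18 := ⟨_, (e5 18).2⟩
    obtain ⟨k20, h20⟩ : ∃ k, (nb H 20 x).card = k * 20 := ⟨_, (e5 20).2⟩
    simp only [h2, h3, h8, h10, h12, h15, h16, h18, h20, Nat.div_one,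
      Nat.mul_div_cancel, Nat.zero_lt_succ, Nat.zero_div, zero_mul, zero_add, add_zero] at t s5 ⊢
    have b8 : k8 ≤ 1 := by omega
    have b12 : k12 ≤ 1 := by omega
    have b16 : k16 ≤ 1 := by omega
    have b18 : k18 ≤ 1 := by omega
    interval_cases k8 <;> interval_cases k12 <;> interval_cases k16 <;> interval_cases k18 <;> omega) with r | r | r
  · exact r
  · exact (no_eight hle x h r).elim
  · exact (no_pairing hle ht x h r.1 r.2).elim

/-- A point with its small suborbits. -/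
noncomputable def blk (H : Subgroup (Equiv.Perm GolayPt)) (x : GolayPt) : Finset GolayPt :=
  insert x (small H x)

theorem blk_smul (x : GolayPt) {g : Equiv.Perm GolayPt} (hg : g ∈ H) : g • blk H x = blk H (g x) := by
  simp only [blk, small, Finset.smul_finset_insert, Finset.smul_finset_union, nb_smul _ x hg,
    Equiv.Perm.smul_def]

theorem blk_eq_fix (hle : H ≤ M24) (ht : Trans H) (x : GolayPt) (h : Nat.card (Hx H x) = 5760)
    {e : Equiv.Perm GolayPt} (he : e ∈ Hx H x) (heo : orderOf e = 5) : blk H x = fixSet e := by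
  classical
  haveI : Fact (Nat.Prime 5) := ⟨by norm_num⟩
  have he5 : e ^ 5 = 1 := heo ▸ pow_orderOf_eq_one e
  have hF : (fixSet e).card = 4 := fix5 (hle (mem_Hx.1 he).1) heo
  have hsub : ∀ d, d < 5 → nb H d x ⊆ fixSet e := by
    intro d hd
    obtain ⟨h1, h2⟩ := nb_fix' (p := 5) he he5 (by omega) d (H := H)
    rw [Nat.mod_eq_of_lt hd, ← h1] at h2
    exact Finset.inter_eq_left.1 (Finset.eq_of_subset_of_card_le Finset.inter_subset_left h2.ge)
  refine Finset.eq_of_subset_of_card_le ?_ ?_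
  · rw [blk, small]
    exact Finset.insert_subset (self_mem_fix he) (Finset.union_subset
      (Finset.union_subset (hsub 1 (by norm_num)) (hsub 2 (by norm_num))) (hsub 3 (by norm_num)))
  · rw [blk, Finset.card_insert_of_notMem, small_card hle ht x h, hF]
    simp [small, not_self_nb]

/-- The images of a set under the powers of an element moving five sets cyclically. -/
theorem five_cycle {S : Finset (Finset GolayPt)} (hS : S.card = 5) {e : Equiv.Perm GolayPt}
    (he : orderOf e = 5) (hinv : ∀ t ∈ S, e • t ∈ S) (hmove : ∀ t ∈ S, e • t ≠ t) {t u : Finset GolayPt}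
    (ht : t ∈ S) (hu : u ∈ S) : ∃ i : ℕ, e ^ i • t = u := by
  classical
  have hpow : ∀ i : ℕ, e ^ i • t ∈ S := by
    intro i
    induction i with
    | zero => rwa [pow_zero, one_smul]
    | succ i ih => rw [pow_succ', mul_smul]; exact hinv _ ih
  have hinj : Function.Injective (fun i : Fin 5 => (⟨e ^ i.val • t, hpow i.val⟩ : S)) := by
    intro i j hij
    have hij' : e ^ i.val • t = e ^ j.val • t := congrArg Subtype.val hij
    by_contra hne
    wlog hlt : i.val < j.val generalizing i j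
    · exact this hij.symm hij'.symm (Ne.symm hne) (by
        have := fun h => hne (Fin.ext h)
        omega)
    obtain ⟨k, hk⟩ : ∃ k, j.val = i.val + k := ⟨j.val - i.val, by omega⟩
    rw [hk, pow_add, mul_smul, smul_left_cancel_iff] at hij'
    have hco : Nat.Coprime k (orderOf e) := by
      rw [he]
      exact ((Nat.prime_five.coprime_iff_not_dvd).2 fun h => by
        have := Nat.le_of_dvd (by omega) h; omega).symm
    obtain ⟨m, hm⟩ := exists_pow_eq_self_of_coprime hco
    refine hmove t ht ?_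
    have hfixn : ∀ n : ℕ, (e ^ k) ^ n • t = t := by
      intro n
      induction n with
      | zero => rw [pow_zero, one_smul]
      | succ n ih => rw [pow_succ, mul_smul, ← hij', ih]
    rw [← hm]
    exact hfixn m
  obtain ⟨i, hi⟩ := ((Fintype.bijective_iff_injective_and_card _).2
    ⟨hinj, by rw [Fintype.card_fin, Fintype.card_coe, hS]⟩).2 ⟨u, hu⟩
  exact ⟨i.val, congrArg Subtype.val hi⟩

theorem card_eq_fibres {α β : Type*} [DecidableEq β] (B : α → β) (s : Finset α) (S : Finset β) (a : ℕ)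
    (hmem : ∀ w ∈ s, B w ∈ S) (hfib : ∀ q ∈ S, (s.filter fun w => B w = q).card = a) :
    s.card = S.card * a := by
  rw [Finset.card_eq_sum_card_fiberwise (f := B) (s := s) (t := S)
    (fun w hw => Finset.mem_coe.2 (hmem w (Finset.mem_coe.1 hw))), Finset.sum_congr rfl hfib,
    Finset.sum_const, smul_eq_mul]

theorem card_image_blocks {α : Type*} [Fintype α] [DecidableEq α] (B : α → Finset α) (k : ℕ)
    (hk : ∀ z, (B z).card = k) (hself : ∀ z, z ∈ B z) (heq : ∀ z, ∀ a ∈ B z, B a = B z) :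
    (Finset.univ.image B).card * k = Fintype.card α := by
  rw [← Finset.card_univ, Finset.card_eq_sum_card_fiberwise (f := B) (s := Finset.univ)
    (t := Finset.univ.image B) (fun z _ => Finset.mem_coe.2 (Finset.mem_image_of_mem _ (Finset.mem_univ z))),
    ← smul_eq_mul, ← Finset.sum_const]
  refine Finset.sum_congr rfl fun q hq => ?_
  obtain ⟨z, -, rfl⟩ := Finset.mem_image.1 hq
  refine (hk z).symm.trans ?_
  congr 1
  ext w
  rw [Finset.mem_filter]
  exact ⟨fun h => ⟨Finset.mem_univ _, heq z w h⟩, fun h => h.2 ▸ hself w⟩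

theorem self_mem_blk (z : GolayPt) : z ∈ blk H z := Finset.mem_insert_self _ _

attribute [local irreducible] blk small nb orb sextetOf

theorem sextet_1771 (hle : H ≤ M24) (hc : Nat.card H = 138240) :
    ∃ S ∈ sextets, ∀ h ∈ H, h • S = S := by
  haveI : Fact (Nat.Prime 5) := ⟨by norm_num⟩
  haveI : Fact (Nat.Prime 3) := ⟨by norm_num⟩
  have key : ∀ w ∈ List.range 25, w ∣ 138240 ∧ 138240 / w ∣ 10200960 → w = 24 := by decide +kernel
  obtain ⟨o1, o2, o3⟩ := IndexSmall.oH_cases hle (none : GolayPt)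
  rw [hc] at o2 o3
  have ht : Trans H :=
    IndexSmall.trans_of_card (key _ (List.mem_range.2 (Nat.lt_succ_of_le o1)) ⟨o2, o3⟩)
  have hx5 : ∀ z, Nat.card (Hx H z) = 5760 := fun z => by
    have := card_Hx_eq ht z
    rw [hc] at this
    omega
  have helt : ∀ z, ∃ e ∈ Hx H z, orderOf e = 5 := fun z => exists_elt (by rw [hx5]; norm_num)
  have hB : ∀ z, (blk H z).card = 4 := fun z => by
    obtain ⟨e, he, heo⟩ := helt z
    rw [blk_eq_fix hle ht z (hx5 z) he heo, fix5 (hle (mem_Hx.1 he).1) heo]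
  have hBeq : ∀ z, ∀ a ∈ blk H z, blk H a = blk H z := by
    intro z a ha
    obtain ⟨e, he, heo⟩ := helt z
    rw [blk_eq_fix hle ht z (hx5 z) he heo] at ha
    rw [blk_eq_fix hle ht z (hx5 z) he heo, blk_eq_fix hle ht a (hx5 a) (mem_Hx_of_fix he ha) heo]
  have hself : ∀ z, z ∈ blk H z := self_mem_blk
  set x : GolayPt := none
  obtain ⟨e, he, heo⟩ := helt x
  have he5 : e ^ 5 = 1 := heo ▸ pow_orderOf_eq_one e
  have hFe := blk_eq_fix hle ht x (hx5 x) he heo
  set S0 := sextetOf (blk H x) with hS0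
  have hS0m : S0 ∈ sextets := sextetOf_mem (hB x)
  set K := H ⊓ stabilizer (Equiv.Perm GolayPt) (blk H x) with hK
  set 𝔅 := (Finset.univ.image (blk H)).erase (blk H x) with h𝔅
  have hall : (Finset.univ.image (blk H)).card = 6 := by
    have hh := card_image_blocks (blk H) 4 hB hself hBeq
    rw [card_pt] at hh
    omega
  have h𝔅c : 𝔅.card = 5 := by
    rw [h𝔅, Finset.card_erase_of_mem (Finset.mem_image_of_mem _ (Finset.mem_univ x)), hall]
  have hKc : Nat.card K = 23040 := by
    have horb : orbit H (blk H x) = ((Finset.univ.image (blk H) : Finset _) : Set (Finset GolayPt)) := by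
      ext q
      rw [Finset.mem_coe, Finset.mem_image]
      constructor
      · rintro ⟨g, rfl⟩; exact ⟨g.1 x, Finset.mem_univ _, (blk_smul x g.2).symm⟩
      · rintro ⟨z, -, rfl⟩
        obtain ⟨g, hg, rfl⟩ := ht x z
        exact ⟨⟨g, hg⟩, blk_smul x hg⟩
    have hh := card_eq_mul_of_orbit H (blk H x) _ horb
    rw [Set.ncard_coe_finset, hall, hc] at hh
    show Nat.card ↥(H ⊓ stabilizer (Equiv.Perm GolayPt) (blk H x)) = 23040
    omega
  have hKS : ∀ g ∈ K, g • S0 = S0 := fun g hg =>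
    eq_sextetOf (Suborb.smul_mem_sextets (hle hg.1) hS0m)
      (by
        have hm := Finset.smul_mem_smul_finset (a := g) (self_mem_sextetOf (blk H x))
        rwa [show g • blk H x = blk H x from hg.2] at hm)
  have hK𝔅 : ∀ g ∈ K, ∀ q ∈ 𝔅, g • q ∈ 𝔅 := by
    intro g hg q hq
    rw [h𝔅, Finset.mem_erase, Finset.mem_image] at hq ⊢
    obtain ⟨hne, z, -, rfl⟩ := hq
    refine ⟨fun h => hne ?_, g z, Finset.mem_univ _, (blk_smul z hg.1).symm⟩
    rw [← smul_left_cancel_iff g, h]
    exact (show g • blk H x = blk H x from hg.2).symm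
  have heK : e ∈ K := ⟨(mem_Hx.1 he).1, by
    show e • blk H x = blk H x
    rw [blk_smul x (mem_Hx.1 he).1, (mem_Hx.1 he).2]⟩
  set 𝔗 := S0.erase (blk H x) with h𝔗
  have h𝔗c : 𝔗.card = 5 := by
    rw [h𝔗, Finset.card_erase_of_mem (self_mem_sextetOf _), hS0m.1]
  have hK𝔗 : ∀ g ∈ K, ∀ t ∈ 𝔗, g • t ∈ 𝔗 := by
    intro g hg t ht'
    rw [h𝔗, Finset.mem_erase] at ht' ⊢
    refine ⟨fun h => ht'.1 ?_, ?_⟩
    · rw [← smul_left_cancel_iff g, h]
      exact (show g • blk H x = blk H x from hg.2).symm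
    · have hm := Finset.smul_mem_smul_finset (a := g) ht'.2
      rwa [hKS g hg] at hm
  -- the element of order five moves every other block and tetrad
  have hmove : ∀ q : Finset GolayPt, q.card = 4 → Disjoint q (blk H x) → e • q ≠ q := by
    intro q hq hd hfixq
    have h1 := card_inter_fix (p := 5) he5 q (fun y => by
      conv_lhs => rw [← hfixq]
      exact Finset.smul_mem_smul_finset_iff e)
    rw [← hFe, Finset.disjoint_iff_inter_eq_empty.1 hd, Finset.card_empty, hq] at h1
    omega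
  have h𝔅d : ∀ q ∈ 𝔅, q.card = 4 ∧ Disjoint q (blk H x) := by
    intro q hq
    rw [h𝔅, Finset.mem_erase, Finset.mem_image] at hq
    obtain ⟨hne, z, -, rfl⟩ := hq
    exact ⟨hB z, Finset.disjoint_left.2 fun w h1 h2 => hne ((hBeq z w h1).symm.trans (hBeq x w h2))⟩
  have h𝔗d : ∀ q ∈ 𝔗, q.card = 4 ∧ Disjoint q (blk H x) := by
    intro q hq
    rw [h𝔗, Finset.mem_erase] at hq
    exact ⟨hS0m.2.1 q hq.2, sextet_disjoint hS0m hq.2 (self_mem_sextetOf _) hq.1⟩
  have cyc𝔅 : ∀ q ∈ 𝔅, ∀ q' ∈ 𝔅, ∃ i : ℕ, e ^ i • q = q' := fun q hq q' hq' =>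
    five_cycle h𝔅c heo (hK𝔅 e heK) (fun r hr => hmove r (h𝔅d r hr).1 (h𝔅d r hr).2) hq hq'
  have cyc𝔗 : ∀ q ∈ 𝔗, ∀ q' ∈ 𝔗, ∃ i : ℕ, e ^ i • q = q' := fun q hq q' hq' =>
    five_cycle h𝔗c heo (hK𝔗 e heK) (fun r hr => hmove r (h𝔗d r hr).1 (h𝔗d r hr).2) hq hq'
  -- an element fixing all blocks fixes all tetrads
  have hcols : ∀ r ∈ K, (∀ q ∈ 𝔅, r • q = q) → ∀ t ∈ 𝔗, r • t = t := by
    intro r hr hrq t ht'
    obtain ⟨i, hi⟩ := cyc𝔗 t ht' (r • t) (hK𝔗 r hr t ht')
    by_cases h5 : 5 ∣ i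
    · obtain ⟨c, rfl⟩ := h5
      rw [← hi, pow_mul, he5, one_pow, one_smul]
    exfalso
    have hiK : e ^ i ∈ K := pow_mem heK i
    have hf : ∀ q ∈ 𝔅, ((e ^ i • q) ∩ t).card = (q ∩ t).card := by
      intro q hq
      have hq' := hK𝔅 _ hiK q hq
      calc ((e ^ i • q) ∩ t).card = (r • ((e ^ i • q) ∩ t)).card := (Finset.card_smul_finset _ _).symm
        _ = ((e ^ i • q) ∩ (e ^ i • t)).card := by rw [Finset.smul_finset_inter, hrq _ hq', hi]
        _ = (q ∩ t).card := by rw [← Finset.smul_finset_inter, Finset.card_smul_finset]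
    have hco : Nat.Coprime i (orderOf e) := by
      rw [heo]; exact ((Nat.prime_five.coprime_iff_not_dvd).2 h5).symm
    obtain ⟨j, hj⟩ := exists_pow_eq_self_of_coprime hco
    have hpow : ∀ n : ℕ, ∀ q ∈ 𝔅, (((e ^ i) ^ n • q) ∩ t).card = (q ∩ t).card := by
      intro n q hq
      induction n with
      | zero => rw [pow_zero, one_smul]
      | succ n ih => rw [pow_succ', mul_smul, hf _ (hK𝔅 _ (pow_mem hiK n) q hq), ih]
    obtain ⟨q0, hq0⟩ := Finset.card_pos.1 (show 0 < 𝔅.card by omega)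
    have hconst : ∀ q ∈ 𝔅, (q ∩ t).card = (q0 ∩ t).card := by
      intro q hq
      obtain ⟨m, rfl⟩ := cyc𝔅 q0 hq0 q hq
      rw [show e ^ m = (e ^ i) ^ (j * m) by rw [pow_mul, hj]]
      exact hpow _ q0 hq0
    have hmem : ∀ w ∈ t, blk H w ∈ 𝔅 := fun w hw => Finset.mem_erase.2
      ⟨fun h => Finset.disjoint_left.1 (h𝔗d t ht').2 hw (h ▸ hself w),
        Finset.mem_image_of_mem (blk H) (Finset.mem_univ w)⟩
    have hfib : ∀ q ∈ 𝔅, (t.filter fun w => blk H w = q).card = (q0 ∩ t).card := by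
      intro q hq
      rw [← hconst q hq]
      refine congrArg Finset.card ?_
      ext w
      rw [Finset.mem_filter, Finset.mem_inter, and_comm]
      refine and_congr_left fun _ => ⟨fun h => h ▸ hself w, fun h => ?_⟩
      obtain ⟨z, -, rfl⟩ := Finset.mem_image.1 (Finset.mem_of_mem_erase hq)
      exact hBeq z w h
    have hsum := card_eq_fibres (blk H) t 𝔅 _ hmem hfib
    rw [(h𝔗d t ht').1, h𝔅c] at hsum
    omega
  -- such an element of order three
  let φ : K →* Equiv.Perm 𝔅 :=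
    { toFun := fun g => ⟨fun q => ⟨g.1 • q.1, hK𝔅 g g.2 _ q.2⟩,
        fun q => ⟨g.1⁻¹ • q.1, hK𝔅 _ (inv_mem g.2) _ q.2⟩,
        fun q => Subtype.ext (inv_smul_smul g.1 q.1), fun q => Subtype.ext (smul_inv_smul g.1 q.1)⟩
      map_one' := Equiv.ext fun q => Subtype.ext (one_smul _ q.1)
      map_mul' := fun a b => Equiv.ext fun q => Subtype.ext (mul_smul a.1 b.1 q.1) }
  have h3 : 3 ∣ Nat.card φ.ker := by
    have hk := φ.ker.card_mul_index
    rw [Subgroup.index_ker, hKc] at hk
    have hr := Subgroup.card_subgroup_dvd_card φ.range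
    rw [Nat.card_perm, Nat.card_eq_finsetCard, h𝔅c] at hr
    have h192 : 23040 ∣ Nat.card φ.ker * 120 := hk ▸ Nat.mul_dvd_mul_left _ hr
    omega
  obtain ⟨r0, hr0⟩ := exists_prime_orderOf_dvd_card' 3 h3
  rw [← Subgroup.orderOf_coe, ← Subgroup.orderOf_coe] at hr0
  set r := r0.1.1 with hrdef
  have hrK : r ∈ K := r0.1.2
  have hrq : ∀ q ∈ 𝔅, r • q = q := fun q hq =>
    congrArg Subtype.val (Equiv.ext_iff.1 (MonoidHom.mem_ker.1 r0.2) ⟨q, hq⟩)
  have hrt := hcols r hrK hrq
  obtain ⟨u, hu, hru⟩ : ∃ u, u ∉ blk H x ∧ r u ≠ u := by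
    by_contra hh
    push Not at hh
    have hs : (blk H x)ᶜ ⊆ fixSet r := fun w hw => by
      rw [fixSet, Finset.mem_filter]
      exact ⟨Finset.mem_univ _, hh w (Finset.mem_compl.1 hw)⟩
    have := Finset.card_le_card hs
    rw [Finset.card_compl, hB, card_pt] at this
    have := fix_card_cases (hle hrK.1) hr0
    omega
  choose T hT hTm using fun w : GolayPt => sextet_cover hS0m w
  have hTu : ∀ t ∈ S0, ∀ w ∈ t, T w = t := fun t ht' w hw => by
    by_contra hne
    exact Finset.disjoint_left.1 (sextet_disjoint hS0m (hT w) ht' hne) (hTm w) hw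
  have hTg : ∀ g ∈ K, ∀ w, g • T w = T (g w) := fun g hg w => by
    have hm : g • T w ∈ S0 := by
      have hm := Finset.smul_mem_smul_finset (a := g) (hT w)
      rwa [hKS g hg] at hm
    exact (hTu _ hm _ (Finset.smul_mem_smul_finset (hTm w))).symm
  have hin𝔅 : ∀ w, w ∉ blk H x → blk H w ∈ 𝔅 := fun w hw => by
    rw [h𝔅, Finset.mem_erase]
    exact ⟨fun h => hw (h ▸ hself w), Finset.mem_image_of_mem _ (Finset.mem_univ w)⟩
  have hin𝔗 : ∀ w, w ∉ blk H x → T w ∈ 𝔗 := fun w hw => by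
    rw [h𝔗, Finset.mem_erase]
    exact ⟨fun h => hw (h ▸ hTm w), hT w⟩
  set m : GolayPt → ℕ := fun w => (blk H w ∩ T w).card with hm
  have hmg : ∀ g ∈ K, ∀ w, m (g w) = m w := fun g hg w => by
    simp only [hm]
    rw [← blk_smul w hg.1, ← hTg g hg, ← Finset.smul_finset_inter, Finset.card_smul_finset]
  have hm3 : 3 ≤ m u := by
    have hstep : ∀ w ∈ blk H u ∩ T u, r w ∈ blk H u ∩ T u := fun w hw => by
      rw [Finset.mem_inter] at hw ⊢
      constructor
      · rw [← hrq _ (hin𝔅 u hu)]; exact Finset.smul_mem_smul_finset hw.1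
      · rw [← hrt _ (hin𝔗 u hu)]; exact Finset.smul_mem_smul_finset hw.2
    have h0 : u ∈ blk H u ∩ T u := Finset.mem_inter.2 ⟨hself u, hTm u⟩
    have hsub : ({u, r u, r (r u)} : Finset GolayPt) ⊆ blk H u ∩ T u := by
      intro w hw
      simp only [Finset.mem_insert, Finset.mem_singleton] at hw
      rcases hw with rfl | rfl | rfl
      · exact h0
      · exact hstep _ h0
      · exact hstep _ (hstep _ h0)
    have h2 : r (r u) ≠ u := fun h => hru <| by
      have h3' : (r ^ 3) u = u := by rw [← hr0, pow_orderOf_eq_one]; rfl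
      rw [show (r ^ 3) u = r (r (r u)) from rfl, h] at h3'
      exact h3'
    have hc3 : ({u, r u, r (r u)} : Finset GolayPt).card = 3 := by
      rw [Finset.card_insert_of_notMem, Finset.card_pair fun h => hru (r.injective h).symm]
      simp only [Finset.mem_insert, Finset.mem_singleton, not_or]
      exact ⟨Ne.symm hru, Ne.symm h2⟩
    exact hc3 ▸ Finset.card_le_card hsub
  have hshift : ∀ w, w ∉ blk H x → ∃ g ∈ K, g • blk H u = blk H w := fun w hw => by
    obtain ⟨i, hi⟩ := cyc𝔅 _ (hin𝔅 u hu) _ (hin𝔅 w hw)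
    exact ⟨_, pow_mem heK i, hi⟩
  have hblocks : ∀ z, blk H z ∈ S0 := by
    by_cases h4 : m u = 4
    · have hBT : blk H u = T u := by
        have e1 := Finset.eq_of_subset_of_card_le (Finset.inter_subset_left (s₁ := blk H u) (s₂ := T u))
          (by rw [hB]; exact h4.ge)
        have e2 := Finset.eq_of_subset_of_card_le (Finset.inter_subset_right (s₁ := blk H u) (s₂ := T u))
          (by rw [hS0m.2.1 _ (hT u)]; exact h4.ge)
        exact e1.symm.trans e2
      intro z
      by_cases hz : z ∈ blk H x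
      · rw [hBeq x z hz]; exact self_mem_sextetOf _
      obtain ⟨g, hg, e'⟩ := hshift z hz
      rw [← e', hBT, ← hKS g hg]
      exact Finset.smul_mem_smul_finset (hT u)
    exfalso
    have hm3' : m u = 3 := by
      have : m u ≤ 4 := (Finset.card_le_card Finset.inter_subset_left).trans (hB u).le
      omega
    have hone : (blk H u \ T u).card = 1 := by
      have := Finset.card_sdiff_add_card_inter (blk H u) (T u)
      rw [hB] at this
      simp only [hm] at hm3'
      omega
    obtain ⟨v, hv⟩ := Finset.card_eq_one.1 hone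
    have hmv : ∀ w ∈ blk H u, (m w = 1 ↔ w = v) := by
      intro w hw
      have hbw := hBeq u w hw
      constructor
      · intro h1
        by_contra hne
        have hwT : w ∈ T u := by
          by_contra hwT
          exact hne (Finset.mem_singleton.1 (hv ▸ Finset.mem_sdiff.2 ⟨hw, hwT⟩))
        simp only [hm, hbw, hTu _ (hT u) w hwT] at h1 hm3'
        omega
      · rintro rfl
        have hwT : w ∉ T u := (Finset.mem_sdiff.1 (hv ▸ Finset.mem_singleton_self w)).2
        simp only [hm, hbw]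
        refine le_antisymm ?_ (Finset.card_pos.2 ⟨w, Finset.mem_inter.2 ⟨hw, hTm w⟩⟩)
        rw [← hone]
        refine Finset.card_le_card fun y hy => ?_
        rw [Finset.mem_inter] at hy
        refine Finset.mem_sdiff.2 ⟨hy.1, fun hyT => hwT ?_⟩
        have := (hTu _ (hT w) y hy.2).symm.trans (hTu _ (hT u) y hyT)
        rw [← this]; exact hTm w
    set V := Finset.univ.filter (fun w => w ∉ blk H x ∧ m w = 1) with hV
    have hVc : V.card = 5 := by
      have hmem : ∀ w ∈ V, blk H w ∈ 𝔅 := fun w hw => hin𝔅 w (Finset.mem_filter.1 hw).2.1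
      have hfib : ∀ q ∈ 𝔅, (V.filter fun w => blk H w = q).card = 1 := by
        intro q hq
        obtain ⟨i, rfl⟩ := cyc𝔅 _ (hin𝔅 u hu) q hq
        set g := e ^ i
        have hg : g ∈ K := pow_mem heK i
        refine Finset.card_eq_one.2 ⟨g v, ?_⟩
        ext w
        rw [Finset.mem_filter, hV, Finset.mem_filter, Finset.mem_singleton]
        have hvu : v ∈ blk H u := (Finset.mem_sdiff.1 (hv ▸ Finset.mem_singleton_self v)).1
        constructor
        · rintro ⟨⟨-, -, h1⟩, hw⟩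
          have hmem : g⁻¹ w ∈ blk H u := by
            have := hw ▸ hself w
            rwa [← Finset.inv_smul_mem_iff] at this
          rw [← hmg g⁻¹ (inv_mem hg) w] at h1
          rw [← (hmv _ hmem).1 h1]
          simp
        · rintro rfl
          refine ⟨⟨Finset.mem_univ _, fun hmem => ?_, ?_⟩, ?_⟩
          · exact Finset.disjoint_left.1 (h𝔅d _ hq).2 (Finset.smul_mem_smul_finset hvu) hmem
          · rw [hmg g hg]; exact (hmv v hvu).2 rfl
          · rw [← blk_smul v hg.1, hBeq u v hvu]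
      rw [card_eq_fibres (blk H) V 𝔅 1 hmem hfib, h𝔅c]
    have hVinv : ∀ g ∈ K, ∀ w, g w ∈ V ↔ w ∈ V := by
      intro g hg w
      simp only [hV, Finset.mem_filter, Finset.mem_univ, true_and, hmg g hg w]
      refine and_congr_left fun _ => not_congr ?_
      conv_lhs => rw [← show g • blk H x = blk H x from hg.2]
      exact Finset.smul_mem_smul_finset_iff g
    obtain ⟨L, hLK, hL, hd⟩ := kernel_bound K V hVinv
    obtain ⟨o, ho, hVo⟩ := exists_octad hVc
    have hgo : ∀ g ∈ L, g • o = o := fun g hg =>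
      octad_unique (smul_mem_octads (hle (hLK hg).1) ho) ho (s := V) hVc.ge
        (fun w hw => by
          rw [← ((hL g).1 hg).2 w hw]
          exact Finset.smul_mem_smul_finset (hVo hw)) hVo
    obtain ⟨L2, hL2, hL2', hd2⟩ := kernel_bound L (o \ V) (fun g hg w => by
      rw [Finset.mem_sdiff, Finset.mem_sdiff, hVinv g (hLK hg)]
      refine and_congr_left fun _ => ?_
      conv_lhs => rw [← hgo g hg]
      exact Finset.smul_mem_smul_finset_iff g)
    have h16 : Nat.card L2 ∣ 16 := by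
      rw [← OctStruct.card_kernel ho]
      refine Subgroup.card_dvd_of_le fun g hg => OctStruct.mem_kernel.2 ⟨hle (hLK (hL2 hg)).1, fun w hw => ?_⟩
      by_cases hwV : w ∈ V
      · exact ((hL g).1 (hL2 hg)).2 w hwV
      · exact ((hL2' g).1 hg).2 w (Finset.mem_sdiff.2 ⟨hw, hwV⟩)
    rw [Finset.card_sdiff_of_subset hVo, card_of_mem_octads ho, hVc] at hd2
    rw [hKc, hVc] at hd
    have h96 : Nat.card L ∣ 16 * (8 - 5).factorial := hd2.trans (Nat.mul_dvd_mul_right h16 _)
    have := hd.trans (Nat.mul_dvd_mul_right h96 _)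
    norm_num [Nat.factorial] at this
  have hS0img : S0 = Finset.univ.image (blk H) :=
    (Finset.eq_of_subset_of_card_le (fun q hq => by
      obtain ⟨z, -, rfl⟩ := Finset.mem_image.1 hq
      exact hblocks z) (by rw [hS0m.1, hall])).symm
  refine ⟨S0, hS0m, fun g hg => ?_⟩
  refine Finset.eq_of_subset_of_card_le (fun q hq => ?_) (Finset.card_smul_finset g S0).ge
  obtain ⟨p, hp, rfl⟩ := Finset.mem_smul_finset.1 hq
  rw [hS0img] at hp ⊢
  obtain ⟨z, -, rfl⟩ := Finset.mem_image.1 hp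
  rw [blk_smul z hg]
  exact Finset.mem_image_of_mem _ (Finset.mem_univ _)

theorem index_1771 (H : Subgroup M24) (h : H.index = 1771) :
    ∃ S ∈ sextets, H = stabilizer M24 S := by
  have hc := IndexSmall.card_of_index H h
  obtain ⟨S, hS, hfix⟩ := sextet_1771 (H := H.map M24.subtype) (by rintro _ ⟨g, -, rfl⟩; exact g.2) (by omega)
  refine ⟨S, hS, IndexSmall.eq_stab H S sextets hfix ?_ (h.trans ncard_sextets.symm)⟩
  ext S'
  constructor
  · rintro ⟨g, rfl⟩; exact Suborb.smul_mem_sextets g.2 hS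
  · intro hS'
    obtain ⟨g, hg, e⟩ := Suborb.exists_map_sextet hS hS'
    exact ⟨⟨g, hg⟩, e⟩

end CfsgLib.Golay.IndexSextet
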