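/-
The two-point stabiliser inside the stabiliser of the pair.
-/
import Cfsg.Prelude.Def_Spor_Mathieu
import Cfsg.Agent.Golay.Invol
import Cfsg.Agent.Golay.M24
import Mathlib

set_option autoImplicit false

namespace CfsgLib.Golay.PairSwap

open Cfsg CfsgLib.Golay MulAction
open scoped Pointwise

theorem mem_M22 {x : Equiv.Perm GolayPt} :
    x ∈ Spor.M22 ↔ x ∈ M24 ∧ x none = none ∧ x (some 0) = some 0 :=
  ⟨fun h => ⟨h.1.1, h.1.2, h.2⟩, fun h => ⟨⟨h.1, h.2.1⟩, h.2.2⟩⟩

theorem main (g : Equiv.Perm GolayPt) (hg : g ∈ M24) (h₁ : g none = some 0) (h₂ : g (some 0) = none) :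
    Spor.M22.relIndex (M24 ⊓ stabilizer (Equiv.Perm GolayPt) ({none, some 0} : Finset GolayPt)) = 2 ∧
      (∀ x ∈ Spor.M22, g * x * g⁻¹ ∈ Spor.M22) ∧
      ¬ ∃ h ∈ Spor.M22, ∀ x ∈ Spor.M22, g * x * g⁻¹ = h * x * h⁻¹ := by
  classical
  have hne : (none : GolayPt) ≠ some 0 := by simp
  have hgi₁ : g⁻¹ none = some 0 := by rw [Equiv.Perm.inv_eq_iff_eq, h₂]
  have hgi₂ : g⁻¹ (some 0) = none := by rw [Equiv.Perm.inv_eq_iff_eq, h₁]
  refine ⟨?_, fun x hx => ?_, ?_⟩
  · set K := M24 ⊓ stabilizer (Equiv.Perm GolayPt) ({none, some 0} : Finset GolayPt) with hK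
    have hmem : ∀ k ∈ K, ∀ p ∈ ({none, some 0} : Finset GolayPt), k p = none ∨ k p = some 0 := by
      intro k hk p hp
      have := Finset.smul_mem_smul_finset (a := k) hp
      rw [show k • ({none, some 0} : Finset GolayPt) = {none, some 0} from hk.2] at this
      simpa using this
    have hsub : Spor.M22.subgroupOf K = stabilizer K (none : GolayPt) := by
      ext k
      rw [Subgroup.mem_subgroupOf, mem_M22, MulAction.mem_stabilizer_iff]
      refine ⟨fun h => h.2.1, fun h => ⟨k.2.1, h, ?_⟩⟩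
      rcases hmem k k.2 (some 0) (by simp) with e | e
      · exact absurd ((k : Equiv.Perm GolayPt).injective (e.trans h.symm)) hne.symm
      · exact e
    rw [Subgroup.relIndex, hsub, MulAction.index_stabilizer,
      show orbit K (none : GolayPt) = {none, some 0} from ?_, Set.ncard_pair hne]
    ext p
    constructor
    · rintro ⟨k, rfl⟩
      exact hmem k k.2 none (by simp)
    · rintro (rfl | rfl)
      · exact mem_orbit_self _
      · refine ⟨⟨g, hg, ?_⟩, h₁⟩
        show g • ({none, some 0} : Finset GolayPt) = {none, some 0}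
        rw [Finset.smul_finset_insert, Finset.smul_finset_singleton, Equiv.Perm.smul_def,
          Equiv.Perm.smul_def, h₁, h₂, Finset.pair_comm]
  · obtain ⟨hx, hx1, hx2⟩ := mem_M22.1 hx
    refine mem_M22.2 ⟨mul_mem (mul_mem hg hx) (inv_mem hg), ?_, ?_⟩
    · simp only [Equiv.Perm.mul_apply, hgi₁, hx2, h₂]
    · simp only [Equiv.Perm.mul_apply, hgi₂, hx1, h₁]
  · rintro ⟨h, hh, heq⟩
    obtain ⟨hhM, hh1, hh2⟩ := mem_M22.1 hh
    set c := h⁻¹ * g with hc
    have hc1 : c none = some 0 := by
      rw [hc, Equiv.Perm.mul_apply, h₁, Equiv.Perm.inv_eq_iff_eq, hh2]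
    have hc2 : c (some 0) = none := by
      rw [hc, Equiv.Perm.mul_apply, h₂, Equiv.Perm.inv_eq_iff_eq, hh1]
    have hcomm : ∀ x ∈ Spor.M22, c * x = x * c := fun x hx => by
      calc c * x = h⁻¹ * (g * x * g⁻¹) * g := by rw [hc]; group
        _ = x * c := by rw [heq x hx, hc]; group
    have hfix : ∀ p, p ≠ none → p ≠ some 0 → c p = p := by
      intro p hp0 hp1
      by_contra hcp
      set q := c p with hq
      have hq0 : q ≠ none := fun e => hp1 (c.injective (hq.symm.trans (e.trans hc2.symm)))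
      have hq1 : q ≠ some 0 := fun e => hp0 (c.injective (hq.symm.trans (e.trans hc1.symm)))
      obtain ⟨r, hr⟩ : ∃ r : GolayPt, r ∉ ({none, some 0, p, q} : Finset GolayPt) := by
        by_contra hall
        push_neg at hall
        have := Finset.card_le_card (s := Finset.univ) fun x _ => hall x
        have h4 := Finset.card_le_four (a := (none : GolayPt)) (b := some 0) (c := p) (d := q)
        rw [Finset.card_univ, card_pt] at this
        omega
      simp only [Finset.mem_insert, Finset.mem_singleton, not_or] at hr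
      obtain ⟨hr0, hr1, hrp, hrq⟩ := hr
      obtain ⟨x, hx, hxi⟩ := exists_map_tuple (n := 4) (by omega) ![none, some 0, p, q] ![none, some 0, p, r]
        (fun i j e => by fin_cases i <;> fin_cases j <;> first | rfl |
          (exfalso; simp [hne, hne.symm, hp0, Ne.symm hp0, hp1, Ne.symm hp1, hq0, Ne.symm hq0, hq1, Ne.symm hq1, hcp, Ne.symm hcp] at e))
        (fun i j e => by fin_cases i <;> fin_cases j <;> first | rfl |
          (exfalso; simp [hne, hne.symm, hp0, Ne.symm hp0, hp1, Ne.symm hp1, hr0, Ne.symm hr0, hr1, Ne.symm hr1, hrp, Ne.symm hrp] at e))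
      have hx22 : x ∈ Spor.M22 := mem_M22.2 ⟨hx, hxi 0, hxi 1⟩
      have := congrArg (fun f : Equiv.Perm GolayPt => f p) (hcomm x hx22)
      simp only [Equiv.Perm.mul_apply] at this
      rw [show x p = p from hxi 2, ← hq, show x q = r from hxi 3] at this
      exact hrq this.symm
    refine Invol.swap_not_mem hne (show Equiv.swap none (some 0) ∈ M24 from ?_)
    rw [show Equiv.swap (none : GolayPt) (some 0) = c from ?_]
    · exact mul_mem (inv_mem hhM) hg
    refine Equiv.ext fun p => ?_
    by_cases e0 : p = none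
    · rw [e0, Equiv.swap_apply_left, hc1]
    by_cases e1 : p = some 0
    · rw [e1, Equiv.swap_apply_right, hc2]
    rw [Equiv.swap_apply_of_ne_of_ne e0 e1, hfix p e0 e1]

end CfsgLib.Golay.PairSwap
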