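/-
The stabiliser of three points is the projective special linear group of the plane of order four.
-/
import Cfsg.Agent.Golay.PlaneData
import Cfsg.Agent.Golay.Simple
import Cfsg.Agent.Golay.Norm
import Cfsg.Agent.SLn.Basic
import Cfsg.Agent.SLn.Card
import Cfsg.Agent.H29.SLThreeFour
import Mathlib

set_option autoImplicit false
set_option maxRecDepth 20000

namespace CfsgLib.Golay.Plane

open Cfsg CfsgLib.Golay MulAction Matrix

/-- Multiplication of the code alphabet. -/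
def mulC (a b : ℕ) : ℕ := ([[0, 0, 0, 0], [0, 1, 2, 3], [0, 2, 3, 1], [0, 3, 1, 2]].getD a []).getD b 0

/-- Coordinates of the points. -/
def crd (P : Fin 21) (k : Fin 3) : ℕ := (PlaneData.vecs.getD P.val []).getD k.val 0

/-- The positions. -/
def lb (P : Fin 21) : GolayPt := ptN (PlaneData.lab.getD P.val 0)

theorem data_ok : (∀ P : Fin 21, ∀ k : Fin 3, crd P k < 4) ∧
    (∀ P Q : Fin 21, ∀ c < 4, (∀ k, mulC c (crd P k) = crd Q k) → P = Q) ∧
    (∀ p : GolayPt, p = ptN 23 ∨ p = ptN 0 ∨ p = ptN 2 ∨ ∃ P, lb P = p) ∧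
    (∀ P : Fin 21, lb P ≠ ptN 23 ∧ lb P ≠ ptN 0 ∧ lb P ≠ ptN 2) ∧
    (∀ P Q : Fin 21, lb P = lb Q → P = Q) := by
  decide +kernel

theorem trans_ok (i j : Fin 3) (hij : i ≠ j) (t : ℕ) (ht : t < 4) (ht0 : t ≠ 0) : ∃ e ∈ PlaneData.trans,
    validTab e.2.2.2.1 = true ∧ presTab e.2.2.2.1 = true ∧
    e.2.2.2.1.getD 23 0 = 23 ∧ e.2.2.2.1.getD 0 0 = 0 ∧ e.2.2.2.1.getD 2 0 = 2 ∧
    ∀ P : Fin 21, ∃ Q : Fin 21, e.2.2.2.1.getD (PlaneData.lab.getD P.val 0) 0 = PlaneData.lab.getD Q.val 0 ∧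
      (e.2.2.2.2.getD P.val (0, 0)).2 < 4 ∧ (e.2.2.2.2.getD P.val (0, 0)).2 ≠ 0 ∧
      ∀ k : Fin 3, (crd P k ^^^ (if k = i then mulC t (crd P j) else 0)) =
        mulC (e.2.2.2.2.getD P.val (0, 0)).2 (crd Q k) := by
  have key : (List.finRange 3).all (fun i => (List.finRange 3).all fun j => decide (i = j) ||
      (List.range 4).all fun t => Nat.beq t 0 || PlaneData.trans.any fun e =>
        validTab e.2.2.2.1 && presTab e.2.2.2.1 && Nat.beq (e.2.2.2.1.getD 23 0) 23 &&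
        Nat.beq (e.2.2.2.1.getD 0 0) 0 && Nat.beq (e.2.2.2.1.getD 2 0) 2 && Nat.beq e.1 i.val && Nat.beq e.2.1 j.val && Nat.beq e.2.2.1 t &&
        (List.finRange 21).all fun P => (List.finRange 21).any fun Q =>
          Nat.beq (e.2.2.2.1.getD (PlaneData.lab.getD P.val 0) 0) (PlaneData.lab.getD Q.val 0) &&
          Nat.blt (e.2.2.2.2.getD P.val (0, 0)).2 4 && !(Nat.beq (e.2.2.2.2.getD P.val (0, 0)).2 0) &&
          (List.finRange 3).all fun k => Nat.beq (crd P k ^^^ (if k = i then mulC t (crd P j) else 0))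
            (mulC (e.2.2.2.2.getD P.val (0, 0)).2 (crd Q k))) = true := by
    decide +kernel
  simp only [List.all_eq_true, List.any_eq_true, List.mem_finRange, forall_const, Bool.or_eq_true,
    decide_eq_true_eq, List.mem_range, Bool.and_eq_true, Nat.beq_eq, Nat.blt_eq, Bool.not_eq_true', true_and] at key
  obtain ⟨e, he, ⟨⟨⟨⟨⟨⟨⟨h1, h2⟩, h3⟩, h4⟩, h5⟩, -⟩, -⟩, -⟩, h6⟩ :=
    (((key i j).resolve_left hij) t ht).resolve_left ht0
  refine ⟨e, he, h1, h2, h3, h4, h5, fun P => ?_⟩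
  obtain ⟨Q, ⟨⟨q1, q2⟩, q3⟩, q4⟩ := h6 P
  exact ⟨Q, q1, q2, fun h => by rw [← Bool.not_eq_true, Nat.beq_eq] at q3; exact q3 h, q4⟩

/-- The target group. -/
def K21 : Subgroup (Equiv.Perm GolayPt) :=
  M24 ⊓ stabilizer (Equiv.Perm GolayPt) (ptN 23) ⊓ stabilizer (Equiv.Perm GolayPt) (ptN 0) ⊓
    stabilizer (Equiv.Perm GolayPt) (ptN 2)

theorem mem_K21 {σ : Equiv.Perm GolayPt} :
    σ ∈ K21 ↔ σ ∈ M24 ∧ σ (ptN 23) = ptN 23 ∧ σ (ptN 0) = ptN 0 ∧ σ (ptN 2) = ptN 2 :=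
  ⟨fun h => ⟨h.1.1.1, h.1.1.2, h.1.2, h.2⟩, fun h => ⟨⟨⟨h.1, h.2.1⟩, h.2.2.1⟩, h.2.2.2⟩⟩

theorem card_K21 : Nat.card K21 = 20160 := by
  rw [← card_chain.2.2.2.1]
  have h : (basePts.take 3) = [ptN 23, ptN 0, ptN 2] := by decide +kernel
  suffices e : K21 = chain 3 by rw [e]
  refine Subgroup.ext fun σ => ?_
  rw [mem_K21, mem_chain, h]
  simp

variable {F : Type} [Field F] [Fintype F]

/-- The code alphabet inside the field. -/
def phi (w : F) (a : ℕ) : F := if a = 0 then 0 else if a = 1 then 1 else if a = 2 then w else w + 1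

section Field

variable {w : F}

theorem phi_add (h2 : (2 : F) = 0) : ∀ a < 4, ∀ b < 4, phi w (a ^^^ b) = phi w a + phi w b := by
  intro a ha b hb
  interval_cases a <;> interval_cases b <;> simp [phi] <;> grind

theorem phi_mul (h2 : (2 : F) = 0) (hw : 1 + w + w * w = 0) :
    ∀ a < 4, ∀ b < 4, phi w (mulC a b) = phi w a * phi w b := by
  intro a ha b hb
  interval_cases a <;> interval_cases b <;> simp [phi, mulC] <;> grind

theorem phi_inj (h2 : (2 : F) = 0) (hw0 : w ≠ 0) (hw1 : w ≠ 1) : ∀ a < 4, ∀ b < 4, phi w a = phi w b → a = b := by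
  intro a ha b hb h
  have hw' : w + 1 ≠ 0 := fun e => hw1 (by linear_combination e - h2)
  have hw'' : w + 1 ≠ 1 := fun e => hw0 (by linear_combination e)
  interval_cases a <;> interval_cases b <;> first | rfl | (exfalso; simp [phi] at h <;> grind)

end Field

/-- The vector of a point. -/
def vec (w : F) (P : Fin 21) : Fin 3 → F := fun k => phi w (crd P k)

/-- A matrix acts on the points as a permutation does. -/
def Rel (w : F) (g : SpecialLinearGroup (Fin 3) F) (σ : Equiv.Perm GolayPt) : Prop :=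
  σ ∈ K21 ∧ ∀ P, ∃ Q, σ (lb P) = lb Q ∧ ∃ c : F, c ≠ 0 ∧ g.1 *ᵥ vec w P = c • vec w Q

/-- The standing assumptions on the parameter. -/
structure Ok (w : F) : Prop where
  two : (2 : F) = 0
  eqn : 1 + w + w * w = 0
  ne0 : w ≠ 0
  ne1 : w ≠ 1
  card : Fintype.card F = 4

variable {w : F}

theorem Ok.phi_surj (h : Ok w) (c : F) : ∃ a < 4, phi w a = c := by
  classical
  have hinj : Function.Injective fun a : Fin 4 => phi w a.val := fun a b e =>
    Fin.ext (phi_inj h.two h.ne0 h.ne1 a.val a.isLt b.val b.isLt e)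
  obtain ⟨a, ha⟩ := ((Fintype.bijective_iff_injective_and_card _).2 ⟨hinj, by rw [Fintype.card_fin, h.card]⟩).2 c
  exact ⟨a.val, a.isLt, ha⟩

theorem Ok.vec_inj (h : Ok w) {P Q : Fin 21} {c : F} (e : vec w P = c • vec w Q) : P = Q := by
  obtain ⟨a, ha, rfl⟩ := h.phi_surj c
  refine (data_ok.2.1 Q P a ha fun k => ?_).symm
  refine phi_inj h.two h.ne0 h.ne1 _ ?_ _ (data_ok.1 P k) ?_
  · have key : ∀ a < 4, ∀ b < 4, mulC a b < 4 := by decide
    exact key a ha _ (data_ok.1 Q k)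
  · rw [phi_mul h.two h.eqn a ha _ (data_ok.1 Q k)]
    exact (congrFun e k).symm

theorem Ok.unique (h : Ok w) {g : SpecialLinearGroup (Fin 3) F} {σ τ : Equiv.Perm GolayPt}
    (hσ : Rel w g σ) (hτ : Rel w g τ) : σ = τ := by
  refine Equiv.ext fun p => ?_
  obtain ⟨-, a1, a2, a3⟩ := mem_K21.1 hσ.1
  obtain ⟨-, b1, b2, b3⟩ := mem_K21.1 hτ.1
  rcases data_ok.2.2.1 p with rfl | rfl | rfl | ⟨P, rfl⟩
  · rw [a1, b1]
  · rw [a2, b2]
  · rw [a3, b3]
  obtain ⟨Q, hQ, c, hc, e⟩ := hσ.2 P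
  obtain ⟨Q', hQ', c', hc', e'⟩ := hτ.2 P
  rw [hQ, hQ', h.vec_inj (P := Q) (Q := Q') (c := c⁻¹ * c') (by
    rw [mul_smul, ← e', e, inv_smul_smul₀ hc])]

theorem rel_one : Rel w 1 1 :=
  ⟨one_mem _, fun P => ⟨P, rfl, 1, one_ne_zero, by rw [one_smul]; exact one_mulVec _⟩⟩

theorem Rel.mul {g g' : SpecialLinearGroup (Fin 3) F} {σ σ' : Equiv.Perm GolayPt} (h : Rel w g σ) (h' : Rel w g' σ') :
    Rel w (g * g') (σ * σ') := by
  refine ⟨mul_mem h.1 h'.1, fun P => ?_⟩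
  obtain ⟨Q, hQ, c, hc, e⟩ := h'.2 P
  obtain ⟨R, hR, d, hd, e2⟩ := h.2 Q
  refine ⟨R, by rw [Equiv.Perm.mul_apply, hQ, hR], c * d, mul_ne_zero hc hd, ?_⟩
  show (g.1 * g'.1) *ᵥ vec w P = _
  rw [← mulVec_mulVec, e, mulVec_smul, e2, smul_smul]

theorem Ok.rel_transvection (h : Ok w) (i j : Fin 3) (hij : i ≠ j) (c : F) :
    ∃ σ, Rel w (Matrix.SpecialLinearGroup.transvection hij c) σ := by
  obtain ⟨t, ht, rfl⟩ := h.phi_surj c
  by_cases ht0 : t = 0
  · subst ht0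
    refine ⟨1, one_mem _, fun P => ⟨P, rfl, 1, one_ne_zero, ?_⟩⟩
    funext k
    show (Matrix.SpecialLinearGroup.transvection hij (phi w 0) • vec w P) k = _
    rw [CfsgLib.SLn.transvection_smul_apply]
    simp [phi]
  obtain ⟨e, he, hv, hp, h23, h0, h2', hP⟩ := trans_ok i j hij t ht ht0
  have app : ∀ x, x < 24 → permOf e.2.2.2.1 (ptN x) = ptN (e.2.2.2.1.getD x 0) := fun x hx => by
    rw [← ptN_idx (permOf _ (ptN x)), idx_permOf hv, idx_ptN hx]
  refine ⟨permOf e.2.2.2.1, mem_K21.2 ⟨permOf_mem_M24 hv hp, by rw [app 23 (by omega), h23],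
    by rw [app 0 (by omega), h0], by rw [app 2 (by omega), h2']⟩, fun P => ?_⟩
  obtain ⟨Q, hQ, hm4, hm0, hk⟩ := hP P
  refine ⟨Q, ?_, phi w (e.2.2.2.2.getD P.val (0, 0)).2, ?_, ?_⟩
  · have hlt : PlaneData.lab.getD P.val 0 < 24 :=
      (by decide +kernel : ∀ P : Fin 21, PlaneData.lab.getD P.val 0 < 24) P
    rw [lb, app _ hlt, hQ]; rfl
  · intro hz
    exact hm0 (phi_inj h.two h.ne0 h.ne1 _ hm4 0 (by omega) (hz.trans (by simp [phi])))
  · funext k
    have hlt : ∀ a < 4, ∀ b < 4, mulC a b < 4 := by decide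
    show (Matrix.SpecialLinearGroup.transvection hij (phi w t) • vec w P) k = phi w _ * phi w (crd Q k)
    rw [CfsgLib.SLn.transvection_smul_apply, ← phi_mul h.two h.eqn _ hm4 _ (data_ok.1 Q k), ← hk k,
      phi_add h.two _ (data_ok.1 P k) _ (by split_ifs; exacts [hlt t ht _ (data_ok.1 P j), by omega])]
    by_cases hki : k = i
    · simp [vec, hki, phi_mul h.two h.eqn t ht _ (data_ok.1 P j)]
    · simp [vec, hki, phi]

theorem Ok.exists_rel (h : Ok w) (g : SpecialLinearGroup (Fin 3) F) : ∃ σ, Rel w g σ := by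
  classical
  let S : Submonoid (SpecialLinearGroup (Fin 3) F) :=
    { carrier := {g | ∃ σ, Rel w g σ}
      one_mem' := ⟨1, rel_one⟩
      mul_mem' := fun ⟨σ, a⟩ ⟨τ, b⟩ => ⟨σ * τ, a.mul b⟩ }
  let H : Subgroup (SpecialLinearGroup (Fin 3) F) :=
    { S with
      inv_mem' := fun {g} hg => by
        have hpow : g⁻¹ = g ^ (orderOf g - 1) := inv_eq_of_mul_eq_one_right (by
          rw [← pow_succ', Nat.sub_add_cancel (orderOf_pos g), pow_orderOf_eq_one])
        rw [hpow]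
        exact S.pow_mem hg _ }
  have := CfsgLib.SLn.eq_top_of_transvection H fun i j hij c => h.rel_transvection i j hij c
  have hg : g ∈ H := by rw [this]; trivial
  exact hg

/-- The action. -/
noncomputable def act (h : Ok w) : SpecialLinearGroup (Fin 3) F →* K21 where
  toFun g := ⟨(h.exists_rel g).choose, (h.exists_rel g).choose_spec.1⟩
  map_one' := Subtype.ext (h.unique (h.exists_rel 1).choose_spec rel_one)
  map_mul' g g' := Subtype.ext (h.unique (h.exists_rel (g * g')).choose_spec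
    ((h.exists_rel g).choose_spec.mul (h.exists_rel g').choose_spec))

theorem ker_act (h : Ok w) : (act h).ker = Subgroup.center (SpecialLinearGroup (Fin 3) F) := by
  classical
  ext g
  rw [MonoidHom.mem_ker, Matrix.SpecialLinearGroup.mem_center_iff]
  constructor
  · intro hg
    have hrel : Rel w g 1 := by
      have := (h.exists_rel g).choose_spec
      rwa [show (h.exists_rel g).choose = 1 from congrArg Subtype.val hg] at this
    have hfix : ∀ P, ∃ c : F, g.1 *ᵥ vec w P = c • vec w P := fun P => by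
      obtain ⟨Q, hQ, c, -, e⟩ := hrel.2 P
      exact ⟨c, by rwa [← data_ok.2.2.2.2 P Q (by simpa using hQ)] at e⟩
    obtain ⟨P0, hP0⟩ : ∃ P : Fin 21, ∀ k, crd P k = [1, 0, 0].getD k.val 0 := by decide +kernel
    obtain ⟨P1, hP1⟩ : ∃ P : Fin 21, ∀ k, crd P k = [0, 1, 0].getD k.val 0 := by decide +kernel
    obtain ⟨P2, hP2⟩ : ∃ P : Fin 21, ∀ k, crd P k = [0, 0, 1].getD k.val 0 := by decide +kernel
    obtain ⟨P3, hP3⟩ : ∃ P : Fin 21, ∀ k, crd P k = [1, 1, 1].getD k.val 0 := by decide +kernel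
    obtain ⟨c0, e0⟩ := hfix P0
    obtain ⟨c1, e1⟩ := hfix P1
    obtain ⟨c2, e2⟩ := hfix P2
    obtain ⟨c3, e3⟩ := hfix P3
    have v : ∀ P (l : List ℕ), (∀ k, crd P k = l.getD k.val 0) → vec w P = fun k : Fin 3 => phi w (l.getD k.val 0) :=
      fun P l hl => funext fun k => congrArg (phi w) (hl k)
    rw [v P0 _ hP0] at e0
    rw [v P1 _ hP1] at e1
    rw [v P2 _ hP2] at e2
    rw [v P3 _ hP3] at e3
    simp only [funext_iff, Fin.forall_fin_succ, mulVec, dotProduct, Fin.sum_univ_three, phi, Pi.smul_apply,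
      smul_eq_mul] at e0 e1 e2 e3
    norm_num at e0 e1 e2 e3
    obtain ⟨a0, a1, a2⟩ := e0
    obtain ⟨b0, b1, b2⟩ := e1
    obtain ⟨d0, d1, d2⟩ := e2
    obtain ⟨f0, f1, f2⟩ := e3
    rw [a0, b0, d0] at f0
    rw [a1, b1, d1] at f1
    rw [a2, b2, d2] at f2
    simp only [add_zero, zero_add] at f0 f1 f2
    have hM : g.1 = scalar (Fin 3) c3 := by
      refine Matrix.ext fun i j => ?_
      fin_cases i <;> fin_cases j <;> simp [a0, a1, a2, b0, b1, b2, d0, d1, d2, f0, f1, f2]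
    refine ⟨c3, ?_, hM.symm⟩
    have := g.2
    rw [hM] at this
    simpa using this
  · rintro ⟨r, hr, e⟩
    have hr0 : r ≠ 0 := fun h0 => by simp [h0] at hr
    have hrel : Rel w g 1 := by
      refine ⟨one_mem _, fun P => ⟨P, rfl, r, hr0, ?_⟩⟩
      rw [← e]
      funext k
      simp [mulVec_diagonal]
    exact Subtype.ext (h.unique (h.exists_rel g).choose_spec hrel)

theorem equiv_K21 (hF : Fintype.card F = 4) :
    Nonempty (Matrix.ProjectiveSpecialLinearGroup (Fin 3) F ≃* K21) := by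
  obtain ⟨w, hw0, hw1, hw⟩ := Cfsg.Agent.H29.SLThreeFour.exists_omega hF
  have h : Ok w := ⟨Cfsg.Agent.H29.SLThreeFour.char_two hF, hw, hw0, hw1, hF⟩
  let f : Matrix.ProjectiveSpecialLinearGroup (Fin 3) F →* K21 :=
    QuotientGroup.lift _ (act h) (ker_act h).ge
  have hinj : Function.Injective f := (injective_iff_map_eq_one f).2 fun x hx => by
    induction x using QuotientGroup.induction_on with
    | _ g => exact (QuotientGroup.eq_one_iff g).2 (ker_act h ▸ (hx : act h g = 1))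
  have hc : Nat.card (Matrix.ProjectiveSpecialLinearGroup (Fin 3) F) = 20160 := by
    have := CfsgLib.SLn.card_PSL_eq F 3 (by omega)
    rw [hF, Fin.prod_univ_three] at this
    norm_num at this
    omega
  exact ⟨MulEquiv.ofBijective f ((Nat.bijective_iff_injective_and_card f).2 ⟨hinj, by rw [hc, card_K21]⟩)⟩

theorem main (p q r : GolayPt) (hpq : p ≠ q) (hpr : p ≠ r) (hqr : q ≠ r) (hF : Fintype.card F = 4) :
    Nonempty (↥(stabilizer M24 p ⊓ stabilizer M24 q ⊓ stabilizer M24 r) ≃* Matrix.ProjectiveSpecialLinearGroup (Fin 3) F) := by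
  obtain ⟨e⟩ := equiv_K21 (F := F) hF
  obtain ⟨g, hg, hgi⟩ := exists_map_tuple (n := 3) (by omega) ![p, q, r] ![ptN 23, ptN 0, ptN 2]
    (fun i j h => by fin_cases i <;> fin_cases j <;> first | rfl |
      (exfalso; simp [hpq, hpr, hqr, hpq.symm, hpr.symm, hqr.symm] at h))
    (by decide +kernel)
  refine ⟨(((stabilizer M24 p ⊓ stabilizer M24 q ⊓ stabilizer M24 r).equivMapOfInjective _ M24.subtype_injective).trans
    (Simple.conjEquiv g _ K21 fun σ => ?_)).trans e.symm⟩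
  have h0 : g p = ptN 23 := hgi 0
  have h1 : g q = ptN 0 := hgi 1
  have h2 : g r = ptN 2 := hgi 2
  rw [Simple.mem_map_subtype, mem_K21, Simple.conj_mem_M24 hg, ← h0, ← h1, ← h2, Simple.conj_apply_eq,
    Simple.conj_apply_eq, Simple.conj_apply_eq]
  exact ⟨fun ⟨h, e⟩ => ⟨h, e.1.1, e.1.2, e.2⟩, fun ⟨h, e⟩ => ⟨h, ⟨e.1, e.2.1⟩, e.2.2⟩⟩

end CfsgLib.Golay.Plane
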