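/-
PSL(2,23) inside M24 and 23:11 inside M23: orders and maximality.
-/
import Cfsg.Prelude.Def_Sporadic_a
import Cfsg.Agent.Golay.Index253
import Mathlib

set_option autoImplicit false
set_option maxRecDepth 20000

namespace CfsgLib.Golay.ProjLine

open Cfsg CfsgLib.Golay MulAction CfsgLib.Golay.SubIndex
open scoped Pointwise

/-- The translations and square multipliers. -/
def gensA : Set (Equiv.Perm GolayPt) :=
  {Equiv.optionCongr (Equiv.addRight (1 : ZMod 23))} ∪
    {g | ∃ u : (ZMod 23)ˣ, IsSquare u ∧ g = Equiv.optionCongr (Units.mulLeft u)}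

/-- All generators. -/
def gensL : Set (Equiv.Perm GolayPt) :=
  {Equiv.optionCongr (Equiv.addRight (1 : ZMod 23)), projInv} ∪
    {g | ∃ u : (ZMod 23)ˣ, IsSquare u ∧ g = Equiv.optionCongr (Units.mulLeft u)}

/-- The group of order 253. -/
def A : Subgroup (Equiv.Perm GolayPt) := Subgroup.closure gensA

/-- The group of order 6072. -/
def L : Subgroup (Equiv.Perm GolayPt) := Subgroup.closure gensL

theorem gensA_sub : gensA ⊆ gensL := by
  rintro g (rfl | hg)
  · exact Or.inl (Or.inl rfl)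
  · exact Or.inr hg

theorem eq_permOf {σ : Equiv.Perm GolayPt} {t : List ℕ} (hv : validTab t = true)
    (h : ∀ p, (idx (σ p)).val = t.getD (idx p).val 0) : σ = permOf t :=
  Equiv.ext fun p => idx_injective (Fin.ext (by rw [idx_permOf hv]; exact h p))

theorem shift_eq : Equiv.optionCongr (Equiv.addRight (1 : ZMod 23)) = permOf (Norm.powTab Norm.dataM23 1) :=
  eq_permOf (by decide +kernel) (by decide +kernel)

theorem inv_eq : projInv = permOf gen1 := eq_permOf (by decide +kernel) (by decide +kernel)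

theorem good_ok : Norm.dataM23.good.all (fun t => validTab t && presTab t && Nat.beq (t.getD 23 0) 23 &&
    (List.range 23).any fun k => mulTab t (Norm.powTab Norm.dataM23 1) == mulTab (Norm.powTab Norm.dataM23 k) t) = true := by
  decide +kernel

theorem mult_mem (u : (ZMod 23)ˣ) (hu : IsSquare u) :
    ∃ t ∈ Norm.dataM23.good, Equiv.optionCongr (Units.mulLeft u) = permOf t := by
  have key : ∀ a : ZMod 23, a ≠ 0 → ∃ t ∈ Norm.dataM23.good, ∀ p : GolayPt,
      (idx (Option.map (fun x => a * a * x) p)).val = t.getD (idx p).val 0 := by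
    decide +kernel
  haveI : Fact (Nat.Prime 23) := ⟨by norm_num⟩
  obtain ⟨v, rfl⟩ := hu
  obtain ⟨t, ht, h⟩ := key (v : ZMod 23) v.ne_zero
  have hv : validTab t = true := by
    have := List.all_eq_true.1 good_ok t ht
    simp only [Bool.and_eq_true] at this
    exact this.1.1.1
  exact ⟨t, ht, eq_permOf hv fun p => by simpa using h p⟩

theorem mult_of_good : ∀ t ∈ Norm.dataM23.good, ∃ u : (ZMod 23)ˣ, IsSquare u ∧
    Equiv.optionCongr (Units.mulLeft u) = permOf t := by
  intro t ht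
  have key : ∀ t ∈ Norm.dataM23.good, ∃ a : ZMod 23, a ≠ 0 ∧ ∀ p : GolayPt,
      (idx (Option.map (fun x => a * a * x) p)).val = t.getD (idx p).val 0 := by
    decide +kernel
  haveI : Fact (Nat.Prime 23) := ⟨by norm_num⟩
  obtain ⟨a, ha, h⟩ := key t ht
  have hv : validTab t = true := by
    have := List.all_eq_true.1 good_ok t ht
    simp only [Bool.and_eq_true] at this
    exact this.1.1.1
  exact ⟨Units.mk0 a ha * Units.mk0 a ha, ⟨_, rfl⟩, eq_permOf hv fun p => by simpa using h p⟩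

theorem pow_shift (k : ℕ) :
    validTab (Norm.powTab Norm.dataM23 k) = true ∧
      permOf (Norm.powTab Norm.dataM23 k) = permOf (Norm.powTab Norm.dataM23 1) ^ k := by
  have hb : ∀ j < 23, validTab (Norm.powTab Norm.dataM23 j) = true ∧
      Norm.powTab Norm.dataM23 (j + 1) = mulTab (Norm.powTab Norm.dataM23 1) (Norm.powTab Norm.dataM23 j) := by
    decide +kernel
  have h0 : Norm.powTab Norm.dataM23 0 = List.range 24 := by decide +kernel
  have hmod : ∀ j, Norm.powTab Norm.dataM23 (j % 23) = Norm.powTab Norm.dataM23 j := fun j => by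
    show Norm.dataM23.pows.getD (j % 23 % 23) [] = Norm.dataM23.pows.getD (j % 23) []
    rw [Nat.mod_mod]
  induction k with
  | zero => exact ⟨(hb 0 (by omega)).1, by rw [h0, Norm.permOf_range, pow_zero]⟩
  | succ k ih =>
    have hs : Norm.powTab Norm.dataM23 (k + 1) = mulTab (Norm.powTab Norm.dataM23 1) (Norm.powTab Norm.dataM23 k) := by
      rw [← hmod k, ← (hb (k % 23) (Nat.mod_lt _ (by omega))).2, ← hmod (k + 1), ← hmod (k % 23 + 1),
        Nat.mod_add_mod]
    obtain ⟨m1, m2⟩ := mulTab_spec (hb 1 (by omega)).1 ih.1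
    exact ⟨hs ▸ m1, by rw [hs, m2, ih.2, pow_succ']⟩

theorem shift_mem_A : permOf (Norm.powTab Norm.dataM23 1) ∈ A :=
  shift_eq ▸ Subgroup.subset_closure (Or.inl rfl)

theorem good_mem_A {t : List ℕ} (ht : t ∈ Norm.dataM23.good) : permOf t ∈ A := by
  obtain ⟨u, hu, e⟩ := mult_of_good t ht
  exact e ▸ Subgroup.subset_closure (Or.inr ⟨u, hu, rfl⟩)

theorem A_le_K23 : A ≤ fixGroup [2 ^ 23] := by
  rw [A, Subgroup.closure_le]
  rintro g (rfl | ⟨u, hu, rfl⟩)
  · rw [shift_eq]; exact Index253.mem_K23_tab (by decide +kernel) (by decide +kernel) (by decide +kernel)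
  · obtain ⟨t, ht, e⟩ := mult_mem u hu
    have h := List.all_eq_true.1 good_ok t ht
    simp only [Bool.and_eq_true, Nat.beq_eq] at h
    rw [e]; exact Index253.mem_K23_tab h.1.1.1 h.1.1.2 h.1.2

/-- The data of the normaliser of a Sylow 23-subgroup, in terms of `A`. -/
theorem A_spec : ∃ ci : fixGroup [2 ^ 23], orderOf ci = 23 ∧ ¬ 23 ∣ (Subgroup.zpowers ci).index ∧
    (Subgroup.normalizer (Subgroup.zpowers ci : Set (fixGroup [2 ^ 23]))).map (fixGroup [2 ^ 23]).subtype = A ∧
    Nat.card (Subgroup.normalizer (Subgroup.zpowers ci : Set (fixGroup [2 ^ 23]))) = 253 ∧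
    (ci : Equiv.Perm GolayPt) = permOf (Norm.powTab Norm.dataM23 1) := by
  haveI : Fact (Nat.Prime 23) := ⟨by norm_num⟩
  haveI : Fact (Nat.Prime 11) := ⟨by norm_num⟩
  have hp : Nat.Prime 23 := Fact.out
  have hr : Nat.Prime 11 := Fact.out
  obtain ⟨ci, hci, hoci, hidx, hN⟩ : ∃ ci : fixGroup [2 ^ 23],
      (ci : Equiv.Perm GolayPt) = permOf (Norm.powTab Norm.dataM23 1) ∧ orderOf ci = 23 ∧
      ¬ 23 ∣ (Subgroup.zpowers ci).index ∧
      Nat.card (Subgroup.normalizer (Subgroup.zpowers ci : Set (fixGroup [2 ^ 23]))) = 253 := by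
    exact Norm.sylow_of_data Norm.dataM23 Norm.dataM23_ok.1 Norm.dataM23_ok.2 hp hr (by decide) 443520
      Index253.card_K23 (by decide)
  refine ⟨ci, hoci, hidx, ?_, hN, hci⟩
  set N := Subgroup.normalizer (Subgroup.zpowers ci : Set (fixGroup [2 ^ 23]))
  have hAN : A ≤ N.map (fixGroup [2 ^ 23]).subtype := by
    rw [A, Subgroup.closure_le]
    rintro g (rfl | ⟨u, hu, rfl⟩)
    · exact ⟨ci, Subgroup.le_normalizer (Subgroup.mem_zpowers ci), hci.trans shift_eq.symm⟩
    · obtain ⟨t, ht, e⟩ := mult_mem u hu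
      have h := List.all_eq_true.1 good_ok t ht
      simp only [Bool.and_eq_true, Nat.beq_eq, List.any_eq_true, beq_iff_eq] at h
      obtain ⟨⟨⟨hv, hps⟩, h23⟩, k, -, hk⟩ := h
      refine ⟨⟨permOf t, Index253.mem_K23_tab hv hps h23⟩, ?_, e.symm⟩
      set ti : fixGroup [2 ^ 23] := ⟨permOf t, Index253.mem_K23_tab hv hps h23⟩
      have h1 : ti * ci * ti⁻¹ = ci ^ k := by
        refine mul_inv_eq_iff_eq_mul.2 (Subtype.ext ?_)
        have e2 := congrArg permOf hk
        rw [(mulTab_spec hv (pow_shift 1).1).2, (mulTab_spec (pow_shift k).1 hv).2, (pow_shift k).2, ← hci] at e2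
        simpa using e2
      refine Subgroup.mem_normalizer_fintype fun x hx => ?_
      obtain ⟨z, rfl⟩ := Subgroup.mem_zpowers_iff.1 hx
      rw [← conj_zpow, h1]
      exact Subgroup.zpow_mem _ (Subgroup.pow_mem _ (Subgroup.mem_zpowers _) _) _
  refine (Subgroup.eq_of_le_of_card_ge hAN ?_).symm
  have hm : Nat.card (N.map (fixGroup [2 ^ 23]).subtype) = 253 :=
    (Nat.card_congr (N.equivMapOfInjective _ Subtype.val_injective).toEquiv).symm.trans hN
  rw [hm]
  refine Nat.le_of_dvd Nat.card_pos ?_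
  refine ((Nat.coprime_primes hp hr).2 (by decide)).mul_dvd_of_dvd_of_dvd (m := 23) (n := 11) ?_ ?_
  · have := orderOf_dvd_natCard (⟨_, shift_mem_A⟩ : A)
    rwa [← Subgroup.orderOf_coe, show ((⟨_, shift_mem_A⟩ : A) : Equiv.Perm GolayPt) = (ci : Equiv.Perm GolayPt) from hci.symm,
      Subgroup.orderOf_coe, hoci] at this
  · have hmem : Norm.dataM23.gen ∈ Norm.dataM23.good := by decide +kernel
    have hok : validTab Norm.dataM23.gen = true ∧ Norm.dataM23.gen ≠ List.range 24 ∧
        (List.range 11).foldl (fun u _ => mulTab Norm.dataM23.gen u) (List.range 24) = List.range 24 := by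
      decide +kernel
    have := orderOf_dvd_natCard (⟨_, good_mem_A hmem⟩ : A)
    rwa [orderOf_tab hok.1 (K := A) _ hok.2.1 hok.2.2] at this

theorem card_A : Nat.card A = 253 := by
  obtain ⟨ci, -, -, e, hN, -⟩ := A_spec
  rw [← e]
  exact (Nat.card_congr (Subgroup.equivMapOfInjective _ _ Subtype.val_injective).toEquiv).symm.trans hN

/-- A step on the right stays in the two cells. -/
theorem step_ok : ((List.range 23).all fun i => (gen1 :: Norm.powTab Norm.dataM23 1 :: Norm.dataM23.good).all fun g =>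
    (List.range 23).any (fun k => Norm.dataM23.good.any fun m =>
      mulTab (mulTab gen1 (Norm.powTab Norm.dataM23 i)) g == mulTab (Norm.powTab Norm.dataM23 k) m) ||
    (List.range 23).any fun j => Nat.beq ((mulTab (mulTab gen1 (Norm.powTab Norm.dataM23 i)) g).getD ((23 - j) % 23) 0) 23 &&
      (List.range 23).any fun k => Norm.dataM23.good.any fun m =>
        mulTab (mulTab gen1 (Norm.powTab Norm.dataM23 i)) g ==
          mulTab (mulTab (mulTab (Norm.powTab Norm.dataM23 k) m) gen1) (Norm.powTab Norm.dataM23 j)) = true := by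
  decide +kernel

theorem L_cells {σ : Equiv.Perm GolayPt} (h : σ ∈ L) :
    σ ∈ A ∨ ∃ a ∈ A, ∃ j < 23, σ = a * projInv * permOf (Norm.powTab Norm.dataM23 1) ^ j := by
  classical
  have hA : ∀ k, ∀ m ∈ Norm.dataM23.good, validTab (mulTab (Norm.powTab Norm.dataM23 k) m) = true ∧
      permOf (mulTab (Norm.powTab Norm.dataM23 k) m) ∈ A := by
    intro k m hm
    have hmv := List.all_eq_true.1 good_ok m hm
    simp only [Bool.and_eq_true] at hmv
    obtain ⟨m1, m2⟩ := mulTab_spec (pow_shift k).1 hmv.1.1.1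
    exact ⟨m1, m2 ▸ mul_mem ((pow_shift k).2 ▸ pow_mem shift_mem_A k) (good_mem_A hm)⟩
  have g1v : validTab gen1 = true := by decide +kernel
  have hgen : ∀ g ∈ gensL, (g ∈ A ∨ g = projInv) ∧
      ∃ t ∈ (gen1 :: Norm.powTab Norm.dataM23 1 :: Norm.dataM23.good), g = permOf t := by
    rintro g ((rfl | rfl) | ⟨u, hu, rfl⟩)
    · exact ⟨Or.inl (Subgroup.subset_closure (Or.inl rfl)), _, List.mem_cons_of_mem _ List.mem_cons_self, shift_eq⟩
    · exact ⟨Or.inr rfl, _, List.mem_cons_self, inv_eq⟩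
    · obtain ⟨t, ht, e⟩ := mult_mem u hu
      exact ⟨Or.inl (Subgroup.subset_closure (Or.inr ⟨u, hu, rfl⟩)), t,
        List.mem_cons_of_mem _ (List.mem_cons_of_mem _ ht), e⟩
  rw [L, ← Subgroup.mem_toSubmonoid, Subgroup.closure_toSubmonoid_of_finite] at h
  induction h using Submonoid.closure_induction_right with
  | one => exact Or.inl (one_mem _)
  | mul_right x hx g hg ih =>
    obtain ⟨hgA, t, ht, rfl⟩ := hgen g hg
    rcases ih with hxA | ⟨a, ha, i, hi, rfl⟩
    · rcases hgA with hgA | hgA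
      · exact Or.inl (mul_mem hxA hgA)
      · exact Or.inr ⟨x, hxA, 0, by omega, by rw [pow_zero, mul_one, hgA]⟩
    have hs := List.all_eq_true.1 (List.all_eq_true.1 step_ok i (List.mem_range.2 hi)) t ht
    have htv : validTab t = true :=
      (by decide +kernel : ∀ t ∈ (gen1 :: Norm.powTab Norm.dataM23 1 :: Norm.dataM23.good), validTab t = true) t ht
    obtain ⟨v1, e1⟩ := mulTab_spec g1v (pow_shift i).1
    obtain ⟨v2, e2⟩ := mulTab_spec v1 htv
    have hx : a * projInv * permOf (Norm.powTab Norm.dataM23 1) ^ i * permOf t =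
        a * permOf (mulTab (mulTab gen1 (Norm.powTab Norm.dataM23 i)) t) := by
      rw [e2, e1, (pow_shift i).2, inv_eq]; group
    rw [hx]
    simp only [Bool.or_eq_true, List.any_eq_true, beq_iff_eq, Bool.and_eq_true, Nat.beq_eq] at hs
    rcases hs with ⟨k, -, m, hm, e⟩ | ⟨j, hj, -, k, -, m, hm, e⟩
    · rw [e]; exact Or.inl (mul_mem ha (hA k m hm).2)
    · refine Or.inr ⟨a * permOf (mulTab (Norm.powTab Norm.dataM23 k) m), mul_mem ha (hA k m hm).2, j,
        List.mem_range.1 hj, ?_⟩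
      obtain ⟨w1, f1⟩ := mulTab_spec (hA k m hm).1 g1v
      rw [e, (mulTab_spec w1 (pow_shift j).1).2, f1, (pow_shift j).2, inv_eq]
      group

theorem L_le : L ≤ M24 := by
  rw [L, Subgroup.closure_le]
  rintro g ((rfl | rfl) | ⟨u, hu, rfl⟩)
  · exact (Simple.mem_K23.1 (A_le_K23 (Subgroup.subset_closure (Or.inl rfl)))).1
  · exact inv_eq ▸ permOf_mem_M24 (by decide +kernel) (by decide +kernel)
  · exact (Simple.mem_K23.1 (A_le_K23 (Subgroup.subset_closure (Or.inr ⟨u, hu, rfl⟩)))).1

/-- A subgroup containing `L` is transitive. -/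
theorem card_of_L_le {K : Subgroup (Equiv.Perm GolayPt)} (hK : L ≤ K) :
    Nat.card K = 24 * Nat.card ↥(K ⊓ stabilizer (Equiv.Perm GolayPt) (none : GolayPt)) := by
  have horb : orbit K (none : GolayPt) = Set.univ := by
    refine Set.eq_univ_of_forall fun p => ?_
    cases p with
    | none => exact mem_orbit_self _
    | some x =>
      have hw : projInv ∈ K := hK (Subgroup.subset_closure (Or.inl (Or.inr rfl)))
      have hs : Equiv.optionCongr (Equiv.addRight (1 : ZMod 23)) ^ x.val * projInv ∈ K :=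
        mul_mem (pow_mem (hK (Subgroup.subset_closure (Or.inl (Or.inl rfl)))) _) hw
      refine ⟨⟨_, hs⟩, ?_⟩
      show (Equiv.optionCongr (Equiv.addRight (1 : ZMod 23)) ^ x.val * projInv) none = some x
      have key : ∀ n : ℕ, (Equiv.optionCongr (Equiv.addRight (1 : ZMod 23)) ^ n) (some 0) = some (n : ZMod 23) := by
        intro n
        induction n with
        | zero => simp
        | succ n ih => rw [pow_succ', Equiv.Perm.mul_apply, ih]; simp
      rw [Equiv.Perm.mul_apply, show projInv none = some 0 from rfl, key, ZMod.natCast_zmod_val]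
  rw [card_eq_mul_of_orbit K _ _ horb, Set.ncard_univ, Nat.card_eq_fintype_card, card_pt]

theorem A_le_L : A ≤ L := Subgroup.closure_mono gensA_sub

theorem card_L : Nat.card L = 6072 := by
  classical
  refine le_antisymm ?_ ?_
  · let f : A ⊕ (A × Fin 23) → Equiv.Perm GolayPt :=
      Sum.elim (fun a => a.1) fun p => p.1.1 * projInv * permOf (Norm.powTab Norm.dataM23 1) ^ p.2.val
    have hsub : (L : Set (Equiv.Perm GolayPt)) ⊆ Set.range f := fun σ hσ => by
      rcases L_cells hσ with h | ⟨a, ha, j, hj, rfl⟩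
      · exact ⟨Sum.inl ⟨σ, h⟩, rfl⟩
      · exact ⟨Sum.inr (⟨a, ha⟩, ⟨j, hj⟩), rfl⟩
    have h := Set.ncard_le_ncard hsub (Set.toFinite _)
    rw [← Nat.card_coe_set_eq, ← Nat.card_coe_set_eq] at h
    refine le_trans h ((Finite.card_range_le f).trans ?_)
    rw [Nat.card_sum, Nat.card_prod, card_A, Nat.card_fin]
  · rw [card_of_L_le le_rfl]
    show 24 * 253 ≤ _
    refine Nat.mul_le_mul_left 24 ?_
    rw [← card_A]
    exact Subgroup.card_le_of_le (le_inf A_le_L fun a ha => (Simple.mem_K23.1 (A_le_K23 ha)).2)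

theorem between {K : Subgroup (Equiv.Perm GolayPt)} (hAK : A ≤ K) (hK : K ≤ fixGroup [2 ^ 23]) :
    Nat.card K = 253 ∨ Nat.card K = 10200960 := by
  classical
  haveI : Fact (Nat.Prime 23) := ⟨by norm_num⟩
  haveI : Fact (Nat.Prime 11) := ⟨by norm_num⟩
  obtain ⟨ci, hoci, hidx, hNA, hN, hci⟩ := A_spec
  set K' := K.subgroupOf (fixGroup [2 ^ 23])
  have hK' : Nat.card K' = Nat.card K := Nat.card_congr (Subgroup.subgroupOfEquivOfLe hK).toEquiv
  have hNK : Subgroup.normalizer (Subgroup.zpowers ci : Set (fixGroup [2 ^ 23])) ≤ K' := fun x hx =>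
    hAK (hNA ▸ ⟨x, hx, rfl⟩)
  obtain ⟨h, hh, -, -, n, hn, hn1⟩ :=
    SylowIndex.card_inf_normalizer K' ci hoci (hNK (Subgroup.le_normalizer (Subgroup.mem_zpowers ci))) hidx
  rw [inf_eq_right.2 hNK, hN] at hh
  subst hh
  rw [hK'] at hn
  -- the stabiliser of a second point
  set Kx := K ⊓ stabilizer (Equiv.Perm GolayPt) (some 0 : GolayPt) with hKx
  have hKx2 : Kx ≤ fixGroup [2 ^ 23, 2 ^ 0] := fun g hg =>
    Simple.mem_K22.2 ⟨(Simple.mem_K23.1 (hK hg.1)).1, (Simple.mem_K23.1 (hK hg.1)).2, hg.2⟩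
  have horb : orbit K (some 0 : GolayPt) = {p | p ≠ none} := by
    ext p
    constructor
    · rintro ⟨⟨g, hg⟩, rfl⟩ h
      have : g none = none := (Simple.mem_K23.1 (hK hg)).2
      exact absurd (g.injective (h.trans this.symm)) (by simp)
    · intro hp
      cases p with
      | none => exact absurd rfl hp
      | some x =>
        refine ⟨⟨_, pow_mem (hAK (Subgroup.subset_closure (Or.inl rfl))) x.val⟩, ?_⟩
        show (Equiv.optionCongr (Equiv.addRight (1 : ZMod 23)) ^ x.val) (some 0) = some x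
        have key : ∀ n : ℕ, (Equiv.optionCongr (Equiv.addRight (1 : ZMod 23)) ^ n) (some 0) = some (n : ZMod 23) := by
          intro n
          induction n with
          | zero => simp
          | succ n ih => rw [pow_succ', Equiv.Perm.mul_apply, ih]; simp
        rw [key, ZMod.natCast_zmod_val]
  have hsplit := card_eq_mul_of_orbit K (some 0 : GolayPt) _ horb
  have hne : {p : GolayPt | p ≠ none}.ncard = 23 := by
    rw [← Nat.card_coe_set_eq, Nat.card_eq_fintype_card]; decide +kernel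
  rw [hne] at hsplit
  change Nat.card K = 23 * Nat.card Kx at hsplit
  have hp11 : Nat.Prime 11 := Fact.out
  have hp5 : Nat.Prime 5 := by norm_num
  obtain ⟨di, hdi, hodi, hdidx, hN55⟩ : ∃ ci : fixGroup [2 ^ 23, 2 ^ 0],
      (ci : Equiv.Perm GolayPt) = permOf (Norm.powTab Norm.dataM22 1) ∧ orderOf ci = 11 ∧
      ¬ 11 ∣ (Subgroup.zpowers ci).index ∧
      Nat.card (Subgroup.normalizer (Subgroup.zpowers ci : Set (fixGroup [2 ^ 23, 2 ^ 0]))) = 55 := by
    exact Norm.sylow_of_data Norm.dataM22 Norm.dataM22_ok.1 Norm.dataM22_ok.2 hp11 hp5 (by decide) 40320 SubIndex.card_K22 (by decide)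
  have hd : di ∈ Kx.subgroupOf (fixGroup [2 ^ 23, 2 ^ 0]) := by
    refine ⟨hAK ?_, (Simple.mem_K22.1 di.2).2.2⟩
    show (di : Equiv.Perm GolayPt) ∈ A
    rw [hdi]
    exact good_mem_A (by decide +kernel)
  obtain ⟨h', hh', h11, hd', m, hm, hm1⟩ := SylowIndex.card_inf_normalizer _ di hodi hd hdidx
  rw [Nat.card_congr (Subgroup.subgroupOfEquivOfLe hKx2).toEquiv] at hm
  rw [hN55] at hd'
  have hhc : h' = 11 ∨ h' = 55 := by
    obtain ⟨c, rfl⟩ := h11
    have : c ∣ 5 := Nat.dvd_of_mul_dvd_mul_left (k := 11) (by norm_num) (by simpa using hd')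
    rcases (Nat.dvd_prime hp5).1 this with rfl | rfl <;> simp
  have hdvd : n ∣ 40320 := by
    have h := Subgroup.card_dvd_of_le hK
    rw [hn, Index253.card_K23, show 10200960 = 40320 * 253 by norm_num] at h
    exact Nat.dvd_of_mul_dvd_mul_right (by norm_num) h
  have hn' : n ≤ 40320 := Nat.le_of_dvd (by norm_num) hdvd
  have key : ∀ d ∈ Nat.divisors 40320, d % 23 = 1 → d = 1 ∨ d = 24 ∨ d = 70 ∨ d = 576 ∨ d = 1680 ∨ d = 40320 := by
    decide +kernel
  rcases key n (Nat.mem_divisors.2 ⟨hdvd, by norm_num⟩) hn1 with rfl | rfl | rfl | rfl | rfl | rfl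
  · exact Or.inl (by omega)
  · rcases hhc with rfl | rfl <;> omega
  · rcases hhc with rfl | rfl <;> omega
  · rcases hhc with rfl | rfl <;> omega
  · rcases hhc with rfl | rfl <;> omega
  · exact Or.inr (by omega)

theorem coatom_A : IsCoatom ((A.subgroupOf M24).subgroupOf (stabilizer M24 (none : GolayPt))) := by
  set ι : ↥(stabilizer M24 (none : GolayPt)) →* Equiv.Perm GolayPt := M24.subtype.comp (stabilizer M24 _).subtype
  have hι : Function.Injective ι := M24.subtype_injective.comp Subtype.val_injective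
  have hS : Nat.card (stabilizer M24 (none : GolayPt)) = 10200960 := by
    obtain ⟨e⟩ := Simple.equiv_K23 none
    rw [Nat.card_congr e.toEquiv, Index253.card_K23]
  have hA : ((A.subgroupOf M24).subgroupOf (stabilizer M24 (none : GolayPt))) = A.comap ι := rfl
  have hcA : Nat.card (A.comap ι) = 253 := by
    rw [← card_A]
    exact Nat.card_congr
      { toFun := fun g => ⟨ι g.1, g.2⟩
        invFun := fun a => ⟨⟨⟨a.1, (Simple.mem_K23.1 (A_le_K23 a.2)).1⟩, (Simple.mem_K23.1 (A_le_K23 a.2)).2⟩, a.2⟩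
        left_inv := fun g => rfl
        right_inv := fun a => rfl }
  rw [hA]
  refine ⟨fun h => ?_, fun K hK => ?_⟩
  · rw [h, Nat.card_congr Subgroup.topEquiv.toEquiv, hS] at hcA; omega
  have hle : A ≤ K.map ι := fun a ha =>
    ⟨⟨⟨a, (Simple.mem_K23.1 (A_le_K23 ha)).1⟩, (Simple.mem_K23.1 (A_le_K23 ha)).2⟩, hK.le (show a ∈ A from ha), rfl⟩
  have hK23 : K.map ι ≤ fixGroup [2 ^ 23] := by
    rintro _ ⟨g, -, rfl⟩
    exact Simple.mem_K23.2 ⟨g.1.2, g.2⟩
  have hc : Nat.card (K.map ι) = Nat.card K := (Nat.card_congr (K.equivMapOfInjective ι hι).toEquiv).symm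
  rcases between hle hK23 with h | h
  · exact absurd (Subgroup.eq_of_le_of_card_ge hK.le (by rw [hcA, ← hc, h])) hK.ne
  · exact Subgroup.eq_top_of_card_eq _ (by rw [← hc, h, hS])

theorem coatom_L : IsCoatom (L.subgroupOf M24) := by
  have hL : Nat.card (L.subgroupOf M24) = 6072 :=
    (Nat.card_congr (Subgroup.subgroupOfEquivOfLe L_le).toEquiv).trans card_L
  refine ⟨fun h => ?_, fun K hK => ?_⟩
  · rw [h, Nat.card_congr Subgroup.topEquiv.toEquiv, card_M24] at hL; omega
  set K' := K.map M24.subtype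
  have hle : L ≤ K' := fun g hg => ⟨⟨g, L_le hg⟩, hK.le (show g ∈ L from hg), rfl⟩
  have hc : Nat.card K' = Nat.card K := (Nat.card_congr (K.equivMapOfInjective _ M24.subtype_injective).toEquiv).symm
  set Kn := K' ⊓ stabilizer (Equiv.Perm GolayPt) (none : GolayPt)
  have h1 : A ≤ Kn := le_inf (A_le_L.trans hle) fun a ha => (Simple.mem_K23.1 (A_le_K23 ha)).2
  have h2 : Kn ≤ fixGroup [2 ^ 23] := by
    rintro g ⟨⟨x, -, rfl⟩, hg⟩
    exact Simple.mem_K23.2 ⟨x.2, hg⟩
  have h := card_of_L_le hle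
  rcases between h1 h2 with e | e
  · exact absurd (Subgroup.eq_of_le_of_card_ge hK.le (by rw [hL, ← hc, h, e])) hK.ne
  · exact Subgroup.eq_top_of_card_eq _ (by rw [← hc, h, e, card_M24])

end CfsgLib.Golay.ProjLine
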