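/-
Quartets of a dodecad: uniqueness, transitivity, and the orbits of a quartet stabiliser.
-/
import Cfsg.Prelude.Def_SporadicCombinatorics
import Cfsg.Agent.Golay.Sub.DodQuart
import Cfsg.Agent.Golay.Specs
import Cfsg.Agent.Golay.DodStab
import Cfsg.Agent.Golay.Simple
import Cfsg.Agent.Golay.CodeLit
import Mathlib

set_option autoImplicit false
set_option maxRecDepth 10000

namespace CfsgLib.Golay.Quartet

open Cfsg CfsgLib.Golay MulAction CfsgLib.Golay.Suborb
open scoped Pointwise

variable {d : Finset GolayPt}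

theorem smul_mem_hexadsOn {σ : Equiv.Perm GolayPt} (hσ : σ ∈ M24) {h : Finset GolayPt}
    (hh : h ∈ hexadsOn d) : σ • h ∈ hexadsOn (σ • d) := by
  obtain ⟨h6, o, ho, e⟩ := hh
  exact ⟨by rw [Finset.card_smul_finset, h6], σ • o, smul_mem_octads hσ ho,
    by rw [← Finset.smul_finset_inter, e]⟩

theorem smul_mem_quartets {σ : Equiv.Perm GolayPt} (hσ : σ ∈ M24) {Q : Fam}
    (hQ : Q ∈ quartets d) : σ • Q ∈ quartets (σ • d) := by
  obtain ⟨h4, h3, hu⟩ := hQ
  refine ⟨by rw [Finset.card_smul_finset, h4], fun t ht => ?_, fun t ht u hu' hne => ?_⟩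
  · obtain ⟨s, hs, rfl⟩ := Finset.mem_smul_finset.1 ht
    exact ⟨by rw [Finset.card_smul_finset, (h3 s hs).1], Finset.smul_finset_subset_smul_finset (h3 s hs).2⟩
  · obtain ⟨s, hs, rfl⟩ := Finset.mem_smul_finset.1 ht
    obtain ⟨r, hr, rfl⟩ := Finset.mem_smul_finset.1 hu'
    rw [← Finset.smul_finset_union]
    exact smul_mem_hexadsOn hσ (hu s hs r hr fun e => hne (by rw [e]))

/-- The hexads of the reference dodecad as masks. -/
def hexList : List ℕ := [
  336704, 340240, 275024, 70480, 340488, 267080, 78152, 13080, 74328, 270680, 331864, 328472,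
  78404, 332100, 275204, 332308, 74516, 262996, 12628, 335956, 336140, 70412, 274508, 328268,
  9036, 77852, 266524, 270876, 65884, 4700, 332546, 340034, 13122, 271122, 328274, 74066,
  78354, 266578, 74506, 274698, 70218, 328010, 270922, 335898, 266778, 69914, 12378, 858,
  336390, 78086, 270662, 266822, 66374, 274454, 4886, 327958, 69718, 8790, 12814, 262926,
  4430, 73806, 331790, 66078, 262238, 8478, 78593, 274753, 332353, 336401, 267025, 77905,
  328017, 9041, 332041, 271113, 335945, 66377, 12873, 70169, 74009, 262745, 4441, 274457,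
  328453, 339973, 270917, 74053, 4933, 12821, 270613, 266325, 66133, 69909, 266765, 12557,
  69709, 74253, 262477, 327709, 797, 8285, 274947, 74307, 262979, 69955, 336131, 331795,
  12563, 66323, 4691, 270419, 77835, 328203, 266315, 8523, 4875, 8731, 262427, 65627,
  70151, 266503, 8967, 327751, 12359, 73751, 343, 262679, 270351, 65807, 591, 4127]

theorem hexList_eq : hexList =
    (octList.filter fun v => Nat.beq (popc (v &&& DodStab.sqD)) 6).map fun v => v &&& DodStab.sqD := by
  rw [octList_eq]
  have h : (octLit.filter fun v => Nat.beq (popRec 24 (v &&& DodStab.sqD)) 6).map (fun v => v &&& DodStab.sqD) = hexList := by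
    decide +kernel
  simpa only [popc_eq_popRec] using h.symm

theorem mem_hexList {h : Finset GolayPt} : h ∈ hexadsOn DodStab.D ↔ mask h ∈ hexList := by
  simp only [hexList_eq, List.mem_map, List.mem_filter, Nat.beq_eq]
  constructor
  · rintro ⟨h6, o, ho, rfl⟩
    refine ⟨mask o, ⟨mem_octads_iff.1 ho, ?_⟩, ?_⟩
    · rw [← mask_toSet DodStab.sqD_lt, ← mask_inter, popc_mask]; exact h6
    · rw [mask_inter, mask_toSet DodStab.sqD_lt]
  · rintro ⟨v, ⟨hv, h6⟩, e⟩
    have hlt := (mem_wtList.1 hv).2.1
    have e' : toSet v ∩ DodStab.D = h :=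
      mask_injective (by rw [mask_inter, mask_toSet hlt, mask_toSet DodStab.sqD_lt, e])
    exact ⟨by rw [← popc_mask, ← e]; exact h6, toSet v,
      mem_octads_iff.2 (by rwa [mask_toSet hlt]), e'⟩

/-- Test for a quartet of the reference dodecad. -/
def quartL (l : List ℕ) : Bool :=
  goodRep l && Nat.beq l.length 4 && l.all (fun m => Nat.beq (popc m) 3 && Nat.beq (m &&& DodStab.sqD) m) &&
    l.all fun m => l.all fun x => Nat.beq m x || hexList.contains (m ||| x)

theorem quartL_spec {l : List ℕ} (h : quartL l = true) : fam l ∈ quartets DodStab.D := by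
  simp only [quartL, Bool.and_eq_true, Bool.or_eq_true, List.all_eq_true, Nat.beq_eq, List.contains_iff_mem] at h
  obtain ⟨⟨⟨hg, hlen⟩, h3⟩, hu⟩ := h
  obtain ⟨-, hlt⟩ := goodRep_spec l hg
  refine ⟨?_, fun t ht => ?_, fun t ht u hu' hne => ?_⟩
  · rw [fam, List.toFinset_card_of_nodup (nodup_toSet hg), List.length_map, hlen]
  · obtain ⟨m, hm, rfl⟩ := List.mem_map.1 (List.mem_toFinset.1 ht)
    refine ⟨by rw [card_toSet (hlt m hm)]; exact (h3 m hm).1, ?_⟩
    rw [subset_iff_mask, mask_toSet (hlt m hm), mask_toSet DodStab.sqD_lt]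
    exact (h3 m hm).2
  · obtain ⟨m, hm, rfl⟩ := List.mem_map.1 (List.mem_toFinset.1 ht)
    obtain ⟨x, hx, rfl⟩ := List.mem_map.1 (List.mem_toFinset.1 hu')
    rw [mem_hexList, mask_union, mask_toSet (hlt m hm), mask_toSet (hlt x hx)]
    exact (hu m hm x hx).resolve_left fun e => hne (by rw [e])

theorem disjoint_of_union {t u : Finset GolayPt} (ht : t.card = 3) (hu : u.card = 3)
    (h : (t ∪ u).card = 6) : Disjoint t u := Finset.card_union_eq_card_add_card.1 (by omega)

/-- The reference quartet. -/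
def Q0 : Fam := fam [7, 4120, 8960, 327744]

theorem Q0_mem : Q0 ∈ quartets DodStab.D := quartL_spec (by decide +kernel)

theorem hexad_five {h h' s : Finset GolayPt} (hh : h ∈ hexadsOn d) (hh' : h' ∈ hexadsOn d)
    (hs : 5 ≤ s.card) (hsh : s ⊆ h) (hsh' : s ⊆ h') : h = h' := by
  obtain ⟨-, o, ho, e⟩ := hh
  obtain ⟨-, o', ho', e'⟩ := hh'
  subst e e'
  rw [octad_unique ho ho' hs (hsh.trans Finset.inter_subset_left) (hsh'.trans Finset.inter_subset_left)]

/-- Two triples with hexad union are moved to the first two reference triples. -/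
theorem exists_ref_map (hd : d ∈ dodecads) {t u : Finset GolayPt} (ht : t.card = 3) (hu : u.card = 3)
    (hh : t ∪ u ∈ hexadsOn d) {a : GolayPt} (ha : a ∈ t) :
    ∃ σ ∈ M24, σ • d = DodStab.D ∧ σ • t = toSet 7 ∧ σ • u = toSet 4120 ∧ σ a = ptN 0 := by
  classical
  have hdis := disjoint_of_union ht hu hh.1
  have hsub : t ∪ u ⊆ d := by obtain ⟨-, o, -, e⟩ := hh; rw [← e]; exact Finset.inter_subset_right
  obtain ⟨b, c, hbc, et⟩ := Finset.card_eq_two.1 (show (t.erase a).card = 2 by
    rw [Finset.card_erase_of_mem ha, ht])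
  obtain ⟨e, f, g, hef, -, -, eu⟩ := Finset.card_eq_three.1 hu
  have hbm : b ∈ t.erase a := by rw [et]; simp
  have hcm : c ∈ t.erase a := by rw [et]; simp
  rw [Finset.mem_erase] at hbm hcm
  have hem : e ∈ u := by rw [eu]; simp
  have hfm : f ∈ u := by rw [eu]; simp
  have nd : ∀ {p q : GolayPt}, p ∈ t → q ∈ u → p ≠ q := fun hp hq h =>
    Finset.disjoint_left.1 hdis hp (h ▸ hq)
  have hx : Function.Injective ![a, b, c, e, f] := fun i j h => by
    fin_cases i <;> fin_cases j <;> first | rfl |
      (exfalso; simp [hbm.1, hbm.1.symm, hcm.1, hcm.1.symm, hbc, hbc.symm, hef, hef.symm,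
        nd ha hem, (nd ha hem).symm, nd ha hfm, (nd ha hfm).symm, nd hbm.2 hem, (nd hbm.2 hem).symm,
        nd hbm.2 hfm, (nd hbm.2 hfm).symm, nd hcm.2 hem, (nd hcm.2 hem).symm,
        nd hcm.2 hfm, (nd hcm.2 hfm).symm] at h)
  have hxd : ∀ i, ![a, b, c, e, f] i ∈ d := fun i => by
    fin_cases i
    · exact hsub (Finset.mem_union_left _ ha)
    · exact hsub (Finset.mem_union_left _ hbm.2)
    · exact hsub (Finset.mem_union_left _ hcm.2)
    · exact hsub (Finset.mem_union_right _ hem)
    · exact hsub (Finset.mem_union_right _ hfm)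
  obtain ⟨σ, hσ, hσd, hσi⟩ := DodStab.exists_map_in (n := 5) le_rfl hd DodStab.D_mem _
    (fun i : Fin 5 => ptN i.val) hx (by decide +kernel) hxd (by decide +kernel)
  have h0 : σ a = ptN 0 := hσi 0
  have h1 : σ b = ptN 1 := hσi 1
  have h2 : σ c = ptN 2 := hσi 2
  have h3 : σ e = ptN 3 := hσi 3
  have h4 : σ f = ptN 4 := hσi 4
  have hσt : σ • t = toSet 7 := by
    rw [← Finset.insert_erase ha, et]
    simp only [Finset.smul_finset_insert, Finset.smul_finset_singleton, Equiv.Perm.smul_def, h0, h1, h2]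
    decide +kernel
  have href : toSet 4127 ∈ hexadsOn DodStab.D := mem_hexList.2 (by
    rw [mask_toSet (by decide)]; decide +kernel)
  have hU : σ • (t ∪ u) = toSet 4127 := by
    refine hexad_five (hσd ▸ smul_mem_hexadsOn hσ hh) href (s := σ • ({a, b, c, e, f} : Finset GolayPt)) ?_
      (Finset.smul_finset_subset_smul_finset ?_) ?_
    · simp only [Finset.smul_finset_insert, Finset.smul_finset_singleton, Equiv.Perm.smul_def, h0, h1, h2, h3, h4]
      decide +kernel
    · intro p hp
      simp only [Finset.mem_insert, Finset.mem_singleton] at hp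
      rcases hp with rfl | rfl | rfl | rfl | rfl
      · exact Finset.mem_union_left _ ha
      · exact Finset.mem_union_left _ hbm.2
      · exact Finset.mem_union_left _ hcm.2
      · exact Finset.mem_union_right _ hem
      · exact Finset.mem_union_right _ hfm
    · simp only [Finset.smul_finset_insert, Finset.smul_finset_singleton, Equiv.Perm.smul_def, h0, h1, h2, h3, h4]
      decide +kernel
  refine ⟨σ, hσ, hσd, hσt, ?_, h0⟩
  rw [← Finset.union_sdiff_cancel_left hdis, Finset.smul_finset_sdiff, hU, hσt]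
  decide +kernel

theorem ref_cands : ((subMasks (DodStab.sqD ^^^ 4127) 3).all fun v =>
    !(hexList.contains (7 ||| v) && hexList.contains (4120 ||| v)) || Nat.beq v 8960 || Nat.beq v 327744) = true := by
  decide +kernel

theorem ref_unique {Q : Fam} (hQ : Q ∈ quartets DodStab.D) (ht : toSet 7 ∈ Q) (hu : toSet 4120 ∈ Q) :
    Q = Q0 := by
  classical
  obtain ⟨h4, h3, hun⟩ := hQ
  refine Finset.eq_of_subset_of_card_le (fun v hv => ?_) (by rw [Q0_mem.1, h4])
  simp only [Q0, fam, List.map_cons, List.map_nil, List.toFinset_cons, List.toFinset_nil, Finset.mem_insert,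
    Finset.notMem_empty, or_false]
  by_cases e7 : v = toSet 7
  · exact Or.inl e7
  by_cases e4 : v = toSet 4120
  · exact Or.inr (Or.inl e4)
  have hv7 := hun _ ht v hv (Ne.symm e7)
  have hv4 := hun _ hu v hv (Ne.symm e4)
  have d7 := disjoint_of_union (h3 _ ht).1 (h3 v hv).1 hv7.1
  have d4 := disjoint_of_union (h3 _ hu).1 (h3 v hv).1 hv4.1
  have hsub : v ⊆ toSet (DodStab.sqD ^^^ 4127) := by
    rw [show toSet (DodStab.sqD ^^^ 4127) = (DodStab.D \ toSet 7) \ toSet 4120 from by decide +kernel]
    intro p hp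
    exact Finset.mem_sdiff.2 ⟨Finset.mem_sdiff.2 ⟨(h3 v hv).2 hp, fun h => Finset.disjoint_left.1 d7 h hp⟩,
      fun h => Finset.disjoint_left.1 d4 h hp⟩
  have hc := List.all_eq_true.1 ref_cands _ (mask_mem_subMasks hsub (h3 v hv).1)
  rw [mem_hexList, mask_union, mask_toSet (by decide)] at hv7 hv4
  simp only [Bool.or_eq_true, Bool.not_eq_true', List.contains_iff_mem.2 hv7,
    List.contains_iff_mem.2 hv4, Bool.and_self, Nat.beq_eq, Bool.true_eq_false, false_or] at hc
  rcases hc with e | e
  · exact Or.inr (Or.inr (Or.inl (by rw [← toSet_mask v, e])))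
  · exact Or.inr (Or.inr (Or.inr (by rw [← toSet_mask v, e])))

theorem existsUnique_quartet (hd : d ∈ dodecads) {t u : Finset GolayPt} (ht : t.card = 3) (hu : u.card = 3)
    (hh : t ∪ u ∈ hexadsOn d) : ∃! Q : Fam, Q ∈ quartets d ∧ t ∈ Q ∧ u ∈ Q := by
  obtain ⟨a, ha⟩ := Finset.card_pos.1 (by omega : 0 < t.card)
  obtain ⟨σ, hσ, hd', ht', hu', -⟩ := exists_ref_map hd ht hu hh ha
  refine ⟨σ⁻¹ • Q0, ⟨?_, ?_, ?_⟩, fun Q hQ => ?_⟩
  · have := smul_mem_quartets (inv_mem hσ) Q0_mem
    rwa [← hd', inv_smul_smul] at this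
  · rw [Finset.mem_inv_smul_finset_iff, ht']; decide +kernel
  · rw [Finset.mem_inv_smul_finset_iff, hu']; decide +kernel
  · rw [eq_inv_smul_iff]
    refine ref_unique (hd' ▸ smul_mem_quartets hσ hQ.1) ?_ ?_
    · rw [← ht']; exact Finset.smul_mem_smul_finset hQ.2.1
    · rw [← hu']; exact Finset.smul_mem_smul_finset hQ.2.2

theorem cover (hd : d ∈ dodecads) {Q : Fam} (hQ : Q ∈ quartets d) {p : GolayPt} (hp : p ∈ d) :
    ∃ t ∈ Q, p ∈ t := by
  classical
  obtain ⟨h4, h3, hun⟩ := hQ
  have hc : (Q.biUnion id).card = 12 := by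
    rw [Finset.card_biUnion (t := id) fun t ht u hu hne =>
      disjoint_of_union (h3 t ht).1 (h3 u hu).1 (hun t ht u hu hne).1,
      Finset.sum_const_nat (m := 3) fun t ht => show (id t).card = 3 from (h3 t ht).1, h4]
  have he : Q.biUnion id = d := Finset.eq_of_subset_of_card_le
    (Finset.biUnion_subset.2 fun t ht => (h3 t ht).2) (by rw [hc, card_of_mem_dodecads hd])
  rw [← he, Finset.mem_biUnion] at hp
  exact hp

theorem exists_to_Q0 (hd : d ∈ dodecads) {Q : Fam} (hQ : Q ∈ quartets d) {p : GolayPt} (hp : p ∈ d) :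
    ∃ σ ∈ M24, σ • d = DodStab.D ∧ σ • Q = Q0 ∧ σ p = ptN 0 := by
  classical
  obtain ⟨t, ht, hpt⟩ := cover hd hQ hp
  obtain ⟨u, hu, hne⟩ := Finset.exists_mem_ne (by rw [hQ.1]; omega : 1 < Q.card) t
  obtain ⟨σ, hσ, hd', ht', hu', h0⟩ :=
    exists_ref_map hd (hQ.2.1 t ht).1 (hQ.2.1 u hu).1 (hQ.2.2 t ht u hu hne.symm) hpt
  refine ⟨σ, hσ, hd', ref_unique (hd' ▸ smul_mem_quartets hσ hQ) ?_ ?_, h0⟩
  · rw [← ht']; exact Finset.smul_mem_smul_finset ht
  · rw [← hu']; exact Finset.smul_mem_smul_finset hu

theorem exists_map (hd : d ∈ dodecads) {Q Q' : Fam} (hQ : Q ∈ quartets d) (hQ' : Q' ∈ quartets d)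
    {p q : GolayPt} (hp : p ∈ d) (hq : q ∈ d) : ∃ g ∈ M24, g • d = d ∧ g • Q = Q' ∧ g p = q := by
  obtain ⟨σ, hσ, h1, h2, h3⟩ := exists_to_Q0 hd hQ hp
  obtain ⟨τ, hτ, k1, k2, k3⟩ := exists_to_Q0 hd hQ' hq
  refine ⟨τ⁻¹ * σ, mul_mem (inv_mem hτ) hσ, ?_, ?_, ?_⟩
  · rw [mul_smul, h1, inv_smul_eq_iff, k1]
  · rw [mul_smul, h2, inv_smul_eq_iff, k2]
  · rw [Equiv.Perm.mul_apply, h3, ← k3]; exact τ.symm_apply_apply q

/-! ### The orbits -/

/-- The quartets of the twelve-element members. -/
def KQ : Fam → Set Fam := fun A => {X | ∃ a ∈ A, a.card = 12 ∧ X ∈ quartets a}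

theorem KQ_smul : ∀ σ ∈ M24, ∀ B X, X ∈ KQ B → σ • X ∈ KQ (σ • B) := by
  rintro σ hσ B X ⟨a, ha, h12, hX⟩
  exact ⟨σ • a, Finset.smul_mem_smul_finset ha, by rw [Finset.card_smul_finset, h12],
    smul_mem_quartets hσ hX⟩

theorem KQ_insert (hd : d ∈ dodecads) {Q : Fam} (hQ : Q ∈ quartets d) :
    KQ (insert d Q) = quartets d := by
  refine Set.ext fun X => ⟨?_, fun hX => ⟨d, Finset.mem_insert_self _ _, card_of_mem_dodecads hd, hX⟩⟩
  rintro ⟨a, ha, h12, hX⟩
  rcases Finset.mem_insert.1 ha with rfl | ha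
  · exact hX
  · rw [(hQ.2.1 a ha).1] at h12; omega

/-- The 220 quartets as mask lists. -/
def keyList : List (List ℕ) := [
  [7, 4120, 8960, 327744], [7, 336, 70144, 270344], [8960, 4162, 262153, 65556], [4120, 580, 65794, 270337],
  [7, 266496, 584, 73744], [8960, 81, 266244, 65546], [4120, 66049, 262404, 8258], [327744, 4356, 530, 8201],
  [4120, 321, 262658, 73732], [7, 262672, 12352, 65800], [8960, 262162, 69633, 76], [327744, 273, 524, 12290],
  [327744, 4609, 8212, 266], [11, 4116, 8512, 328192], [8708, 259, 69696, 262168], [327936, 8768, 4105, 22],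
  [88, 331776, 8197, 770], [4102, 25, 73984, 262720], [769, 8198, 65608, 266256], [262212, 65539, 12296, 784],
  [4368, 8712, 65541, 262210], [67, 327684, 8456, 4624], [4101, 26, 335872, 832], [262912, 73792, 14, 4113],
  [262224, 69640, 772, 8195], [515, 8452, 327688, 4176], [270848, 65856, 28, 4099], [327696, 4168, 262, 8705],
  [8449, 518, 266304, 65560], [280, 12800, 262147, 65604], [70, 327681, 8720, 4360], [65616, 266248, 8450, 517],
  [4106, 21, 66112, 270592], [12544, 536, 65542, 262209], [65601, 262150, 776, 12304], [74240, 262464, 4114, 13],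
  [8216, 4864, 69, 327682], [4108, 19, 270400, 66304], [261, 8706, 69648, 262216], [65602, 262149, 4616, 8464],
  [11, 4864, 65616, 270340], [8708, 262209, 4106, 65808], [327936, 12304, 517, 74], [88, 65539, 270592, 4612],
  [4102, 8712, 65616, 262401], [769, 327684, 4106, 8272], [270400, 280, 517, 69634], [69648, 270592, 70, 521],
  [262212, 26, 8705, 69888], [4368, 518, 335872, 73], [4101, 262224, 8456, 66050], [262912, 67, 65560, 12292],
  [4368, 66112, 8195, 262156], [515, 73792, 4360, 262164], [270848, 69640, 69, 274], [280, 8198, 328192, 4161],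
  [12544, 13, 327696, 578], [65601, 8452, 26, 266752], [12296, 65856, 518, 262161], [65541, 4168, 262912, 8210],
  [14, 12800, 262224, 65793], [772, 327681, 4114, 8264], [74240, 266248, 67, 276], [327688, 21, 12800, 322],
  [28, 8450, 327681, 4672], [8216, 262, 66112, 266241], [11, 266304, 8720, 65796], [4108, 327682, 8449, 592],
  [261, 536, 73792, 266242], [262150, 8512, 69640, 529], [262168, 66304, 70, 12289], [22, 262216, 4864, 73729],
  [770, 4116, 262209, 73736], [4176, 262149, 66304, 8202], [4099, 8464, 262216, 66052], [259, 12304, 262720, 65548],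
  [8768, 65539, 266256, 268], [331776, 8712, 19, 324], [25, 327684, 8706, 4416], [69696, 13, 784, 270338],
  [8708, 327682, 4113, 328], [262168, 8512, 65541, 4610], [65602, 4116, 8705, 262408], [4616, 259, 335872, 84],
  [22, 69696, 8456, 262657], [770, 4105, 65604, 270352], [262720, 8197, 4360, 65554], [266256, 73984, 69, 522],
  [4176, 65542, 270848, 265], [4099, 776, 327696, 8260], [65604, 4114, 8449, 262664], [8768, 262149, 65560, 4354],
  [331776, 8464, 14, 577], [25, 65602, 772, 274432], [8198, 4616, 262464, 65553], [8452, 4105, 262210, 66064],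
  [65856, 8197, 4624, 262154], [4168, 73984, 262147, 532], [4101, 65608, 8720, 262402], [266248, 65542, 832, 8209],
  [21, 776, 266304, 73730], [262, 270400, 4624, 65545], [832, 69648, 262147, 8204], [536, 327936, 8195, 4164],
  [262150, 88, 74240, 4353], [784, 4102, 327688, 8257], [262210, 769, 28, 77824], [4113, 262212, 8450, 66056],
  [262464, 515, 8216, 69636], [19, 12544, 65608, 262660], [8706, 65601, 4108, 262416], [328192, 12296, 261, 82],
  [11, 580, 77824, 262416], [8708, 266496, 65545, 82], [327936, 81, 8204, 4610], [88, 12290, 65796, 262657],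
  [4102, 66049, 328, 270352], [769, 270344, 4164, 65554], [270400, 65556, 4353, 522], [776, 270337, 69636, 82],
  [4114, 65800, 270340, 577], [69, 12290, 262408, 66064], [69648, 266, 262660, 8257], [262212, 73744, 4610, 265],
  [4368, 65546, 262657, 8260], [67, 524, 270352, 69888], [66112, 262162, 265, 12292], [8720, 321, 69634, 262156],
  [4101, 8258, 65808, 262664], [262912, 8201, 84, 69634], [262224, 73732, 4354, 521], [515, 76, 274432, 65808],
  [270848, 4356, 65553, 74], [327696, 321, 8202, 4612], [26, 12352, 66052, 262401], [8449, 70144, 74, 262164],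
  [280, 266244, 73729, 578], [70, 273, 73736, 266752], [65616, 262658, 268, 12289], [4106, 262672, 324, 73729],
  [8705, 336, 266242, 65548], [335872, 4162, 529, 268], [65560, 4609, 324, 270338], [12544, 66049, 262154, 84],
  [65601, 270344, 532, 4354], [12296, 65556, 262402, 577], [65541, 266, 592, 274432], [8456, 580, 266242, 65553],
  [14, 270337, 4416, 66064], [772, 73744, 4161, 262154], [74240, 266, 262161, 4164], [327688, 580, 8210, 4353],
  [28, 266496, 66050, 8257], [262147, 4356, 8272, 66056], [8450, 262672, 73, 69636], [8216, 4162, 65793, 262660],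
  [4108, 73744, 322, 262657], [261, 65546, 4672, 270352], [8512, 524, 266241, 65554], [262168, 4356, 73730, 577],
  [22, 321, 66056, 274432], [770, 12352, 262156, 65553], [262720, 69633, 276, 8202], [266256, 8201, 322, 66052],
  [4176, 524, 262402, 73729], [4099, 262404, 592, 73736], [65604, 266496, 529, 8202], [4360, 81, 270338, 66052],
  [517, 262162, 4416, 73736], [270592, 530, 4161, 65548], [262209, 70144, 8210, 268], [12304, 262153, 66050, 324],
  [13, 65794, 8272, 266752], [327682, 12352, 521, 276], [66304, 8212, 73, 266242], [262216, 65794, 12292, 529],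
  [4116, 584, 65793, 270338], [259, 266244, 8264, 66064], [69696, 262404, 522, 8209], [4105, 336, 262660, 73730],
  [8197, 4162, 262416, 66056], [73984, 4609, 82, 262156], [65608, 270337, 4610, 276], [65542, 4609, 262416, 8264],
  [65602, 262672, 8204, 4353], [4616, 262162, 65796, 8257], [262149, 530, 328, 77824], [8464, 262658, 4164, 65545],
  [8768, 273, 262154, 69636], [331776, 8258, 532, 265], [25, 70144, 262402, 8260], [8198, 262153, 592, 69888],
  [65539, 8212, 4416, 262664], [8712, 65794, 4161, 262164], [327684, 584, 12289, 274], [73792, 262153, 4612, 274],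
  [69640, 8212, 262401, 578], [8452, 584, 262161, 69634], [65856, 266244, 8210, 521], [4168, 273, 66050, 270340],
  [518, 69633, 8272, 262408], [12800, 262404, 73, 65554], [327681, 336, 12292, 522], [266248, 530, 65793, 8260],
  [21, 262658, 8264, 69888], [262, 81, 77824, 262664], [832, 12290, 65545, 262164], [266304, 66049, 8204, 274],
  [536, 69633, 322, 270340], [262150, 8201, 4672, 65808], [784, 73732, 266241, 74], [262210, 65800, 8209, 4612],
  [4624, 76, 73730, 262401], [4113, 270344, 65796, 578], [8195, 65556, 328, 266752], [262464, 65546, 532, 12289],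
  [4864, 8258, 262161, 65548], [19, 73732, 4672, 262408], [8706, 65800, 266241, 84], [328192, 76, 8209, 4354]]

theorem keyList_eq : allKeys DodQuart.gens DodQuart.classes = keyList := by decide +kernel

/-- Membership by the bare recursor. -/
noncomputable def memRec (l : List ℕ) (x : ℕ) : Bool :=
  @List.rec ℕ (fun _ => Bool) false (fun a _ ih => bif Nat.beq a x then true else ih) l

theorem mem_of_memRec {x : ℕ} : ∀ {l : List ℕ}, memRec l x = true → x ∈ l
  | [], h => by exact absurd h (by simp [memRec])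
  | a :: r, h => by
    change (bif Nat.beq a x then true else memRec r x) = true at h
    cases e : Nat.beq a x with
    | true => exact List.mem_cons.2 (Or.inl (Nat.eq_of_beq_eq_true e).symm)
    | false => exact List.mem_cons_of_mem _ (mem_of_memRec (by simpa [e] using h))

theorem list_cover {t h : ℕ} (ht : t ∈ subMasks DodStab.sqD 3) (h0 : t.testBit 0 = true)
    (hh : h ∈ hexList) (hth : h &&& t = t) : ∃ k ∈ keyList, t ∈ k ∧ h ^^^ t ∈ k := by
  have key : ((((allSums (bitPairs DodStab.sqD)).filter fun v => Nat.beq (popRec 24 v) 3).filter fun t => t.testBit 0).all fun t =>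
      hexList.all fun h => !(Nat.beq (h &&& t) t) || keyList.any fun k => memRec k t && memRec k (h ^^^ t)) = true := by
    decide +kernel
  rw [subMasks] at ht
  simp only [popc_eq_popRec] at ht
  have h1 := List.all_eq_true.1 (List.all_eq_true.1 key t (List.mem_filter.2 ⟨ht, h0⟩)) h hh
  rw [hth] at h1
  simp only [Bool.or_eq_true, Bool.not_eq_true', List.any_eq_true, Bool.and_eq_true] at h1
  rcases h1 with h1 | ⟨k, hk, hk1, hk2⟩
  · rw [← Bool.not_eq_true, Nat.beq_eq] at h1; exact absurd rfl h1
  · exact ⟨k, hk, mem_of_memRec hk1, mem_of_memRec hk2⟩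

theorem roots_quartL : DodQuart.classes.all (fun c => quartL c.root) = true := by decide +kernel

theorem base_eq : fam DodQuart.base = insert DodStab.D Q0 := by
  simp [DodQuart.base, fam, Q0, DodStab.D, DodStab.sqD]

theorem keys_mem : ∀ k ∈ allKeys DodQuart.gens DodQuart.classes,
    goodRep k = true ∧ fam k ∈ quartets DodStab.D := by
  intro k hk
  have hok := DodQuart.cert_ok
  simp only [suborbOk, Bool.and_eq_true, List.all_eq_true, Nat.beq_eq] at hok
  obtain ⟨c, hc, hk⟩ := List.mem_flatMap.1 hk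
  have hr := quartL_spec (List.all_eq_true.1 roots_quartL c hc)
  rcases List.mem_cons.1 hk with rfl | hk
  · exact ⟨(hok.1.2 c hc).1, hr⟩
  · obtain ⟨hgood, σ, hσ, hA, e⟩ := famKeys_prop hok.1.1 _ _ (hok.1.2 c hc).1 k hk
    refine ⟨hgood, ?_⟩
    have hD : σ • DodStab.D = DodStab.D := by
      have := Finset.smul_mem_smul_finset (a := σ) (Finset.mem_insert_self DodStab.D Q0)
      rw [← base_eq, hA, base_eq] at this
      rcases Finset.mem_insert.1 this with h | h
      · exact h
      · have := (Q0_mem.2.1 _ h).1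
        rw [Finset.card_smul_finset, card_of_mem_dodecads DodStab.D_mem] at this; omega
    rw [← e, ← hD]
    exact smul_mem_quartets hσ hr

theorem ref_le : (quartets DodStab.D).ncard ≤ 220 := by
  classical
  have hlen : (allKeys DodQuart.gens DodQuart.classes).length = 220 := by decide +kernel
  refine le_trans (Set.ncard_le_ncard (t := ↑(((allKeys DodQuart.gens DodQuart.classes).map fam).toFinset)) ?_
    (Finset.finite_toSet _)) ?_
  · intro Q hQ
    obtain ⟨t, ht, h0⟩ := cover DodStab.D_mem hQ (p := ptN 0) (by decide +kernel)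
    obtain ⟨u, hu, hne⟩ := Finset.exists_mem_ne (by rw [hQ.1]; omega : 1 < Q.card) t
    have hh := hQ.2.2 t ht u hu hne.symm
    have hdis := disjoint_of_union (hQ.2.1 t ht).1 (hQ.2.1 u hu).1 hh.1
    have hm1 : mask t ∈ subMasks DodStab.sqD 3 := mask_mem_subMasks (hQ.2.1 t ht).2 (hQ.2.1 t ht).1
    have hb : (mask t).testBit 0 = true := by
      have := testBit_mask t (ptN 0)
      rw [idx_ptN (by omega)] at this
      simpa [h0] using this
    rw [mem_hexList, mask_union] at hh
    have hxor : (mask t ||| mask u) ^^^ mask t = mask u := by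
      rw [← mask_union, ← mask_symmDiff]
      congr 1
      ext x
      have : x ∈ u → x ∉ t := fun hx h => Finset.disjoint_left.1 hdis h hx
      simp only [Finset.mem_symmDiff, Finset.mem_union]; tauto
    have hand : (mask t ||| mask u) &&& mask t = mask t := by
      rw [← mask_union, ← mask_inter, Finset.union_inter_cancel_left]
    obtain ⟨k, hk, hkt, hku⟩ := list_cover hm1 hb hh hand
    rw [← keyList_eq] at hk
    rw [hxor] at hku
    refine List.mem_toFinset.2 (List.mem_map.2 ⟨k, hk, ?_⟩)
    refine (existsUnique_quartet DodStab.D_mem (hQ.2.1 t ht).1 (hQ.2.1 u hu).1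
      (hQ.2.2 t ht u hu hne.symm)).unique ⟨(keys_mem k hk).2, ?_, ?_⟩ ⟨hQ, ht, hu⟩
    · rw [← toSet_mask t]; exact List.mem_toFinset.2 (List.mem_map_of_mem hkt)
    · rw [← toSet_mask u]; exact List.mem_toFinset.2 (List.mem_map_of_mem hku)
  · rw [Set.ncard_coe_finset]
    exact (List.toFinset_card_le _).trans (le_of_eq (by rw [List.length_map, hlen]))

theorem spec_ref : Spec KQ crossInv (fam DodQuart.base) DodQuart.table := by
  refine spec_of_cert DodQuart.cert_ok KQ_smul (fun σ _ B X => crossInv_smul σ B X) DodQuart.table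
    (table_cross DodQuart.cert_ok DodQuart.table_ok) (by decide) (fun c hc => ?_) ?_
  · rw [base_eq, KQ_insert DodStab.D_mem Q0_mem]
    exact quartL_spec (List.all_eq_true.1 roots_quartL c hc)
  · rw [base_eq, KQ_insert DodStab.D_mem Q0_mem]
    exact ref_le.trans (by decide)

theorem spec_at (hd : d ∈ dodecads) {Q : Fam} (hQ : Q ∈ quartets d) :
    Spec KQ crossInv (insert d Q) DodQuart.table := by
  obtain ⟨p, hp⟩ := Finset.card_pos.1 (by rw [card_of_mem_dodecads hd]; omega : 0 < d.card)
  obtain ⟨σ, hσ, h1, h2, -⟩ := exists_to_Q0 hd hQ hp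
  have h := spec_ref.smul (inv_mem hσ)
  rwa [base_eq, ← h1, ← h2, ← Finset.smul_finset_insert, inv_smul_smul] at h

theorem stab_insert (hd : d ∈ dodecads) {Q : Fam} (hQ : Q ∈ quartets d) :
    stabilizer M24 (insert d Q) = stabilizer M24 d ⊓ stabilizer M24 Q := by
  ext g
  simp only [mem_stabilizer_iff, Subgroup.mem_inf]
  refine ⟨fun h => ?_, fun h => by rw [Finset.smul_finset_insert, h.1, h.2]⟩
  have hd' : g • d = d := by
    have := Finset.smul_mem_smul_finset (a := g) (Finset.mem_insert_self d Q)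
    rw [h] at this
    rcases Finset.mem_insert.1 this with e | e
    · exact e
    · have := (hQ.2.1 _ e).1
      rw [Finset.card_smul_finset, card_of_mem_dodecads hd] at this; omega
  refine ⟨hd', ?_⟩
  have hdQ : d ∉ Q := fun e => by
    have := (hQ.2.1 _ e).1
    rw [card_of_mem_dodecads hd] at this; omega
  rw [Finset.smul_finset_insert, hd'] at h
  have hdQ' : d ∉ g • Q := fun e => by
    obtain ⟨s, hs, e'⟩ := Finset.mem_smul_finset.1 e
    rw [← hd'] at e'
    exact hdQ (MulAction.injective g e' ▸ hs)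
  rw [← Finset.erase_insert hdQ', h, Finset.erase_insert hdQ]

theorem ncard_quartets (hd : d ∈ dodecads) : (quartets d).ncard = 220 := by
  obtain ⟨σ, hσ, e⟩ := DodStab.exists_map_dodecad DodStab.D_mem hd
  have himg : quartets d = (fun Q => σ • Q) '' quartets DodStab.D := by
    ext X
    constructor
    · intro hX
      refine ⟨σ⁻¹ • X, ?_, smul_inv_smul σ X⟩
      have := smul_mem_quartets (inv_mem hσ) hX
      rwa [← e, inv_smul_smul] at this
    · rintro ⟨Q, hQ, rfl⟩; exact e ▸ smul_mem_quartets hσ hQ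
  rw [himg, Set.ncard_image_of_injective _ (MulAction.injective σ)]
  refine le_antisymm ref_le ?_
  classical
  have hsub : (↑(((allKeys DodQuart.gens DodQuart.classes).map fam).toFinset) : Set Fam) ⊆ quartets DodStab.D := by
    intro X hX
    obtain ⟨k, hk, rfl⟩ := List.mem_map.1 (List.mem_toFinset.1 hX)
    exact (keys_mem k hk).2
  refine le_trans ?_ (Set.ncard_le_ncard hsub (Set.toFinite _))
  have hnd : ((allKeys DodQuart.gens DodQuart.classes).map fam).Nodup := by
    have hok := DodQuart.cert_ok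
    simp only [suborbOk, Bool.and_eq_true] at hok
    refine List.Nodup.of_map (hashOf 16777213) ?_
    rw [List.map_map]
    refine Eq.mpr (congrArg List.Nodup ?_) (nodupAux_spec _ _ hok.2).1
    refine List.map_congr_left fun k hk => ?_
    have hgood := (keys_mem k hk).1
    rw [Function.comp_apply, hashOf, famHash, sum_fam hgood]
    congr 2
    refine List.map_congr_left fun m hm => ?_
    simp only [mask_toSet ((goodRep_spec _ hgood).2 m hm)]
  rw [Set.ncard_coe_finset, List.toFinset_card_of_nodup hnd, List.length_map]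
  decide +kernel

end CfsgLib.Golay.Quartet
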