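/-
The five orbits of a quartet stabiliser on the quartets of its dodecad.
-/
import Cfsg.Agent.Golay.Quartet

set_option autoImplicit false

namespace CfsgLib.Golay.Quartet

open Cfsg CfsgLib.Golay MulAction CfsgLib.Golay.Suborb
open scoped Pointwise

variable {d : Finset GolayPt}

theorem inv_self (hd : d ∈ dodecads) {Q : Fam} (hQ : Q ∈ quartets d) : crossInv (insert d Q) Q = 648 := by
  obtain ⟨p, hp⟩ := Finset.card_pos.1 (by rw [card_of_mem_dodecads hd]; omega : 0 < d.card)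
  obtain ⟨σ, -, h1, h2, -⟩ := exists_to_Q0 hd hQ hp
  rw [← crossInv_smul σ, Finset.smul_finset_insert, h1, h2, ← base_eq]
  decide +kernel

theorem orbits (hd : d ∈ dodecads) {Q : Fam} (hQ : Q ∈ quartets d) :
    ∃ X₁ ∈ quartets d, ∃ X₂ ∈ quartets d, ∃ X₃ ∈ quartets d, ∃ X₄ ∈ quartets d,
      (orbit ↥(stabilizer M24 d ⊓ stabilizer M24 Q) X₁).ncard = 12 ∧
      (orbit ↥(stabilizer M24 d ⊓ stabilizer M24 Q) X₂).ncard = 27 ∧
      (orbit ↥(stabilizer M24 d ⊓ stabilizer M24 Q) X₃).ncard = 72 ∧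
      (orbit ↥(stabilizer M24 d ⊓ stabilizer M24 Q) X₄).ncard = 108 ∧
      quartets d = {Q} ∪ orbit ↥(stabilizer M24 d ⊓ stabilizer M24 Q) X₁ ∪
        orbit ↥(stabilizer M24 d ⊓ stabilizer M24 Q) X₂ ∪ orbit ↥(stabilizer M24 d ⊓ stabilizer M24 Q) X₃ ∪
        orbit ↥(stabilizer M24 d ⊓ stabilizer M24 Q) X₄ := by
  have S := spec_at hd hQ
  have hK := KQ_insert hd hQ
  rw [← stab_insert hd hQ]
  obtain ⟨X₁, h₁, v₁, n₁⟩ := S.ncard_orbit (e := (414, 12)) (by decide) (by decide)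
  obtain ⟨X₂, h₂, v₂, n₂⟩ := S.ncard_orbit (e := (392, 27)) (by decide) (by decide)
  obtain ⟨X₃, h₃, v₃, n₃⟩ := S.ncard_orbit (e := (378, 72)) (by decide) (by decide)
  obtain ⟨X₄, h₄, v₄, n₄⟩ := S.ncard_orbit (e := (350, 108)) (by decide) (by decide)
  refine ⟨X₁, hK ▸ h₁, X₂, hK ▸ h₂, X₃, hK ▸ h₃, X₄, hK ▸ h₄, n₁, n₂, n₃, n₄, ?_⟩
  rw [S.orbit_eq h₁, S.orbit_eq h₂, S.orbit_eq h₃, S.orbit_eq h₄, v₁, v₂, v₃, v₄, hK]
  ext Y
  simp only [Set.mem_union, Set.mem_singleton_iff, Set.mem_ofPred_eq]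
  constructor
  · intro hY
    have hc := S.cover Y (hK.symm ▸ hY)
    simp only [DodQuart.table, List.map_cons, List.map_nil, List.mem_cons, List.not_mem_nil, or_false] at hc
    rcases hc with e | e | e | e | e
    · refine Or.inl (Or.inl (Or.inl (Or.inl ?_)))
      obtain ⟨Z, hZ⟩ := Set.ncard_eq_one.1 (S.size (648, 1) (by decide))
      have hY' : Y ∈ ({Z} : Set Fam) := hZ ▸ ⟨hK.symm ▸ hY, e⟩
      have hQ' : Q ∈ ({Z} : Set Fam) := hZ ▸ ⟨hK.symm ▸ hQ, inv_self hd hQ⟩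
      rw [Set.mem_singleton_iff] at hY' hQ'
      rw [hY', hQ']
    · exact Or.inl (Or.inl (Or.inl (Or.inr ⟨hY, e⟩)))
    · exact Or.inl (Or.inl (Or.inr ⟨hY, e⟩))
    · exact Or.inl (Or.inr ⟨hY, e⟩)
    · exact Or.inr ⟨hY, e⟩
  · rintro ((((rfl | h) | h) | h) | h)
    · exact hQ
    all_goals exact h.1

theorem card_stab (hd : d ∈ dodecads) {Q : Fam} (hQ : Q ∈ quartets d) :
    Nat.card ↥(stabilizer M24 d ⊓ stabilizer M24 Q) = 432 := by
  have horb : orbit (stabilizer M24 d) Q = quartets d := by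
    ext X
    constructor
    · rintro ⟨⟨g, hg⟩, rfl⟩
      have h := smul_mem_quartets g.2 hQ
      rwa [show (g : Equiv.Perm GolayPt) • d = d from hg] at h
    · intro hX
      obtain ⟨p, hp⟩ := Finset.card_pos.1 (by rw [card_of_mem_dodecads hd]; omega : 0 < d.card)
      obtain ⟨g, hg, h1, h2, -⟩ := exists_map hd hQ hX hp hp
      exact ⟨⟨⟨g, hg⟩, h1⟩, h2⟩
  have h := card_eq_mul_of_orbit (stabilizer M24 d) Q _ horb
  rw [DodStab.card_stab_dodecad hd, ncard_quartets hd] at h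
  omega

theorem stab_trans (hd : d ∈ dodecads) {Q : Fam} (hQ : Q ∈ quartets d) :
    ∀ p ∈ d, ∀ q ∈ d, ∃ g ∈ (stabilizer M24 d ⊓ stabilizer M24 Q), ((g : ↥M24) : Equiv.Perm GolayPt) p = q := by
  intro p hp q hq
  obtain ⟨g, hg, h1, h2, h3⟩ := exists_map hd hQ hQ hp hq
  exact ⟨⟨g, hg⟩, ⟨h1, h2⟩, h3⟩

end CfsgLib.Golay.Quartet
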