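/-
The stabiliser of a quartet: a normal subgroup of order nine with quotient GL(2,3).
-/
import Cfsg.Agent.Golay.QuartetOrbits
import Cfsg.Agent.Golay.ConjGL
import Cfsg.Agent.Golay.QuartetData
import Cfsg.Agent.Golay.Enum
import Cfsg.Agent.Golay.Norm
import Mathlib

set_option autoImplicit false
set_option maxRecDepth 20000

namespace CfsgLib.Golay.Quartet

open Cfsg CfsgLib.Golay MulAction CfsgLib.Golay.Suborb
open scoped Pointwise

/-- The table of a pair of residues. -/
def vTab (i j : ℕ) : List ℕ := QuartetData.nine.getD (3 * i + j) []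

theorem elts_ok : Listed.tabsOk [0, 1, 2, 3, 4] QuartetData.elts = true ∧
    QuartetData.elts.all (fun t => fixL t [DodStab.sqD] && fixL t [7, 4120, 8960, 327744]) = true ∧
    QuartetData.elts.length = 432 := by decide +kernel

theorem nine_ok : ((List.range 3).all fun i => (List.range 3).all fun j =>
    QuartetData.elts.contains (vTab i j) && ((List.range 3).all fun k => (List.range 3).all fun l =>
      (mulTab (vTab i j) (vTab k l) == vTab ((i + k) % 3) ((j + l) % 3)))) = true ∧
    vTab 0 0 = List.range 24 ∧ QuartetData.nine.Nodup := by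
  decide +kernel

theorem conj_ok : (QuartetData.elts.all fun t => [vTab 1 0, vTab 0 1].all fun x =>
    QuartetData.nine.any fun y => mulTab t x == mulTab y t) = true := by
  decide +kernel

theorem cent_ok : (QuartetData.elts.all fun t => QuartetData.nine.contains t ||
    !(mulTab t (vTab 1 0) == mulTab (vTab 1 0) t && mulTab t (vTab 0 1) == mulTab (vTab 0 1) t)) = true := by
  decide +kernel

theorem ref_struct : ∃ (N : Subgroup ↥(stabilizer M24 DodStab.D ⊓ stabilizer M24 Q0)) (_ : N.Normal),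
    Nat.card N = 9 ∧ Nonempty (↥(stabilizer M24 DodStab.D ⊓ stabilizer M24 Q0) ⧸ N ≃* GL (Fin 2) (ZMod 3)) := by
  classical
  set H := stabilizer M24 DodStab.D ⊓ stabilizer M24 Q0 with hH
  obtain ⟨hok, hfix, hlen⟩ := elts_ok
  obtain ⟨hn, h00, hnd⟩ := nine_ok
  simp only [List.all_eq_true, Bool.and_eq_true, List.mem_range, beq_iff_eq, List.contains_iff_mem] at hn hfix
  have hv : ∀ t ∈ QuartetData.elts, validTab t = true ∧ presTab t = true := by
    intro t ht
    simp only [Listed.tabsOk, Bool.and_eq_true, List.all_eq_true] at hok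
    exact hok.1 t ht
  have hmem : ∀ t ∈ QuartetData.elts, ∀ h : permOf t ∈ M24, (⟨permOf t, h⟩ : M24) ∈ H := by
    intro t ht h
    obtain ⟨h1, h2⟩ := hfix t ht
    have e1 := (fixL_iff (hv t ht).1 (by decide +kernel)).2 h1
    have e2 := (fixL_iff (hv t ht).1 (by decide +kernel)).2 h2
    rw [fam_singleton, Finset.smul_finset_singleton, Finset.singleton_inj] at e1
    exact ⟨e1, e2⟩
  obtain ⟨hcard, hall⟩ := Listed.eq_listed hok hmem
    (by rw [card_stab DodStab.D_mem Q0_mem, hlen])
  have hvm : ∀ i j : ZMod 3, vTab i.val j.val ∈ QuartetData.elts := fun i j =>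
    (hn _ (ZMod.val_lt i) _ (ZMod.val_lt j)).1
  let v : Multiplicative (Fin 2 → ZMod 3) →* H :=
    { toFun := fun w => ⟨⟨permOf (vTab (w.toAdd 0).val (w.toAdd 1).val),
        permOf_mem_M24 (hv _ (hvm _ _)).1 (hv _ (hvm _ _)).2⟩, hmem _ (hvm _ _) _⟩
      map_one' := Subtype.ext (Subtype.ext (by
        show permOf (vTab 0 0) = 1
        rw [h00, Norm.permOf_range]))
      map_mul' := fun a b => Subtype.ext (Subtype.ext (by
        show permOf _ = permOf _ * permOf _
        rw [← (mulTab_spec (hv _ (hvm _ _)).1 (hv _ (hvm _ _)).1).2,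
          (hn _ (ZMod.val_lt _) _ (ZMod.val_lt _)).2 _ (ZMod.val_lt _) _ (ZMod.val_lt _)]
        simp [ZMod.val_add])) }
  have hidx : ∀ t, t ∈ QuartetData.nine ↔ ∃ i j : ZMod 3, vTab i.val j.val = t := by
    intro t
    constructor
    · intro ht
      revert t
      decide +kernel
    · rintro ⟨i, j, rfl⟩
      revert i j
      decide +kernel
  have hrange : ∀ h : H, h ∈ v.range ↔ ∃ t ∈ QuartetData.nine, permOf t = ((h : M24) : Equiv.Perm GolayPt) := by
    intro h
    constructor
    · rintro ⟨w, rfl⟩; exact ⟨_, (hidx _).2 ⟨_, _, rfl⟩, rfl⟩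
    · rintro ⟨t, ht, e⟩
      obtain ⟨i, j, rfl⟩ := (hidx t).1 ht
      exact ⟨Multiplicative.ofAdd ![i, j], Subtype.ext (Subtype.ext e)⟩
  have hinj : Function.Injective v := by
    intro a b e
    have e1 := congrArg (fun h : H => tabOf ((h : M24) : Equiv.Perm GolayPt)) e
    simp only [v, MonoidHom.coe_mk, OneHom.coe_mk] at e1
    rw [Listed.tabOf_permOf (hv _ (hvm _ _)).1, Listed.tabOf_permOf (hv _ (hvm _ _)).1] at e1
    have key : ∀ i j k l : ZMod 3, vTab i.val j.val = vTab k.val l.val → i = k ∧ j = l := by decide +kernel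
    obtain ⟨h0, h1⟩ := key _ _ _ _ e1
    exact Multiplicative.toAdd.injective (funext fun i => by fin_cases i <;> assumption)
  have hN : v.range.Normal := by
    refine ⟨fun x hx g => ?_⟩
    obtain ⟨w, rfl⟩ := hx
    obtain ⟨s, hs, es⟩ := hall g.1 g.2
    have hgen : ∀ k : Fin 2, g * v (Multiplicative.ofAdd (Pi.single k 1)) * g⁻¹ ∈ v.range := by
      intro k
      have hk : ∃ i j : ZMod 3, (Pi.single k 1 : Fin 2 → ZMod 3) = ![i, j] ∧ vTab i.val j.val ∈ [vTab 1 0, vTab 0 1] := by
        revert k; decide +kernel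
      obtain ⟨i, j, e, hmem'⟩ := hk
      have h := List.all_eq_true.1 (List.all_eq_true.1 conj_ok s hs) _ hmem'
      rw [List.any_eq_true] at h
      obtain ⟨y, hy, e'⟩ := h
      rw [beq_iff_eq] at e'
      have hy' : y ∈ QuartetData.elts := by
        obtain ⟨i', j', rfl⟩ := (hidx y).1 hy; exact hvm i' j'
      refine (hrange _).2 ⟨y, hy, ?_⟩
      have e2 := congrArg permOf e'
      rw [(mulTab_spec (hv s hs).1 (hv _ (hvm i j)).1).2, (mulTab_spec (hv y hy').1 (hv s hs).1).2, es] at e2
      rw [e]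
      simp only [Subgroup.coe_mul, InvMemClass.coe_inv]
      change permOf y = _ * permOf (vTab i.val j.val) * _
      rw [e2, mul_inv_cancel_right]
    have hw : w = Multiplicative.ofAdd (Pi.single 0 1) ^ (w.toAdd 0).val * Multiplicative.ofAdd (Pi.single 1 1) ^ (w.toAdd 1).val := by
      apply Multiplicative.toAdd.injective
      simp only [toAdd_mul, toAdd_pow, toAdd_ofAdd]
      exact (by decide +kernel : ∀ f : Fin 2 → ZMod 3,
        f = (f 0).val • (Pi.single 0 1 : Fin 2 → ZMod 3) + (f 1).val • (Pi.single 1 1 : Fin 2 → ZMod 3)) _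
    rw [hw, map_mul, map_pow, map_pow, ← conj_mul, ← conj_pow, ← conj_pow]
    exact mul_mem (pow_mem (hgen 0) _) (pow_mem (hgen 1) _)
  have hC : Subgroup.centralizer (v.range : Set H) ≤ v.range := by
    intro h hh
    obtain ⟨s, hs, es⟩ := hall h.1 h.2
    have hcm : ∀ i j : ZMod 3, mulTab s (vTab i.val j.val) = mulTab (vTab i.val j.val) s := by
      intro i j
      have := congrArg (fun x : H => ((x : M24) : Equiv.Perm GolayPt))
        (Subgroup.mem_centralizer_iff.1 hh _ ⟨Multiplicative.ofAdd ![i, j], rfl⟩)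
      simp only [Subgroup.coe_mul] at this
      change permOf (vTab i.val j.val) * _ = _ * permOf (vTab i.val j.val) at this
      rw [← es, ← (mulTab_spec (hv s hs).1 (hv _ (hvm i j)).1).2,
        ← (mulTab_spec (hv _ (hvm i j)).1 (hv s hs).1).2] at this
      have := congrArg tabOf this
      rw [Listed.tabOf_permOf (mulTab_spec (hv _ (hvm i j)).1 (hv s hs).1).1,
        Listed.tabOf_permOf (mulTab_spec (hv s hs).1 (hv _ (hvm i j)).1).1] at this
      exact this.symm
    have h' := List.all_eq_true.1 cent_ok s hs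
    have ha : mulTab s (vTab 1 0) = mulTab (vTab 1 0) s := hcm 1 0
    have hb : mulTab s (vTab 0 1) = mulTab (vTab 0 1) s := hcm 0 1
    simp only [Bool.or_eq_true, Bool.not_eq_true', ha, hb, beq_self_eq_true, Bool.and_self,
      Bool.true_eq_false, or_false, List.contains_iff_mem] at h'
    exact (hrange h).2 ⟨s, h', es⟩
  have hGL : Nat.card (GL (Fin 2) (ZMod 3)) = 48 := by
    rw [Matrix.card_GL_field, ZMod.card, Fin.prod_univ_two]; rfl
  obtain ⟨h9, hiso⟩ := Listed.quotient_conj_GL v hinj hN hC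
    (by rw [hGL, card_stab DodStab.D_mem Q0_mem]; norm_num)
  exact ⟨v.range, hN, h9.trans (by norm_num), hiso⟩

theorem struct {d : Finset GolayPt} (hd : d ∈ dodecads) {Q : Fam} (hQ : Q ∈ quartets d) :
    ∃ (N : Subgroup ↥(stabilizer M24 d ⊓ stabilizer M24 Q)) (_ : N.Normal),
      Nat.card N = 9 ∧ Nonempty (↥(stabilizer M24 d ⊓ stabilizer M24 Q) ⧸ N ≃* GL (Fin 2) (ZMod 3)) := by
  obtain ⟨p, hp⟩ := Finset.card_pos.1 (by rw [card_of_mem_dodecads hd]; omega : 0 < d.card)
  obtain ⟨σ, hσ, h1, h2, -⟩ := exists_to_Q0 hd hQ hp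
  obtain ⟨e, -⟩ := Listed.stab_equiv hσ h1 h2
  obtain ⟨N', hN', h9, hiso⟩ := ref_struct
  obtain ⟨N, hN, hc, -, hi⟩ := Listed.transport_quotient (hN' := hN') e N' hiso
  exact ⟨N, hN, hc.trans h9, hi⟩

end CfsgLib.Golay.Quartet
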