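/-
Two kinds of subgroups acting as the symmetric group on six points.
-/
import Cfsg.Agent.Golay.SixSets
import Cfsg.Agent.Golay.DodStab
import Cfsg.Agent.Golay.Specs

set_option autoImplicit false

namespace CfsgLib.Golay.SixIso

open Cfsg CfsgLib.Golay MulAction CfsgLib.Golay.OctStruct CfsgLib.Golay.SixSets
open scoped Pointwise

theorem equiv_of_faithful {H : Subgroup M24} {u : Finset GolayPt} (hu : u.card = 6)
    (hpres : ∀ g ∈ H, (g : Equiv.Perm GolayPt) • u = u) (hcard : Nat.card H = 720)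
    (hfaith : ∀ g ∈ H, (∀ p ∈ u, (g : Equiv.Perm GolayPt) p = p) → g = 1) :
    Nonempty (H ≃* Equiv.Perm (Fin 6)) := by
  classical
  let π : H →* Equiv.Perm u :=
    { toFun := fun g => (g.1.1 : Equiv.Perm GolayPt).subtypePerm fun x => mem_iff_of_fix (hpres g.1 g.2) x
      map_one' := by ext x; rfl
      map_mul' := fun g h => by ext x; rfl }
  have hinj : Function.Injective π := (injective_iff_map_eq_one π).2 fun g hg =>
    Subtype.ext (hfaith g.1 g.2 fun p hp => congrArg (fun e : Equiv.Perm u => (e ⟨p, hp⟩ : GolayPt)) hg)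
  have h6 : Nat.factorial 6 = 720 := by decide +kernel
  have hbij : Function.Bijective π := (Nat.bijective_iff_injective_and_card π).2
    ⟨hinj, by rw [hcard, Nat.card_perm, Nat.card_eq_finsetCard, hu, h6]⟩
  exact ⟨(MulEquiv.ofBijective π hbij).trans (u.equivFinOfCardEq hu).permCongrHom⟩

theorem two_octads {o o' : Finset GolayPt} (ho : o ∈ octads) (ho' : o' ∈ octads) (h2 : (o ∩ o').card = 2) :
    Nonempty (↥(stabilizer M24 o ⊓ stabilizer M24 o') ≃* Equiv.Perm (Fin 6)) := by
  classical
  have hu : (o \ o').card = 6 := by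
    have := Finset.card_sdiff_add_card_inter o o'
    rw [card_of_mem_octads ho, h2] at this; omega
  refine equiv_of_faithful hu (fun g hg => ?_) ?_ (fun g hg hfix => ?_)
  · rw [Finset.smul_finset_sdiff, show (g : Equiv.Perm GolayPt) • o = o from hg.1,
      show (g : Equiv.Perm GolayPt) • o' = o' from hg.2]
  · have S := Suborb.at_octad (b := octO) (by decide +kernel) Suborb.specOctOct ho
    have hK : ({o'} : Suborb.Fam) ∈ Suborb.KOct Suborb.allO ({o} : Suborb.Fam) :=
      Suborb.KOct_mem.2 ⟨ho', trivial⟩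
    have hv : Suborb.crossInv ({o} : Suborb.Fam) ({o'} : Suborb.Fam) = 16 := by
      rw [Suborb.crossInv_singleton, h2]; decide
    have := S.card_inf_stab hK (n := 448) (by rw [hv]; decide)
    rw [Suborb.stabilizer_singleton, Suborb.stabilizer_singleton, Suborb.card_stab_octad ho] at this
    omega
  · exact Subtype.ext (eq_one_of_six ho (Or.inl ⟨ho', h2⟩) g.2 hg.1 hg.2 Finset.sdiff_subset hu.ge hfix)

theorem count_six : (octList.filter fun v => Nat.beq (popc (v &&& DodStab.sqD)) 6).length = 132 := by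
  decide +kernel

theorem dodecad_hexad {d : Finset GolayPt} (hd : d ∈ dodecads) {C : Finset GolayPt} (hC : C ∈ hexadsOn d) :
    Nonempty (↥(stabilizer M24 d ⊓ stabilizer M24 C) ≃* Equiv.Perm (Fin 6)) ∧
    (∀ g ∈ stabilizer M24 d ⊓ stabilizer M24 C, (∀ p ∈ C, ((g : ↥M24) : Equiv.Perm GolayPt) p = p) → g = 1) ∧
    ∀ g ∈ stabilizer M24 d ⊓ stabilizer M24 C, (∀ p ∈ d \ C, ((g : ↥M24) : Equiv.Perm GolayPt) p = p) → g = 1 := by
  classical
  obtain ⟨hC6, o, ho, hoC⟩ := hC
  obtain ⟨s, hs, hs5⟩ := Finset.exists_subset_card_eq (s := C) (n := 5) (by omega)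
  have hCo : C ⊆ o := hoC ▸ Finset.inter_subset_left
  have hfixo : ∀ g : ↥M24, (g : Equiv.Perm GolayPt) • C = C → (g : Equiv.Perm GolayPt) • o = o := fun g hg =>
    octad_unique (smul_mem_octads g.2 ho) ho (s := C) (by omega)
      (by conv_lhs => rw [← hg]
          exact Finset.smul_finset_subset_smul_finset hCo) hCo
  have heq : stabilizer M24 d ⊓ stabilizer M24 C = stabilizer M24 d ⊓ stabilizer M24 o := by
    ext g
    refine ⟨fun h => ⟨h.1, hfixo g h.2⟩, fun h => ⟨h.1, ?_⟩⟩
    show (g : Equiv.Perm GolayPt) • C = C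
    rw [← hoC, Finset.smul_finset_inter, show (g : Equiv.Perm GolayPt) • o = o from h.2,
      show (g : Equiv.Perm GolayPt) • d = d from h.1]
  have hod : (o ∩ d).card = 6 := by rw [hoC, hC6]
  have hfC : ∀ g ∈ stabilizer M24 d ⊓ stabilizer M24 C, (∀ p ∈ C, ((g : ↥M24) : Equiv.Perm GolayPt) p = p) → g = 1 :=
    fun g hg hf => Subtype.ext (eq_one_of_six ho (Or.inr ⟨hd, hod⟩) g.2 (hfixo g hg.2) hg.1 hCo hC6.ge hf)
  refine ⟨equiv_of_faithful hC6 (fun g hg => hg.2) ?_ hfC, hfC, fun g hg hf => ?_⟩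
  · obtain ⟨σ, hσ, eσ⟩ := DodStab.exists_map_dodecad hd DodStab.D_mem
    set S : Set (Finset GolayPt) := {x | x ∈ octads ∧ (x ∩ d).card = 6} with hS
    have horb : orbit (stabilizer M24 d) o = S := by
      ext x
      constructor
      · rintro ⟨⟨g, hg⟩, rfl⟩
        refine ⟨smul_mem_octads g.2 ho, ?_⟩
        show (((g : ↥M24) : Equiv.Perm GolayPt) • o ∩ d).card = 6
        conv_lhs => rw [← show (g : Equiv.Perm GolayPt) • d = d from hg]
        rw [← Finset.smul_finset_inter, Finset.card_smul_finset, hod]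
      · rintro ⟨hx, hxd⟩
        have mem : ∀ w : Finset GolayPt, w ∈ octads → (w ∩ d).card = 6 →
            mask (σ • w) ∈ octList.filter fun v => Nat.beq (popc (v &&& DodStab.sqD)) 6 := by
          intro w hw h6
          rw [List.mem_filter, Nat.beq_eq]
          refine ⟨mem_octads_iff.1 (smul_mem_octads hσ hw), ?_⟩
          rw [← mask_toSet DodStab.sqD_lt, ← mask_inter, popc_mask]
          show (σ • w ∩ DodStab.D).card = 6
          rw [← eσ, ← Finset.smul_finset_inter, Finset.card_smul_finset, h6]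
        obtain ⟨τ, hτ, e⟩ := exists_map_of_orbitOk (fixd := DodStab.fixA0) (by decide) (by decide)
          DodStab.gensA0_ok DodStab.okOct6 (mem o ho hod) (mem x hx hxd)
        have hτD := (mem_fixGroup.1 hτ).2 DodStab.sqD (by simp [DodStab.fixA0, DodStab.sqD])
        refine ⟨⟨⟨σ⁻¹ * τ * σ, mul_mem (mul_mem (inv_mem hσ) (mem_fixGroup.1 hτ).1) hσ⟩, ?_⟩, ?_⟩
        · show (σ⁻¹ * τ * σ) • d = d
          rw [mul_smul, mul_smul, eσ, show τ • DodStab.D = DodStab.D from hτD, ← eσ, inv_smul_smul]
        · show (σ⁻¹ * τ * σ) • o = x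
          rw [mul_smul, mul_smul, e, inv_smul_smul]
    have hS132 : S.ncard = 132 := by
      rw [← count_six, ← ncard_eq_filter (k := 8) (P := fun x => (x ∩ DodStab.D).card = 6) _ fun x => by
        rw [Nat.beq_eq, ← mask_toSet DodStab.sqD_lt, ← mask_inter, popc_mask]]
      rw [← Set.ncard_image_of_injective S (MulAction.injective σ)]
      congr 1
      ext x
      constructor
      · rintro ⟨w, ⟨hw, h6⟩, rfl⟩
        refine ⟨smul_mem_octads hσ hw, ?_⟩
        rw [← eσ, ← Finset.smul_finset_inter, Finset.card_smul_finset, h6]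
      · rintro ⟨hx, h6⟩
        refine ⟨σ⁻¹ • x, ⟨smul_mem_octads (inv_mem hσ) hx, ?_⟩, smul_inv_smul σ x⟩
        rw [← Finset.card_smul_finset σ, Finset.smul_finset_inter, smul_inv_smul, eσ, h6]
    have h := card_eq_mul_of_orbit (stabilizer M24 d) o S horb
    rw [hS132, DodStab.card_stab_dodecad hd, ← heq] at h
    omega
  · have ho'' : symmDiff o d ∈ octads := by
      have hc : inCode (mask (symmDiff o d)) = true := by
        rw [mask_symmDiff]
        exact inCode_xor (mem_wordsOfWeight_iff.1 ho).1 (mem_wordsOfWeight_iff.1 hd).1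
      refine mem_wordsOfWeight_iff.2 ⟨hc, ?_⟩
      have e1 := Finset.card_sdiff_add_card_inter o d
      have e2 := Finset.card_sdiff_add_card_inter d o
      rw [Finset.inter_comm d o, card_of_mem_dodecads hd] at e2
      rw [card_of_mem_octads ho] at e1
      rw [symmDiff_def, Finset.sup_eq_union, Finset.card_union_of_disjoint disjoint_sdiff_sdiff]
      omega
    have hint : symmDiff o d ∩ d = d \ C := by
      rw [← hoC]; ext x
      simp only [Finset.mem_inter, Finset.mem_symmDiff, Finset.mem_sdiff]; tauto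
    have hdC : (d \ C).card = 6 := by
      have := Finset.card_sdiff_add_card_inter d o
      rw [Finset.inter_comm d o, hod, card_of_mem_dodecads hd] at this
      rw [← hoC, Finset.sdiff_inter_self_right]; omega
    refine Subtype.ext (eq_one_of_six ho'' (Or.inr ⟨hd, by rw [hint, hdC]⟩) g.2 ?_ hg.1 ?_ hdC.ge hf)
    · rw [Finset.smul_finset_symmDiff, hfixo g hg.2, show (g : Equiv.Perm GolayPt) • d = d from hg.1]
    · rw [← hint]; exact Finset.inter_subset_left

end CfsgLib.Golay.SixIso
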