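/-
The stabiliser of a trio: an elementary abelian normal subgroup of order 64 with quotient GL(3,2) × Sym(3).
-/
import Cfsg.Agent.Golay.TrioData
import Cfsg.Agent.Golay.SextetStruct
import Cfsg.Agent.Golay.SuborbApp
import Cfsg.Agent.Golay.Specs
import Cfsg.Agent.Golay.CodeLit
import Mathlib

set_option autoImplicit false
set_option maxRecDepth 20000

namespace CfsgLib.Golay.TrioStruct

open Cfsg CfsgLib.Golay MulAction CfsgLib.Golay.Suborb
open scoped Pointwise

/-- The reference trio. -/
def T0 : Fam := fam TrioData.base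

theorem T0_mem : T0 ∈ trios := trioL_spec (by decide +kernel)

theorem base_good : goodRep TrioData.base = true ∧ TrioData.base = TrioSex.base := by decide +kernel

/-- Three-dimensional vectors over the field of two elements. -/
abbrev Vec := Fin 3 → ZMod 2

/-- The index of a vector. -/
def vN (v : Vec) : ℕ := (v 0).val + 2 * (v 1).val + 4 * (v 2).val

/-- The masks attached to a vector. -/
def rep (v : Vec) : List ℕ := if v = 0 then [] else TrioData.seven.getD (vN v - 1) []

/-- The sextet attached to a vector (nothing at zero). -/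
def lab (v : Vec) : Fam := fam (rep v)

theorem rep_ok : ∀ v : Vec, goodRep (rep v) = true ∧
    (v = 0 ∨ (sexL (rep v) = true ∧ crossL TrioSex.base (rep v) = 1536)) := by
  decide +kernel

theorem lab_inj : Function.Injective lab := by
  intro u v e
  have key : ∀ u v : Vec, (rep u).all (fun m => (rep v).contains m) = true →
      (rep v).all (fun m => (rep u).contains m) = true → u = v := by decide +kernel
  have sub : ∀ a b : Vec, fam (rep a) = fam (rep b) → (rep a).all (fun m => (rep b).contains m) = true := by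
    intro a b e
    rw [List.all_eq_true]
    intro m hm
    have : toSet m ∈ fam (rep b) := e ▸ List.mem_toFinset.2 (List.mem_map_of_mem hm)
    obtain ⟨x, hx, hxe⟩ := List.mem_map.1 (List.mem_toFinset.1 this)
    rw [List.contains_iff_mem, ← mask_toSet ((goodRep_spec _ (rep_ok a).1).2 m hm), ← hxe,
      mask_toSet ((goodRep_spec _ (rep_ok b).1).2 x hx)]
    exact hx
  exact key u v (sub u v e) (sub v u e.symm)

theorem lab_zero : lab 0 = ∅ := by simp [lab, rep, fam]

theorem lab_spec {v : Vec} (hv : v ≠ 0) : lab v ∈ sextets ∧ crossInv T0 (lab v) = 1536 := by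
  obtain ⟨hg, h⟩ := rep_ok v
  obtain ⟨h1, h2⟩ := h.resolve_left hv
  refine ⟨sexL_spec h1, ?_⟩
  rw [T0, lab, base_good.2, crossInv_fam (base_good.2 ▸ base_good.1) hg]
  exact h2

theorem exists_vec (g : stabilizer M24 T0) (v : Vec) : ∃ w : Vec, lab w = (g.1.1 : Equiv.Perm GolayPt) • lab v := by
  by_cases hv : v = 0
  · exact ⟨0, by rw [hv, lab_zero, Finset.smul_finset_empty]⟩
  classical
  obtain ⟨hs, hc⟩ := lab_spec hv
  have S := specTrioSex
  rw [← base_good.2] at S
  set Z := {X | X ∈ KSex T0 ∧ crossInv T0 X = 1536} with hZ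
  have hcard : Z.ncard = 7 := S.size (1536, 7) (by decide)
  have hsub : lab '' {u : Vec | u ≠ 0} ⊆ Z := by
    rintro _ ⟨u, hu, rfl⟩
    exact lab_spec hu
  have heq : lab '' {u : Vec | u ≠ 0} = Z := by
    refine Set.eq_of_subset_of_ncard_le hsub ?_ (Set.toFinite _)
    rw [hcard, Set.ncard_image_of_injective _ lab_inj, ← Nat.card_coe_set_eq, Nat.card_eq_fintype_card]
    decide +kernel
  have hmem : (g.1.1 : Equiv.Perm GolayPt) • lab v ∈ Z := by
    refine ⟨smul_mem_sextets g.1.2 hs, ?_⟩
    have h := crossInv_smul (g.1.1 : Equiv.Perm GolayPt) T0 (lab v)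
    rw [show (g.1.1 : Equiv.Perm GolayPt) • T0 = T0 from g.2, hc] at h
    exact h
  rw [← heq] at hmem
  obtain ⟨w, -, e⟩ := hmem
  exact ⟨w, e⟩

/-- The induced map on vectors. -/
noncomputable def img (g : stabilizer M24 T0) (v : Vec) : Vec := (exists_vec g v).choose

theorem lab_img (g : stabilizer M24 T0) (v : Vec) : lab (img g v) = (g.1.1 : Equiv.Perm GolayPt) • lab v :=
  (exists_vec g v).choose_spec

theorem img_eq {g : stabilizer M24 T0} {v w : Vec} (h : lab w = (g.1.1 : Equiv.Perm GolayPt) • lab v) :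
    img g v = w := lab_inj ((lab_img g v).trans h.symm)

theorem img_mul (g h : stabilizer M24 T0) (v : Vec) : img (g * h) v = img g (img h v) :=
  img_eq (by rw [lab_img, lab_img]; exact (mul_smul _ _ _).symm)

theorem img_one (v : Vec) : img 1 v = v := img_eq (one_smul _ _).symm

theorem img_zero (g : stabilizer M24 T0) : img g 0 = 0 :=
  img_eq (by rw [lab_zero, Finset.smul_finset_empty])

/-- Collinearity of three sextets refining a trio. -/
def Line (a b c : Fam) : Prop := ∀ x ∈ a, ∀ y ∈ b, ∀ z ∈ c, (x ∩ y ∩ z).card ≠ 1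

theorem line_smul (σ : Equiv.Perm GolayPt) {a b c : Fam} (h : Line a b c) : Line (σ • a) (σ • b) (σ • c) := by
  intro x hx y hy z hz
  obtain ⟨x, hx', rfl⟩ := Finset.mem_smul_finset.1 hx
  obtain ⟨y, hy', rfl⟩ := Finset.mem_smul_finset.1 hy
  obtain ⟨z, hz', rfl⟩ := Finset.mem_smul_finset.1 hz
  rw [← Finset.smul_finset_inter, ← Finset.smul_finset_inter, Finset.card_smul_finset]
  exact h x hx' y hy' z hz'

/-- The test on masks. -/
noncomputable def lineL (a b c : List ℕ) : Bool :=
  a.all fun x => b.all fun y => c.all fun z => !(Nat.beq (popRec 24 (x &&& y &&& z)) 1)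

theorem lineL_iff {u v w : Vec} : Line (lab u) (lab v) (lab w) ↔ lineL (rep u) (rep v) (rep w) = true := by
  have hlt : ∀ a : Vec, ∀ m ∈ rep a, m < 2 ^ 24 := fun a => (goodRep_spec _ (rep_ok a).1).2
  simp only [lineL, List.all_eq_true, Bool.not_eq_true', ← popc_eq_popRec]
  constructor
  · intro h x hx y hy z hz
    have := h (toSet x) (List.mem_toFinset.2 (List.mem_map_of_mem hx)) (toSet y)
      (List.mem_toFinset.2 (List.mem_map_of_mem hy)) (toSet z) (List.mem_toFinset.2 (List.mem_map_of_mem hz))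
    rw [← popc_mask, mask_inter, mask_inter, mask_toSet (hlt u x hx), mask_toSet (hlt v y hy),
      mask_toSet (hlt w z hz)] at this
    rwa [← Bool.not_eq_true, Nat.beq_eq]
  · intro h x hx y hy z hz
    obtain ⟨x', hx', rfl⟩ := List.mem_map.1 (List.mem_toFinset.1 hx)
    obtain ⟨y', hy', rfl⟩ := List.mem_map.1 (List.mem_toFinset.1 hy)
    obtain ⟨z', hz', rfl⟩ := List.mem_map.1 (List.mem_toFinset.1 hz)
    have := h x' hx' y' hy' z' hz'
    rw [← Bool.not_eq_true, Nat.beq_eq] at this
    rwa [← popc_mask, mask_inter, mask_inter, mask_toSet (hlt u x' hx'), mask_toSet (hlt v y' hy'),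
      mask_toSet (hlt w z' hz')]

theorem line_iff_add (u v w : Vec) (hu : u ≠ 0) (hv : v ≠ 0) (huv : u ≠ v) (hw : w ≠ 0) (hwu : w ≠ u)
    (hwv : w ≠ v) : lineL (rep u) (rep v) (rep w) = true ↔ w = u + v := by
  have key : ∀ u v w : Vec, (decide (u = 0) || decide (v = 0) || decide (u = v) || decide (w = 0) ||
      decide (w = u) || decide (w = v) || (lineL (rep u) (rep v) (rep w) == decide (w = u + v))) = true := by
    decide +kernel
  have h := key u v w
  simp only [hu, hv, huv, hw, hwu, hwv, decide_false, Bool.false_or, beq_iff_eq] at h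
  rw [h, decide_eq_true_iff]

theorem vec_facts : ∀ u v : Vec, u + u = 0 ∧ (u ≠ 0 → v ≠ 0 → u ≠ v → u + v ≠ 0 ∧ u + v ≠ u ∧ u + v ≠ v) := by
  decide +kernel

theorem img_inj (g : stabilizer M24 T0) : Function.Injective (img g) := fun u v e => by
  have := congrArg (img g⁻¹) e
  rwa [← img_mul, ← img_mul, inv_mul_cancel, img_one, img_one] at this

theorem img_add (g : stabilizer M24 T0) (u v : Vec) : img g (u + v) = img g u + img g v := by
  by_cases hu : u = 0
  · rw [hu, zero_add, img_zero, zero_add]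
  by_cases hv : v = 0
  · rw [hv, add_zero, img_zero, add_zero]
  by_cases huv : u = v
  · rw [huv, (vec_facts v v).1, img_zero, (vec_facts (img g v) 0).1]
  obtain ⟨h1, h2, h3⟩ := (vec_facts u v).2 hu hv huv
  have hne : ∀ {a : Vec}, a ≠ 0 → img g a ≠ 0 := fun {a} ha e => ha (img_inj g (e.trans (img_zero g).symm))
  have hline := lineL_iff.2 ((line_iff_add u v (u + v) hu hv huv h1 h2 h3).2 rfl)
  have h := line_smul (g.1.1 : Equiv.Perm GolayPt) hline
  rw [← lab_img, ← lab_img, ← lab_img] at h
  exact (line_iff_add _ _ _ (hne hu) (hne hv) (fun e => huv (img_inj g e)) (hne h1)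
    (fun e => h2 (img_inj g e)) (fun e => h3 (img_inj g e))).1 (lineL_iff.1 h)

/-- The action as automorphisms. -/
noncomputable def toAut : stabilizer M24 T0 →* MulAut (Multiplicative Vec) where
  toFun g :=
    { toFun := fun a => Multiplicative.ofAdd (img g a.toAdd)
      invFun := fun a => Multiplicative.ofAdd (img g⁻¹ a.toAdd)
      left_inv := fun a => by simp [← img_mul, img_one]
      right_inv := fun a => by simp [← img_mul, img_one]
      map_mul' := fun a b => by simp [toAdd_mul, img_add] }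
  map_one' := MulEquiv.ext fun a => congrArg Multiplicative.ofAdd (img_one a.toAdd)
  map_mul' g h := MulEquiv.ext fun a => congrArg Multiplicative.ofAdd (img_mul g h a.toAdd)

/-- The combined action. -/
noncomputable def phi : stabilizer M24 T0 →* GL (Fin 3) (ZMod 2) × Equiv.Perm (Fin 3) :=
  (Listed.toGL.comp toAut).prod
    ((Finset.equivFinOfCardEq T0_mem.1).permCongrHom.toMonoidHom.comp (SextetStruct.toPerm T0))

theorem mem_ker {g : stabilizer M24 T0} :
    g ∈ phi.ker ↔ (∀ v, img g v = v) ∧ ∀ t ∈ T0, (g.1.1 : Equiv.Perm GolayPt) • t = t := by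
  rw [MonoidHom.mem_ker, Prod.ext_iff, ← SextetStruct.mem_ker, MonoidHom.mem_ker]
  refine and_congr ⟨fun h v => ?_, fun h => ?_⟩ ?_
  · have h' : toAut g = 1 := Listed.toGL_injective (h.trans (map_one Listed.toGL).symm)
    exact congrArg (fun f : MulAut (Multiplicative Vec) => (f (Multiplicative.ofAdd v)).toAdd) h'
  · show Listed.toGL (toAut g) = 1
    rw [show toAut g = 1 from MulEquiv.ext fun a => congrArg Multiplicative.ofAdd (h a.toAdd), map_one]
  · exact MulEquiv.map_eq_one_iff (Finset.equivFinOfCardEq T0_mem.1).permCongrHom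

/-- Key of a table acting on the sextets. -/
def linKey (t : List ℕ) : List ℕ :=
  [1, 2, 4].map fun i => famHash 16777213 ((TrioData.seven.getD (i - 1) []).map (actTab t))

theorem elts_ok :
    (TrioData.linElts.all fun t => validTab t && presTab t && TrioData.base.all fun m => Nat.beq (actTab t m) m) = true ∧
    TrioData.linElts.length = 168 ∧ (TrioData.linElts.map linKey).Nodup ∧
    (TrioData.permElts.all fun t => validTab t && presTab t && fixL t TrioData.base) = true ∧
    TrioData.permElts.length = 6 ∧ (TrioData.permElts.map fun t => TrioData.base.map (actTab t)).Nodup := by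
  decide +kernel

theorem ker_ok : Listed.tabsOk TrioData.keys TrioData.kerElts = true ∧ TrioData.kerElts.length = 64 ∧
    TrioData.kerElts.all (fun t => (TrioData.base.all fun m => Nat.beq (actTab t m) m) &&
      TrioData.seven.all (fun k => fixL t k) && mulTab t t == List.range 24) = true := by
  decide +kernel

theorem fix_base {t : List ℕ} (hv : validTab t = true) (h : ∀ m ∈ TrioData.base, actTab t m = m) :
    (∀ u ∈ T0, permOf t • u = u) ∧ permOf t • T0 = T0 := by
  have hlt := (goodRep_spec _ base_good.1).2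
  have h1 : ∀ u ∈ T0, permOf t • u = u := by
    intro u hu
    obtain ⟨m, hm, rfl⟩ := List.mem_map.1 (List.mem_toFinset.1 hu)
    rw [← toSet_mask (permOf t • toSet m), mask_smul hv, mask_toSet (hlt m hm), h m hm]
  refine ⟨h1, Finset.eq_of_subset_of_card_le (fun x hx => ?_) (Finset.card_smul_finset _ T0).ge⟩
  obtain ⟨y, hy, rfl⟩ := Finset.mem_smul_finset.1 hx
  rw [h1 y hy]; exact hy

theorem surj : Function.Surjective phi := by
  classical
  obtain ⟨hl, hll, hlnd, hp, hpl, hpnd⟩ := elts_ok
  simp only [List.all_eq_true, Bool.and_eq_true, Nat.beq_eq] at hl hp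
  -- the linear part
  let A : Fin TrioData.linElts.length → stabilizer M24 T0 := fun i =>
    ⟨⟨permOf (TrioData.linElts[i.1]), permOf_mem_M24 (hl _ (List.getElem_mem _)).1.1 (hl _ (List.getElem_mem _)).1.2⟩,
      (fix_base (hl _ (List.getElem_mem _)).1.1 (hl _ (List.getElem_mem _)).2).2⟩
  have hA : ∀ i, ∀ t ∈ T0, ((A i).1.1 : Equiv.Perm GolayPt) • t = t := fun i =>
    (fix_base (hl _ (List.getElem_mem _)).1.1 (hl _ (List.getElem_mem _)).2).1
  have hAinj : Function.Injective (fun i => Listed.toGL (toAut (A i))) := by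
    intro i j e
    have e' : toAut (A i) = toAut (A j) := Listed.toGL_injective e
    have hall : ∀ v, (permOf (TrioData.linElts[i.1])) • lab v = (permOf (TrioData.linElts[j.1])) • lab v := by
      intro v
      rw [show permOf (TrioData.linElts[i.1]) • lab v = lab (img (A i) v) from (lab_img (A i) v).symm,
        show permOf (TrioData.linElts[j.1]) • lab v = lab (img (A j) v) from (lab_img (A j) v).symm]
      exact congrArg lab (congrArg (fun f : MulAut (Multiplicative Vec) => (f (Multiplicative.ofAdd v)).toAdd) e')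
    have key : ∀ t : List ℕ, validTab t = true → ∀ k ∈ [1, 2, 4],
        famHash 16777213 ((TrioData.seven.getD (k - 1) []).map (actTab t)) =
          hashOf 16777213 (permOf t • fam (TrioData.seven.getD (k - 1) [])) := by
      intro t ht k hk
      have hg : goodRep (TrioData.seven.getD (k - 1) []) = true :=
        (by decide +kernel : ∀ k ∈ [1, 2, 4], goodRep (TrioData.seven.getD (k - 1) []) = true) k hk
      obtain ⟨h1, h2⟩ := smul_fam ht hg
      rw [← h2, hashOf, famHash, sum_fam h1]
      congr 2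
      refine List.map_congr_left fun m hm => ?_
      simp only [mask_toSet ((goodRep_spec _ h1).2 m hm)]
    have hk : linKey (TrioData.linElts[i.1]) = linKey (TrioData.linElts[j.1]) := by
      refine List.map_congr_left fun k hk => ?_
      rw [key _ (hl _ (List.getElem_mem _)).1.1 k hk, key _ (hl _ (List.getElem_mem _)).1.1 k hk]
      obtain ⟨v, hv⟩ : ∃ v : Vec, rep v = TrioData.seven.getD (k - 1) [] :=
        (by decide +kernel : ∀ k ∈ [1, 2, 4], ∃ v : Vec, rep v = TrioData.seven.getD (k - 1) []) k hk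
      rw [← hv]
      exact congrArg (hashOf 16777213) (hall v)
    have := List.nodup_iff_injective_getElem.1 hlnd (a₁ := ⟨i.1, by simp⟩) (a₂ := ⟨j.1, by simp⟩) (by simpa using hk)
    exact Fin.ext (congrArg Fin.val this :)
  have hGL : Nat.card (GL (Fin 3) (ZMod 2)) = 168 := by
    rw [Matrix.card_GL_field, ZMod.card, Fin.prod_univ_three]; rfl
  have hAbij := (Nat.bijective_iff_injective_and_card _).2 ⟨hAinj, by rw [Nat.card_fin, hll, hGL]⟩
  -- the permutation part
  have hgood := base_good.1
  let B : Fin TrioData.permElts.length → stabilizer M24 T0 := fun i =>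
    ⟨⟨permOf (TrioData.permElts[i.1]), permOf_mem_M24 (hp _ (List.getElem_mem _)).1.1 (hp _ (List.getElem_mem _)).1.2⟩,
      (fixL_iff (hp _ (List.getElem_mem _)).1.1 hgood).2 (hp _ (List.getElem_mem _)).2⟩
  have hBinj : Function.Injective (fun i => SextetStruct.toPerm T0 (B i)) := by
    intro i j e
    have hk : TrioData.base.map (actTab (TrioData.permElts[i.1])) = TrioData.base.map (actTab (TrioData.permElts[j.1])) := by
      refine List.map_congr_left fun m hm => ?_
      have hm' := (goodRep_spec _ hgood).2 m hm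
      have h := congrArg (fun f : Equiv.Perm ↥T0 => (f ⟨toSet m, List.mem_toFinset.2 (List.mem_map_of_mem hm)⟩).1) e
      have h' : permOf (TrioData.permElts[i.1]) • toSet m = permOf (TrioData.permElts[j.1]) • toSet m := h
      conv_lhs => rw [← mask_toSet hm', ← mask_smul (hp _ (List.getElem_mem _)).1.1, h']
      rw [mask_smul (hp _ (List.getElem_mem _)).1.1, mask_toSet hm']
    have := List.nodup_iff_injective_getElem.1 hpnd (a₁ := ⟨i.1, by simp⟩) (a₂ := ⟨j.1, by simp⟩) (by simpa using hk)
    exact Fin.ext (congrArg Fin.val this :)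
  have hBbij := (Nat.bijective_iff_injective_and_card _).2 ⟨hBinj, by
    rw [Nat.card_fin, hpl, Nat.card_perm, Nat.card_eq_finsetCard, T0_mem.1]; rfl⟩
  rintro ⟨M, π⟩
  obtain ⟨j, hj⟩ := hBbij.2 ((Finset.equivFinOfCardEq T0_mem.1).permCongrHom.symm π)
  obtain ⟨i, hi⟩ := hAbij.2 ((Listed.toGL (toAut (B j)))⁻¹ * M)
  refine ⟨B j * A i, ?_⟩
  refine Prod.ext ?_ ?_
  · show Listed.toGL (toAut (B j * A i)) = M
    rw [map_mul, map_mul, show Listed.toGL (toAut (A i)) = _ from hi, mul_inv_cancel_left]
  · show (Finset.equivFinOfCardEq T0_mem.1).permCongrHom (SextetStruct.toPerm T0 (B j * A i)) = π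
    have hA1 : SextetStruct.toPerm T0 (A i) = 1 := MonoidHom.mem_ker.1 (SextetStruct.mem_ker.2 (hA i))
    rw [map_mul, hA1, mul_one, show SextetStruct.toPerm T0 (B j) = _ from hj, MulEquiv.apply_symm_apply]

theorem card_stab {T : Fam} (hT : T ∈ trios) : Nat.card ↥(stabilizer M24 T) = 64512 := by
  have h := card_stab_mul_orbit T trios (by
    ext X
    constructor
    · rintro ⟨g, rfl⟩; exact smul_mem_trios g.2 hT
    · intro hX
      obtain ⟨g, hg, e⟩ := exists_map_trio hT hX
      exact ⟨⟨g, hg⟩, e⟩)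
  rw [ncard_trios] at h
  omega

theorem card_ker : Nat.card phi.ker = 64 := by
  have hGL : Nat.card (GL (Fin 3) (ZMod 2)) = 168 := by
    rw [Matrix.card_GL_field, ZMod.card, Fin.prod_univ_three]; rfl
  have h := phi.ker.card_mul_index
  rw [Subgroup.index_ker, MonoidHom.range_eq_top.2 surj, Nat.card_congr Subgroup.topEquiv.toEquiv,
    Nat.card_prod, hGL, Nat.card_perm, Nat.card_fin, card_stab T0_mem, show Nat.factorial 3 = 6 by rfl] at h
  omega

theorem ker_sq {x : stabilizer M24 T0} (hx : x ∈ phi.ker) : x * x = 1 := by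
  classical
  obtain ⟨hok, hlen, hall⟩ := ker_ok
  simp only [List.all_eq_true, Bool.and_eq_true, Nat.beq_eq, beq_iff_eq] at hall
  have hv : ∀ t ∈ TrioData.kerElts, validTab t = true := by
    intro t ht
    have := hok
    simp only [Listed.tabsOk, Bool.and_eq_true, List.all_eq_true] at this
    exact (this.1 t ht).1
  set H := phi.ker.map (Subgroup.subtype _) with hH
  have hHcard : Nat.card H = 64 := by
    rw [hH, ← card_ker]
    exact (Nat.card_congr (phi.ker.equivMapOfInjective _ Subtype.val_injective).toEquiv).symm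
  obtain ⟨-, hmem⟩ := Listed.eq_listed (H := H) hok (fun t ht h => by
    obtain ⟨⟨hb, hs⟩, -⟩ := hall t ht
    refine ⟨⟨⟨permOf t, h⟩, (fix_base (hv t ht) hb).2⟩, mem_ker.2 ⟨fun v => ?_, (fix_base (hv t ht) hb).1⟩, rfl⟩
    refine img_eq (Eq.symm ?_)
    by_cases h0 : v = 0
    · rw [h0, lab_zero, Finset.smul_finset_empty]
    have hk : rep v ∈ TrioData.seven :=
      (by decide +kernel : ∀ v : Vec, v ≠ 0 → rep v ∈ TrioData.seven) v h0
    exact (fixL_iff (hv t ht) (rep_ok v).1).2 (hs _ hk)) (by rw [hHcard, hlen])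
  obtain ⟨t, ht, e⟩ := hmem x.1 ⟨x, hx, rfl⟩
  refine Subtype.ext (Subtype.ext ?_)
  simp only [Subgroup.coe_mul, OneMemClass.coe_one]
  rw [← e, ← (mulTab_spec (hv t ht) (hv t ht)).2, (hall t ht).2, Norm.permOf_range]

theorem struct {T : Fam} (hT : T ∈ trios) :
    (∀ e : Equiv.Perm ↥T, ∃ g ∈ stabilizer M24 T, ∀ o : ↥T, (g : Equiv.Perm GolayPt) • (o : Finset GolayPt) = ((e o : ↥T) : Finset GolayPt)) ∧
    ∃ (N : Subgroup ↥(stabilizer M24 T)) (_ : N.Normal), Nat.card N = 64 ∧ (∀ x ∈ N, x * x = 1) ∧
      Nonempty (↥(stabilizer M24 T) ⧸ N ≃* GL (Fin 3) (ZMod 2) × Equiv.Perm (Fin 3)) := by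
  obtain ⟨σ, hσ, rfl⟩ := exists_map_trio T0_mem hT
  refine ⟨fun e => ?_, ?_⟩
  · let r : ↥T0 ≃ ↥(σ • T0) :=
      ⟨fun t => ⟨σ • t.1, Finset.smul_mem_smul_finset t.2⟩,
        fun t => ⟨σ⁻¹ • t.1, by rw [← Finset.smul_mem_smul_finset_iff σ, smul_inv_smul]; exact t.2⟩,
        fun t => Subtype.ext (inv_smul_smul _ _), fun t => Subtype.ext (smul_inv_smul _ _)⟩
    obtain ⟨⟨⟨g, hg⟩, hgT⟩, hge⟩ := surj (1, (Finset.equivFinOfCardEq T0_mem.1).permCongrHom ((r.trans e).trans r.symm))
    have hge' : SextetStruct.toPerm T0 ⟨⟨g, hg⟩, hgT⟩ = (r.trans e).trans r.symm :=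
      (Finset.equivFinOfCardEq T0_mem.1).permCongrHom.injective (congrArg Prod.snd hge)
    have hgT' : g • T0 = T0 := hgT
    refine ⟨⟨σ * g * σ⁻¹, mul_mem (mul_mem hσ hg) (inv_mem hσ)⟩, ?_, fun t => ?_⟩
    · show (σ * g * σ⁻¹) • σ • T0 = σ • T0
      rw [← mul_smul, inv_mul_cancel_right, mul_smul, hgT']
    · show (σ * g * σ⁻¹) • t.1 = (e t).1
      have h := congrArg (fun f : Equiv.Perm ↥T0 => σ • (f (r.symm t)).1) hge'
      simp only [Equiv.trans_apply, Equiv.apply_symm_apply] at h
      rw [mul_smul, mul_smul]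
      exact h.trans (congrArg Subtype.val (r.apply_symm_apply (e t)))
  · set s : M24 := ⟨σ, hσ⟩
    have hs : stabilizer M24 (σ • T0) = (stabilizer M24 T0).map (MulAut.conj s).toMonoidHom :=
      (show stabilizer M24 (σ • T0) = stabilizer M24 (s • T0) from rfl).trans
        (MulAction.stabilizer_smul_eq_stabilizer_map_conj s T0)
    let f : ↥(stabilizer M24 (σ • T0)) ≃* ↥(stabilizer M24 T0) :=
      (((MulAut.conj s).subgroupMap _).trans (MulEquiv.subgroupCongr hs.symm)).symm
    obtain ⟨N, hN, hc, hmem, hiso⟩ := Listed.transport_quotient f phi.ker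
      ⟨QuotientGroup.quotientKerEquivOfSurjective phi surj⟩
    exact ⟨N, hN, hc.trans card_ker, fun x hx => f.injective (by rw [map_mul, map_one]; exact ker_sq (hmem x hx)), hiso⟩

end CfsgLib.Golay.TrioStruct
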